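import Mathlib
import Cfsg.Prelude.Def_PLocal
import Cfsg.Agent.Lib.H13.FFThom

set_option autoImplicit false

/-!
Coprime operators and Thompson factorization.
-/

namespace H13.FFCop

open Subgroup H13.Hol H13.Hol2 H13.FF6 H13.FF7 H13.Trans H13.FFX H13.FFThom
open scoped commutatorElement
open Matrix (SpecialLinearGroup)

universe u

variable {G : Type u} [Group G] {V A B K X R H Q : Subgroup G} {p q : ℕ}

theorem omegaClosure_map_equiv [Finite G] [hp : Fact p.Prime] (e : G ≃* G) :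
    (Omega.omegaClosure p G).map e.toMonoidHom = Omega.omegaClosure p G := by
  have key : ∀ e : G ≃* G, (Omega.omegaClosure p G).map e.toMonoidHom ≤ Omega.omegaClosure p G := by
    intro e
    unfold Omega.omegaClosure
    rw [Subgroup.map_iSup]
    refine iSup_le (fun S => ?_)
    have h1 := Omega.map_omegaZ_equiv (p := p) e (S : Subgroup G)
    unfold Omega.omegaZ at h1
    rw [h1]
    let S' : Sylow p G := S.mapSurjective (f := e.toMonoidHom) e.surjective
    have hS' : (S' : Subgroup G) = (S : Subgroup G).map e.toMonoidHom := rfl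
    rw [← hS']
    exact le_iSup (fun S : Sylow p G => Cfsg.omegaOne p ((S : Subgroup G) ⊓
      centralizer ((S : Subgroup G) : Set G))) S'
  apply le_antisymm (key e)
  intro x hx
  refine ⟨e.symm x, key e.symm ⟨x, hx, rfl⟩, ?_⟩
  exact e.apply_symm_apply x

instance omegaClosure_characteristic [Finite G] [hp : Fact p.Prime] :
    (Omega.omegaClosure p G).Characteristic :=
  characteristic_iff_map_eq.2 (fun e => omegaClosure_map_equiv e)

/-- the relevant subgroup in the ambient group -/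
abbrev VK (p : ℕ) (K : Subgroup G) : Subgroup G := (Omega.omegaClosure p K).map K.subtype

theorem VK_le : VK p K ≤ K := map_subtype_le _

theorem le_normalizer_VK [Finite G] [hp : Fact p.Prime] (hX : X ≤ normalizer (K : Set G)) :
    X ≤ normalizer (VK p K : Set G) :=
  hX.trans (Cores.normalizer_le_normalizer_map K (Omega.omegaClosure p K))

/-- The setting for coprime operators. -/
structure Setting (p q : ℕ) (K X : Subgroup G) : Prop where
  hX : IsPGroup q X
  hXK : X ≤ normalizer (K : Set G)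
  hq : (Nat.card K).Coprime q
  sol : Cfsg.IsPSolvable p K
  core : Cfsg.pPrimeCore p K = ⊥

theorem Setting.isElementaryAbelian [Finite G] [hp : Fact p.Prime] (h : Setting p q K X) :
    Cfsg.IsElementaryAbelian p (VK p K) :=
  ElemAb.map (Omega.isElementaryAbelian_omegaClosure
    (H37.PSolv.centralizer_pCore_le h.sol h.core)) _

theorem Setting.pCore_bar [Finite G] [hp : Fact p.Prime] :
    Cfsg.pCore p (bar (VK p K) K) = ⊥ :=
  pCore_bar_sub pCore_omegaClosure (le_normalizer_VK le_normalizer)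

theorem Setting.data [Finite G] [hp : Fact p.Prime] (h : Setting p q K X) :
    Data p q (VV (VK p K)) (bar (VK p K) K)
      ((Cfsg.pPrimeCore p (bar (VK p K) K)).map (bar (VK p K) K).subtype) (bar (VK p K) X) :=
  data_bar h.isElementaryAbelian (le_normalizer_VK le_normalizer) h.sol Setting.pCore_bar h.hX h.hq
    h.hXK

theorem Setting.bo [Finite G] [hp : Fact p.Prime] (h : Setting p q K X) {A₀ : Subgroup K}
    (hA₀ : A₀ ∈ Cfsg.maxElementaryAbelianSubgroups p K) :
    Cfsg.IsBestOffenderOn p (VK p K) (A₀.map K.subtype) := by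
  refine bo_of_max (K := K) h.isElementaryAbelian VK_le (map_subtype_le _)
    (ElemAb.map hA₀.1 _) ?_
  intro B hB hBe
  have h1 := hA₀.2 (B.subgroupOf K) (ElemAb.subgroupOf hBe K)
  rw [Coprime.card_subgroupOf hB] at h1
  rw [card_map_of_injective K.subtype_injective]
  exact h1

theorem map_le_centralizer {A₀ V₀ : Subgroup K}
    (h : A₀.map K.subtype ≤ centralizer ((V₀.map K.subtype : Subgroup G) : Set G)) :
    A₀ ≤ centralizer (V₀ : Set K) := by
  intro a ha
  rw [mem_centralizer_iff]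
  intro v hv
  apply Subtype.ext
  exact mem_centralizer_iff.1 (h ⟨a, ha, rfl⟩) v ⟨v, hv, rfl⟩

/-- failure of factorization -/
theorem Setting.exists_offender
    (hnf : ¬ Cfsg.thompsonSubgroup p K ≤
      centralizer ((Omega.omegaClosure p K : Subgroup K) : Set K)) :
    ∃ A₀ ∈ Cfsg.maxElementaryAbelianSubgroups p K,
      ¬ A₀.map K.subtype ≤ centralizer (VK p K : Set G) := by
  by_contra hcon
  push Not at hcon
  exact hnf (sSup_le (fun A₀ hA₀ => map_le_centralizer (hcon A₀ hA₀)))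

theorem Setting.exists_plane [Finite G] [hp : Fact p.Prime] [hqf : Fact q.Prime]
    (h : Setting p q K X)
    (hnf : ¬ Cfsg.thompsonSubgroup p K ≤
      centralizer ((Omega.omegaClosure p K : Subgroup K) : Set K)) :
    (p = 2 ∨ p = 3) ∧ ∃ W D : Subgroup G, W ≤ K ⊓ centralizer (X : Set G) ∧
      D ≤ K ⊓ centralizer (X : Set G) ∧ Cfsg.IsElementaryAbelian p W ∧ Nat.card W = p ^ 2 ∧
      D ≤ normalizer (W : Set G) ∧ ∃ _ : ((centralizer (W : Set G)).subgroupOf D).Normal,
        Nonempty ((↥D ⧸ (centralizer (W : Set G)).subgroupOf D) ≃*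
          SpecialLinearGroup (Fin 2) (ZMod p)) := by
  obtain ⟨A₀, hA₀, hAV⟩ := Setting.exists_offender hnf
  set V := VK p K with hVdef
  have hKV : K ≤ normalizer (V : Set G) := le_normalizer_VK le_normalizer
  have hXV : X ≤ normalizer (V : Set G) := le_normalizer_VK h.hXK
  have hd := h.data
  have hff := hd.ff
  obtain ⟨A', hA', hmin⟩ := exists_min_bar h.isElementaryAbelian hKV h.sol Setting.pCore_bar
    (map_subtype_le _) (h.bo hA₀) hAV
  have hA'K : A' ≤ bar V K := hA'.trans (bar_mono (map_subtype_le _))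
  have ht := TV.of_min hff hA'K hmin
  obtain ⟨x, hx, hxA⟩ := FF4.exists_not_mem hff hA'K ht
  refine ⟨FF3.prime_cases hff hA'K ht hx hxA, ?_⟩
  obtain ⟨W', J', τ, hW', hW'c, hJ', hn', hτs, hτk⟩ := FFPlane.plane hd hA'K ht
  let W : Subgroup G := (W'.comap (inV V)).map V.subtype
  have hWmem : ∀ {w : G}, w ∈ W ↔ ∃ v : V, inV V v ∈ W' ∧ (v : G) = w := by
    intro w
    constructor
    · rintro ⟨v, hv, rfl⟩
      exact ⟨v, hv, rfl⟩
    · rintro ⟨v, hv, rfl⟩
      exact ⟨v, hv, rfl⟩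
  have hWV : W ≤ V := map_subtype_le _
  have hWcard : Nat.card W = p ^ 2 := by
    rw [← hW'c, card_map_of_injective V.subtype_injective]
    have h1 : ((W'.comap (inV V)).map (inV V)) = W' := by
      rw [map_comap_eq, inf_eq_right]
      exact (hW'.trans inf_le_left)
    conv_rhs => rw [← h1]
    rw [card_map_of_injective (inV_injective V)]
  let D : Subgroup G := (J'.comap (th V)).map (normalizer (V : Set G)).subtype ⊓
    (K ⊓ centralizer (X : Set G))
  have hD : ∀ {d : G}, d ∈ D ↔ d ∈ K ∧ d ∈ centralizer (X : Set G) ∧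
      ∃ n : normalizer (V : Set G), (n : G) = d ∧ th V n ∈ J' := by
    intro d
    constructor
    · intro hd'
      obtain ⟨⟨n, hn, hnd⟩, h2⟩ := mem_inf.1 hd'
      obtain ⟨h3, h4⟩ := mem_inf.1 h2
      exact ⟨h3, h4, n, hnd, hn⟩
    · rintro ⟨h3, h4, n, hnd, hn⟩
      exact mem_inf.2 ⟨⟨n, hn, hnd⟩, mem_inf.2 ⟨h3, h4⟩⟩
  have hDK : D ≤ K := fun d hd' => (hD.1 hd').1
  have hDJ : ∀ d (hd' : d ∈ D), th V ⟨d, hKV (hDK hd')⟩ ∈ J' ⊓
      centralizer (bar V X : Set (Γ V)) := by
    intro d hd'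
    obtain ⟨h3, h4, n, hnd, hn⟩ := hD.1 hd'
    have hnn : n = ⟨d, hKV (hDK hd')⟩ := Subtype.ext hnd
    rw [hnn] at hn
    refine mem_inf.2 ⟨hn, ?_⟩
    rw [mem_centralizer_iff]
    intro y hy
    obtain ⟨m, hm, rfl⟩ := mem_bar.1 hy
    rw [← map_mul, ← map_mul]
    congr 1
    apply Subtype.ext
    exact mem_centralizer_iff.1 h4 m hm
  -- the homomorphism
  let f : D →* ↥(J' ⊓ centralizer (bar V X : Set (Γ V))) :=
    ((th V).comp (inclusion (hDK.trans hKV))).codRestrict _ (fun d => hDJ d d.2)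
  have hf : ∀ d : D, ((f d : ↥(J' ⊓ centralizer (bar V X : Set (Γ V)))) : Γ V) =
      th V ⟨d, hKV (hDK d.2)⟩ := fun d => rfl
  have hfs : Function.Surjective f := by
    rintro ⟨y, hy⟩
    obtain ⟨hy1, hy2⟩ := mem_inf.1 hy
    have h1 := fixed_lift hKV h.hX h.hq hXV h.hXK (mem_inf.2 ⟨hJ' hy1, hy2⟩)
    obtain ⟨n, hn, hny⟩ := mem_bar.1 h1
    obtain ⟨hn1, hn2⟩ := mem_inf.1 hn
    have hnD : (n : G) ∈ D := hD.2 ⟨hn1, hn2, n, rfl, by rw [hny]; exact hy1⟩
    refine ⟨⟨n, hnD⟩, ?_⟩
    apply Subtype.ext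
    exact hny
  have hconj : ∀ d (hd' : d ∈ D) (v : V),
      th V ⟨d, hKV (hDK hd')⟩ * inV V v * (th V ⟨d, hKV (hDK hd')⟩)⁻¹ =
        inV V ⟨d * v * d⁻¹, (mem_normalizer_iff.1 (hKV (hDK hd')) v).1 v.2⟩ := by
    intro d hd' v
    exact th_conj _ v
  let φ : D →* SpecialLinearGroup (Fin 2) (ZMod p) := τ.comp f
  have hφs : Function.Surjective φ := hτs.comp hfs
  have hker : φ.ker = (centralizer (W : Set G)).subgroupOf D := by
    ext d
    rw [MonoidHom.mem_ker]
    change τ (f d) = 1 ↔ (d : G) ∈ centralizer (W : Set G)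
    rw [hτk, hf, mem_centralizer_iff, mem_centralizer_iff]
    constructor
    · intro h1 w hw
      obtain ⟨v, hv, rfl⟩ := hWmem.1 hw
      have h2 := h1 _ hv
      have h3 := hconj d d.2 v
      rw [← h2, mul_assoc, mul_inv_cancel, mul_one] at h3
      have h4 : (v : G) = d * v * (d : G)⁻¹ := congrArg Subtype.val (inV_inj.1 h3)
      conv_lhs => rw [h4]
      group
    · intro h1 y hy
      obtain ⟨v, rfl⟩ := mem_VV.1 (hW'.trans inf_le_left hy)
      have h2 := h1 v (hWmem.2 ⟨v, hy, rfl⟩)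
      have h3 := hconj d d.2 v
      have h4 : (⟨(d : G) * v * (d : G)⁻¹,
          (mem_normalizer_iff.1 (hKV (hDK d.2)) v).1 v.2⟩ : V) = v := by
        apply Subtype.ext
        change (d : G) * v * (d : G)⁻¹ = v
        rw [← h2]
        group
      rw [h4] at h3
      have h5 : th V ⟨d, hKV (hDK d.2)⟩ * inV V v =
          inV V v * th V ⟨d, hKV (hDK d.2)⟩ := by
        calc th V ⟨d, hKV (hDK d.2)⟩ * inV V v = th V ⟨d, hKV (hDK d.2)⟩ * inV V v *
              (th V ⟨d, hKV (hDK d.2)⟩)⁻¹ * th V ⟨d, hKV (hDK d.2)⟩ := by group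
          _ = _ := by rw [h3]
      exact h5.symm
  have hnorm : ((centralizer (W : Set G)).subgroupOf D).Normal := by
    rw [← hker]
    infer_instance
  refine ⟨W, D, ?_, ?_, ElemAb.of_le h.isElementaryAbelian hWV, hWcard, ?_, hnorm,
    ⟨(QuotientGroup.quotientMulEquivOfEq hker.symm).trans
      (QuotientGroup.quotientKerEquivOfSurjective φ hφs)⟩⟩
  · intro w hw
    obtain ⟨v, hv, rfl⟩ := hWmem.1 hw
    exact mem_inf.2 ⟨VK_le v.2, (inV_mem_centralizer_bar hXV).1 (mem_inf.1 (hW' hv)).2⟩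
  · exact inf_le_right
  · intro d hd'
    have key : ∀ d ∈ D, ∀ w ∈ W, d * w * d⁻¹ ∈ W := by
      intro d hd' w hw
      obtain ⟨v, hv, rfl⟩ := hWmem.1 hw
      refine hWmem.2 ⟨⟨d * v * d⁻¹, (mem_normalizer_iff.1 (hKV (hDK hd')) v).1 v.2⟩, ?_, rfl⟩
      rw [← hconj d hd' v]
      exact (mem_normalizer_iff.1 (hn' (hDJ d hd')) _).1 hv
    apply Norm.mem_normalizer_of (key d hd')
    intro y hy
    have := key d⁻¹ (inv_mem hd') y hy
    rwa [inv_inv] at this

theorem Setting.le_of_offender [Finite G] [hp : Fact p.Prime] [hqf : Fact q.Prime]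
    (h : Setting p q K X) (S : Sylow p K) {R : Subgroup G} (hRK : R ≤ K)
    (hS : (S : Subgroup K).map K.subtype ≤ R) (hX : K ⊓ centralizer (X : Set G) ≤ R)
    (hC : K ⊓ centralizer (VK p K : Set G) ≤ R) {A₀ : Subgroup K}
    (hA₀ : A₀ ∈ Cfsg.maxElementaryAbelianSubgroups p K) : A₀.map K.subtype ≤ R := by
  set V := VK p K with hVdef
  have hKV : K ≤ normalizer (V : Set G) := le_normalizer_VK le_normalizer
  have hXV : X ≤ normalizer (V : Set G) := le_normalizer_VK h.hXK
  have hd := h.data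
  have hff := hd.ff
  have hAK : A₀.map K.subtype ≤ K := map_subtype_le _
  set A := A₀.map K.subtype with hA
  have hbo : Cfsg.IsBestOffenderOn p V A := h.bo hA₀
  obtain ⟨k, D, hD, -, hsup⟩ := FF8.exists_decomp hff _ (bar V A) le_rfl (bar_mono hAK)
    (bo_bar (hAK.trans hKV) hbo)
  have key : bar V A ≤ bar V R := by
    rw [← hsup]
    refine iSup_le (fun i => ?_)
    have hDH : D i ≤ bar V K := (hD i).1.trans (bar_mono hAK)
    have ht := TV.of_min hff hDH (hD i).2
    have hR' : bar V K ⊓ centralizer (bar V X : Set (Γ V)) ≤ bar V R :=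
      (fixed_lift hKV h.hX h.hq hXV h.hXK).trans (bar_mono hX)
    let S' : Sylow p (bar V K) := S.mapSurjective (f := fK hKV) (fK_surjective hKV)
    obtain ⟨E, hE⟩ : ∃ E, E = comp ((Cfsg.pPrimeCore p (bar V K)).map (bar V K).subtype) (D i) :=
      ⟨_, rfl⟩
    obtain ⟨P, hP⟩ := exists_sylow_comp hff hDH ht S' hE
    have hPR : (P : Subgroup E).map E.subtype ≤ bar V R := by
      refine hP.trans ?_
      rintro _ ⟨_, ⟨s, hs, rfl⟩, rfl⟩
      exact th_mem_bar (hS ⟨s, hs, rfl⟩)
    have h1 := hd.comp_le hDH ht hR' hE P hPR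
    refine le_trans ?_ h1
    rw [hE]
    exact le_sup_right
  refine mem_of_bar_le (hAK.trans hKV) key ?_
  intro a ha r hr har
  exact hC (mem_inf.2 ⟨mul_mem (hAK ha) (inv_mem (hRK hr)), har⟩)

end H13.FFCop
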