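import Mathlib
import Cfsg.Agent.Lib.H13.Coprime
import Cfsg.Agent.Lib.H53.Zsig

set_option autoImplicit false

/-!
Finite special quadratic Jordan division rings of characteristic two are fields: a finite additive subgroup `A` of a
ring `E` of characteristic two, containing `1`, all of whose nonzero elements are invertible with inverses in `A`, is
commutative and closed under multiplication.
-/

namespace H13.JField

variable {E : Type*} [Ring E] [CharP E 2]

/-- the hypotheses. -/
structure IsJ (A : AddSubgroup E) : Prop where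
  one : (1 : E) ∈ A
  inv : ∀ a ∈ A, a ≠ 0 → ∃ b ∈ A, a * b = 1 ∧ b * a = 1

variable {A : AddSubgroup E}

theorem add_self (x : E) : x + x = 0 := CharTwo.add_self_eq_zero x

theorem eq_of_add_eq_zero {x y : E} (h : x + y = 0) : x = y := by
  have := add_self y
  rw [← h] at this
  exact (add_right_cancel this).symm

omit [CharP E 2] in
theorem IsJ.nz (_h : IsJ A) {a b : E} (hab : a * b = 1) (h1 : (1 : E) ≠ 0) : b ≠ 0 := by
  rintro rfl
  rw [mul_zero] at hab
  exact h1 hab.symm

theorem IsJ.mul_mul_mem (h : IsJ A) {a b : E} (ha : a ∈ A) (hb : b ∈ A) : a * b * a ∈ A := by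
  by_cases ha0 : a = 0
  · rw [ha0, mul_zero]
    exact A.zero_mem
  by_cases hb0 : b = 0
  · rw [hb0, mul_zero, zero_mul]
    exact A.zero_mem
  have h10 : (1 : E) ≠ 0 := by
    intro h1
    apply ha0
    rw [← mul_one a, h1, mul_zero]
  obtain ⟨a', ha', haa', ha'a⟩ := h.inv a ha ha0
  obtain ⟨b', hb', hbb', hb'b⟩ := h.inv b hb hb0
  by_cases hc0 : b' + a = 0
  · have h1 : b' = a := eq_of_add_eq_zero hc0
    rw [← h1, hb'b, one_mul, h1]
    exact ha
  · obtain ⟨c', hc', hcc', hc'c⟩ := h.inv _ (A.add_mem hb' ha) hc0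
    -- `d = a' + c'`
    have key : (a + a * b * a) * (a' + c') = 1 := by
      have h1 : a + a * b * a = a * b * (b' + a) := by
        rw [mul_add, mul_assoc a b b', hbb', mul_one]
      have h2 : (a + a * b * a) * a' = 1 + a * b := by
        rw [add_mul, haa', mul_assoc (a * b) a a', haa', mul_one]
      have h3 : (a + a * b * a) * c' = a * b := by
        rw [h1, mul_assoc, hcc', mul_one]
      rw [mul_add, h2, h3, add_assoc, add_self, add_zero]
    have hd0 : a' + c' ≠ 0 := by
      intro h1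
      rw [h1, mul_zero] at key
      exact h10 key.symm
    obtain ⟨d', hd', hdd', hd'd⟩ := h.inv _ (A.add_mem ha' hc') hd0
    have h4 : a + a * b * a = d' := by
      calc a + a * b * a = (a + a * b * a) * ((a' + c') * d') := by rw [hdd', mul_one]
        _ = d' := by rw [← mul_assoc, key, one_mul]
    have h5 : a * b * a = a + d' := by
      rw [← h4, ← add_assoc, add_self, zero_add]
    rw [h5]
    exact A.add_mem ha hd'

theorem IsJ.pow_mem (h : IsJ A) {a : E} (ha : a ∈ A) (n : ℕ) : a ^ n ∈ A := by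
  induction n using Nat.strong_induction_on with
  | _ n ih =>
    match n with
    | 0 => rw [pow_zero]; exact h.one
    | 1 => rw [pow_one]; exact ha
    | n + 2 =>
      have h1 := h.mul_mul_mem ha (ih n (by omega))
      have h2 : a ^ (n + 2) = a * a ^ n * a := by
        rw [pow_succ, pow_succ']
      rwa [h2]

theorem IsJ.eq_zero_of_sq (h : IsJ A) {a : E} (ha : a ∈ A) (h2 : a * a = 0) : a = 0 := by
  by_contra h0
  obtain ⟨b, -, -, hba⟩ := h.inv a ha h0
  apply h0
  calc a = b * a * a := by rw [hba, one_mul]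
    _ = 0 := by rw [mul_assoc, h2, mul_zero]

theorem IsJ.eq_one_of_sq (h : IsJ A) {a : E} (ha : a ∈ A) (h2 : a * a = 1) : a = 1 := by
  have h3 : (a + 1) * (a + 1) = 0 := by
    rw [mul_add, add_mul, add_mul, h2, mul_one, one_mul, one_mul]
    have : (1 : E) + a + (a + 1) = (1 + 1) + (a + a) := by abel
    rw [this, add_self, add_self, add_zero]
  exact eq_of_add_eq_zero (h.eq_zero_of_sq (A.add_mem ha h.one) h3)

theorem IsJ.isOfFinOrder [Finite A] (h : IsJ A) {a : E} (ha : a ∈ A) (h0 : a ≠ 0) : IsOfFinOrder a := by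
  rw [isOfFinOrder_iff_pow_eq_one]
  let f : ℕ → A := fun n => ⟨a ^ n, h.pow_mem ha n⟩
  obtain ⟨i, j, hij, hf⟩ := Finite.exists_ne_map_eq_of_infinite f
  have key : ∀ i j : ℕ, i < j → a ^ i = a ^ j → ∃ n, 0 < n ∧ a ^ n = 1 := by
    intro i j hij hf
    obtain ⟨b, -, hab, hba⟩ := h.inv a ha h0
    refine ⟨j - i, by omega, ?_⟩
    have h1 : ∀ k : ℕ, b ^ k * a ^ k = 1 := by
      intro k
      induction k with
      | zero => simp
      | succ k ih =>
        rw [pow_succ, pow_succ', mul_assoc, ← mul_assoc b a, hba, one_mul, ih]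
    calc a ^ (j - i) = b ^ i * a ^ i * a ^ (j - i) := by rw [h1, one_mul]
      _ = b ^ i * a ^ j := by rw [mul_assoc, ← pow_add]; congr 2; omega
      _ = 1 := by rw [← hf, h1]
  rcases lt_or_gt_of_ne hij with h1 | h1
  · exact key i j h1 (congrArg Subtype.val hf)
  · exact key j i h1 (congrArg Subtype.val hf).symm

theorem IsJ.odd_orderOf [Finite A] (h : IsJ A) {a : E} (ha : a ∈ A) (h0 : a ≠ 0) : Odd (orderOf a) := by
  have hpos := (h.isOfFinOrder ha h0).orderOf_pos
  by_contra hodd
  rw [Nat.not_odd_iff_even] at hodd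
  obtain ⟨k, hk⟩ := hodd
  have h1 : a ^ k * a ^ k = 1 := by
    rw [← pow_add, ← hk, pow_orderOf_eq_one]
  have h2 := h.eq_one_of_sq (h.pow_mem ha k) h1
  have h3 := Nat.le_of_dvd (by omega) (orderOf_dvd_of_pow_eq_one h2)
  omega

theorem IsJ.exists_sq [Finite A] (h : IsJ A) {a : E} (ha : a ∈ A) : ∃ b ∈ A, b * b = a := by
  by_cases h0 : a = 0
  · exact ⟨0, A.zero_mem, by rw [h0, mul_zero]⟩
  obtain ⟨k, hk⟩ := h.odd_orderOf ha h0
  refine ⟨a ^ (k + 1), h.pow_mem ha _, ?_⟩
  rw [← pow_add]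
  have h1 : k + 1 + (k + 1) = orderOf a + 1 := by omega
  rw [h1, pow_succ, pow_orderOf_eq_one, one_mul]

theorem IsJ.add_mem_comm (h : IsJ A) {a b : E} (ha : a ∈ A) (hb : b ∈ A) : a * b + b * a ∈ A := by
  have h1 : a * b + b * a = (a + b) * 1 * (a + b) + (a * 1 * a + b * 1 * b) := by
    simp only [mul_one, add_mul, mul_add]
    have : a * a + b * a + (a * b + b * b) + (a * a + b * b) =
      (a * a + a * a) + (b * b + b * b) + (a * b + b * a) := by abel
    rw [this, add_self, add_self, add_zero, zero_add]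
  rw [h1]
  exact A.add_mem (h.mul_mul_mem (A.add_mem ha hb) h.one)
    (A.add_mem (h.mul_mul_mem ha h.one) (h.mul_mul_mem hb h.one))

/-- products of commuting elements -/
theorem IsJ.mul_mem_of_comm [Finite A] (h : IsJ A) {a b : E} (ha : a ∈ A) (hb : b ∈ A)
    (hab : ∀ c ∈ A, c * c = b → c * a = a * c) : a * b ∈ A := by
  obtain ⟨c, hc, hcb⟩ := h.exists_sq hb
  have h1 : c * a * c ∈ A := h.mul_mul_mem hc ha
  rw [hab c hc hcb, mul_assoc, hcb] at h1
  exact h1

/-! ### the group of the maps `x ↦ α x β` -/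

/-- the group of all maps `x ↦ α x β` of `A`. -/
def Mp (A : AddSubgroup E) : Subgroup (Equiv.Perm A) where
  carrier := {t | ∃ α β : Eˣ, ∀ x : A, ((t x : A) : E) = α * x * β}
  one_mem' := ⟨1, 1, fun x => by simp⟩
  mul_mem' := by
    rintro s t ⟨α, β, hs⟩ ⟨γ, δ, ht⟩
    refine ⟨α * γ, δ * β, fun x => ?_⟩
    rw [Equiv.Perm.mul_apply, hs, ht, Units.val_mul, Units.val_mul]
    simp only [mul_assoc]
  inv_mem' := by
    rintro t ⟨α, β, ht⟩
    refine ⟨α⁻¹, β⁻¹, fun x => ?_⟩
    have h1 := ht (t⁻¹ x)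
    rw [← Equiv.Perm.mul_apply, mul_inv_cancel, Equiv.Perm.one_apply] at h1
    rw [h1]
    simp [mul_assoc]

omit [CharP E 2] in
theorem mem_Mp {t : Equiv.Perm A} : t ∈ Mp A ↔ ∃ α β : Eˣ, ∀ x : A, ((t x : A) : E) = α * x * β := Iff.rfl

omit [CharP E 2] in
theorem inverse_of {a b : E} (h1 : a * b = 1) (h2 : b * a = 1) : Ring.inverse a = b :=
  Ring.inverse_unit (⟨a, b, h1, h2⟩ : Eˣ)

omit [CharP E 2] in
theorem IsJ.inverse_mem (h : IsJ A) {a : E} (ha : a ∈ A) : Ring.inverse a ∈ A := by
  by_cases h0 : a = 0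
  · rw [h0, Ring.inverse_zero]
    exact A.zero_mem
  · obtain ⟨b, hb, h1, h2⟩ := h.inv a ha h0
    rw [inverse_of h1 h2]
    exact hb

omit [CharP E 2] in
theorem IsJ.inverse_inverse (h : IsJ A) {a : E} (ha : a ∈ A) : Ring.inverse (Ring.inverse a) = a := by
  by_cases h0 : a = 0
  · rw [h0, Ring.inverse_zero, Ring.inverse_zero]
  · obtain ⟨b, hb, h1, h2⟩ := h.inv a ha h0
    rw [inverse_of h1 h2, inverse_of h2 h1]

/-- the inversion permutation -/
noncomputable def IsJ.ι (h : IsJ A) : Equiv.Perm A where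
  toFun x := ⟨Ring.inverse x, h.inverse_mem x.2⟩
  invFun x := ⟨Ring.inverse x, h.inverse_mem x.2⟩
  left_inv x := Subtype.ext (h.inverse_inverse x.2)
  right_inv x := Subtype.ext (h.inverse_inverse x.2)

omit [CharP E 2] in
theorem IsJ.ι_apply (h : IsJ A) (x : A) : ((h.ι x : A) : E) = Ring.inverse (x : E) := rfl

omit [CharP E 2] in
theorem IsJ.ι_mul_ι (h : IsJ A) : h.ι * h.ι = 1 := by
  ext x
  rw [Equiv.Perm.mul_apply, h.ι_apply, h.ι_apply, h.inverse_inverse x.2]
  rfl

omit [CharP E 2] in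
theorem IsJ.ι_inv (h : IsJ A) : h.ι⁻¹ = h.ι := inv_eq_of_mul_eq_one_left h.ι_mul_ι

omit [CharP E 2] in
theorem IsJ.conj_apply (h : IsJ A) {t : Equiv.Perm A} {α β : Eˣ} (ht : ∀ x : A, ((t x : A) : E) = α * x * β)
    (x : A) : ((h.ι * t * h.ι) x : E) = (β⁻¹ : Eˣ) * x * (α⁻¹ : Eˣ) := by
  rw [Equiv.Perm.mul_apply, Equiv.Perm.mul_apply, h.ι_apply, ht, h.ι_apply]
  by_cases h0 : (x : E) = 0
  · rw [h0, Ring.inverse_zero]
    simp
  · obtain ⟨b, hb, h1, h2⟩ := h.inv x x.2 h0
    rw [inverse_of h1 h2]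
    apply inverse_of
    · calc (α : E) * b * β * ((β⁻¹ : Eˣ) * x * (α⁻¹ : Eˣ))
          = α * b * (β * (β⁻¹ : Eˣ)) * x * (α⁻¹ : Eˣ) := by simp only [mul_assoc]
        _ = α * (b * x) * (α⁻¹ : Eˣ) := by rw [Units.mul_inv, mul_one]; simp only [mul_assoc]
        _ = 1 := by rw [h2, mul_one, Units.mul_inv]
    · calc ((β⁻¹ : Eˣ) * x * (α⁻¹ : Eˣ) : E) * (α * b * β)
          = (β⁻¹ : Eˣ) * x * ((α⁻¹ : Eˣ) * α) * b * β := by simp only [mul_assoc]
        _ = (β⁻¹ : Eˣ) * (x * b) * β := by rw [Units.inv_mul, mul_one]; simp only [mul_assoc]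
        _ = 1 := by rw [h1, mul_one, Units.inv_mul]

omit [CharP E 2] in
theorem IsJ.conj_mem (h : IsJ A) {t : Equiv.Perm A} (ht : t ∈ Mp A) : h.ι * t * h.ι ∈ Mp A := by
  obtain ⟨α, β, ht⟩ := ht
  exact ⟨β⁻¹, α⁻¹, h.conj_apply ht⟩

/-- `1` as an element of `A` -/
def IsJ.e (h : IsJ A) : A := ⟨1, h.one⟩

omit [CharP E 2] in
theorem IsJ.comm_apply (h : IsJ A) {t : Equiv.Perm A} (ht : t ∈ Mp A) (x : A) :
    ((t * (h.ι * t⁻¹ * h.ι)) x : E) = t h.e * x * t h.e := by
  obtain ⟨α, β, ht⟩ := ht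
  have ht' : ∀ x : A, ((t⁻¹ x : A) : E) = (α⁻¹ : Eˣ) * x * (β⁻¹ : Eˣ) := by
    intro x
    have h1 := ht (t⁻¹ x)
    rw [← Equiv.Perm.mul_apply, mul_inv_cancel, Equiv.Perm.one_apply] at h1
    rw [h1]
    simp [mul_assoc]
  rw [Equiv.Perm.mul_apply, ht, h.conj_apply ht', ht, inv_inv, inv_inv]
  change (α : E) * (β * x * α) * β = α * 1 * β * x * (α * 1 * β)
  simp only [mul_one, mul_assoc]

theorem IsJ.exists_Mp [Finite A] (h : IsJ A) {x : A} (hx : (x : E) ≠ 0) : ∃ t ∈ Mp A, t h.e = x := by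
  obtain ⟨c, hc, hcx⟩ := h.exists_sq x.2
  have hc0 : c ≠ 0 := by
    rintro rfl
    rw [mul_zero] at hcx
    exact hx hcx.symm
  obtain ⟨b, hb, h1, h2⟩ := h.inv c hc hc0
  let t : Equiv.Perm A :=
    { toFun := fun y => ⟨c * y * c, h.mul_mul_mem hc y.2⟩
      invFun := fun y => ⟨b * y * b, h.mul_mul_mem hb y.2⟩
      left_inv := fun y => by
        apply Subtype.ext
        change b * (c * y * c) * b = y
        calc b * (c * (y : E) * c) * b = (b * c) * y * (c * b) := by simp only [mul_assoc]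
          _ = y := by rw [h1, h2, one_mul, mul_one]
      right_inv := fun y => by
        apply Subtype.ext
        change c * (b * y * b) * c = y
        calc c * (b * (y : E) * b) * c = (c * b) * y * (b * c) := by simp only [mul_assoc]
          _ = y := by rw [h1, h2, one_mul, mul_one] }
  refine ⟨t, ⟨⟨c, b, h1, h2⟩, ⟨c, b, h1, h2⟩, fun y => rfl⟩, ?_⟩
  apply Subtype.ext
  change c * 1 * c = x
  rw [mul_one, hcx]

/-! ### the subfield generated by an element -/

theorem IsJ.closure_le (h : IsJ A) {c : E} (hc : c ∈ A) {x : E} (hx : x ∈ Subring.closure ({c} : Set E)) : x ∈ A := by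
  rw [Subring.mem_closure_iff] at hx
  have h1 : AddSubgroup.closure (Submonoid.closure ({c} : Set E) : Set E) ≤ A := by
    rw [AddSubgroup.closure_le]
    intro y hy
    obtain ⟨n, rfl⟩ := Submonoid.mem_closure_singleton.1 hy
    exact h.pow_mem hc n
  exact h1 hx

theorem IsJ.sub [Finite A] (h : IsJ A) {c : E} (hc : c ∈ A) (hc0 : c ≠ 0) :
    ∃ m : ℕ, 0 < m ∧ orderOf c ∣ 2 ^ m - 1 ∧ 2 ^ m ≤ Nat.card A ∧
      (2 ^ m = Nat.card A → ∀ x ∈ A, ∀ y ∈ A, x * y = y * x) := by
  classical
  set K : Subring E := Subring.closure ({c} : Set E) with hK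
  have hKA : ∀ x ∈ K, x ∈ A := fun x hx => h.closure_le hc hx
  have hcK : c ∈ K := Subring.subset_closure rfl
  have hmc : IsMulCommutative K := Subring.isMulCommutative_closure (s := ({c} : Set E)) (by
    rintro x hx y hy
    rw [Set.mem_singleton_iff.1 hx, Set.mem_singleton_iff.1 hy])
  let ic : CommRing K := { (inferInstance : Ring K) with mul_comm := hmc.is_comm.comm }
  have hinj : Function.Injective (fun x : K => (⟨(x : E), hKA x x.2⟩ : A)) := by
    intro x y hxy
    have h1 : ((⟨(x : E), hKA x x.2⟩ : A) : E) = ((⟨(y : E), hKA y y.2⟩ : A) : E) :=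
      congrArg Subtype.val hxy
    exact Subtype.ext h1
  have hfin : Finite K := Finite.of_injective _ hinj
  have hnt : Nontrivial K := by
    refine ⟨⟨c, hcK⟩, 0, fun h1 => hc0 (congrArg Subtype.val h1)⟩
  have hunit : ∀ a : K, IsUnit a ∨ a = 0 := by
    intro a
    by_cases ha : (a : E) = 0
    · right
      exact Subtype.ext ha
    · left
      have hpos := (h.isOfFinOrder (hKA a a.2) ha).orderOf_pos
      have h1 : a * a ^ (orderOf (a : E) - 1) = 1 := by
        apply Subtype.ext
        change (a : E) * (((a ^ (orderOf (a : E) - 1) : K)) : E) = 1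
        rw [Subring.coe_pow, ← pow_succ']
        have : orderOf (a : E) - 1 + 1 = orderOf (a : E) := by omega
        rw [this, pow_orderOf_eq_one]
      exact IsUnit.of_mul_eq_one _ h1
  let iF : Field K := Field.ofIsUnitOrEqZero hunit
  have : Fintype K := Fintype.ofFinite K
  have hch : CharP K 2 := by
    refine CharTwo.of_one_ne_zero_of_two_eq_zero one_ne_zero ?_
    apply Subtype.ext
    change ((2 : K) : E) = 0
    have : ((2 : K) : E) = 2 := rfl
    rw [this]
    exact CharTwo.two_eq_zero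
  obtain ⟨m, -, hm⟩ := FiniteField.card K 2
  refine ⟨m, m.2, ?_, ?_, ?_⟩
  · have h1 := FiniteField.pow_card_sub_one_eq_one (⟨c, hcK⟩ : K) (fun h1 => hc0 (congrArg Subtype.val h1))
    rw [hm] at h1
    apply orderOf_dvd_of_pow_eq_one
    have h2 := congrArg Subtype.val h1
    exact h2
  · rw [← hm, ← Nat.card_eq_fintype_card]
    exact Nat.card_le_card_of_injective _ hinj
  · intro hcard
    rw [← hm, ← Nat.card_eq_fintype_card] at hcard
    have hbij := (Nat.bijective_iff_injective_and_card _).2 ⟨hinj, hcard⟩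
    intro x hx y hy
    obtain ⟨x', hx'⟩ := hbij.2 ⟨x, hx⟩
    obtain ⟨y', hy'⟩ := hbij.2 ⟨y, hy⟩
    have hx'' : (x' : E) = x := congrArg Subtype.val hx'
    have hy'' : (y' : E) = y := congrArg Subtype.val hy'
    rw [← hx'', ← hy'']
    exact congrArg Subtype.val (mul_comm x' y')

/-! ### the even case -/

/-- commutativity -/
def Cm (A : AddSubgroup E) : Prop := ∀ x ∈ A, ∀ y ∈ A, x * y = y * x

theorem IsJ.even_step [Finite A] (h : IsJ A) (ih : ∀ B : AddSubgroup E, IsJ B → B < A → Cm B) (α : Eˣ)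
    (hα : ∀ x ∈ A, (α : E) * x * (α⁻¹ : Eˣ) ∈ A)
    (hα2 : ∀ x ∈ A, (α : E) * (α * x * (α⁻¹ : Eˣ)) * (α⁻¹ : Eˣ) = x)
    (hne : ∃ x ∈ A, (α : E) * x * (α⁻¹ : Eˣ) ≠ x) : Cm A := by
  -- conjugation
  set κ : E → E := fun x => (α : E) * x * (α⁻¹ : Eˣ) with hκ
  have κadd : ∀ x y, κ (x + y) = κ x + κ y := fun x y => by simp only [hκ, mul_add, add_mul]
  have κmul : ∀ x y, κ (x * y) = κ x * κ y := fun x y => by
    simp only [hκ]
    calc (α : E) * (x * y) * (α⁻¹ : Eˣ) = α * x * ((α⁻¹ : Eˣ) * α) * y * (α⁻¹ : Eˣ) := by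
          rw [Units.inv_mul, mul_one]; simp only [mul_assoc]
      _ = _ := by simp only [mul_assoc]
  have κone : κ 1 = 1 := by simp [hκ]
  have κκ : ∀ x ∈ A, κ (κ x) = x := hα2
  have κA : ∀ x ∈ A, κ x ∈ A := hα
  -- the fixed subgroup
  let F : AddSubgroup E :=
    { carrier := {x | x ∈ A ∧ κ x = x}
      zero_mem' := ⟨A.zero_mem, by simp [hκ]⟩
      add_mem' := by
        rintro a b ⟨ha, ha'⟩ ⟨hb, hb'⟩
        exact ⟨A.add_mem ha hb, by rw [κadd, ha', hb']⟩
      neg_mem' := by
        rintro a ⟨ha, ha'⟩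
        exact ⟨A.neg_mem ha, by rw [CharTwo.neg_eq, ha']⟩ }
  have hFmem : ∀ {x : E}, x ∈ F ↔ x ∈ A ∧ κ x = x := Iff.rfl
  have hFA : F < A := by
    refine lt_of_le_of_ne (fun x hx => hx.1) ?_
    intro h1
    obtain ⟨x, hx, hxne⟩ := hne
    rw [← h1] at hx
    exact hxne hx.2
  have hFJ : IsJ F := by
    refine ⟨⟨h.one, κone⟩, ?_⟩
    rintro a ⟨ha, ha'⟩ ha0
    obtain ⟨b, hb, hab, hba⟩ := h.inv a ha ha0
    refine ⟨b, ⟨hb, ?_⟩, hab, hba⟩
    calc κ b = (b * a) * κ b := by rw [hba, one_mul]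
      _ = b * (κ a * κ b) := by rw [ha', mul_assoc]
      _ = b := by rw [← κmul, hab, κone, mul_one]
  have : Finite F := Finite.of_injective (fun x : F => (⟨x, x.2.1⟩ : A)) (by
    intro x y hxy
    have h1 : ((⟨(x : E), x.2.1⟩ : A) : E) = ((⟨(y : E), y.2.1⟩ : A) : E) := congrArg Subtype.val hxy
    exact Subtype.ext h1)
  have hFc : Cm F := ih F hFJ hFA
  -- `δ`
  have δF : ∀ x ∈ A, κ x + x ∈ F := by
    intro x hx
    refine ⟨A.add_mem (κA x hx) hx, ?_⟩
    rw [κadd, κκ x hx, add_comm]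
  -- `F` is central
  have hcent : ∀ f ∈ F, ∀ x ∈ A, f * x = x * f := by
    have h1 : ∀ a ∈ F, ∀ x ∈ A, a * x + x * a ∈ F := by
      intro a ha x hx
      refine ⟨h.add_mem_comm ha.1 hx, ?_⟩
      have h2 : κ x = x + (κ x + x) := by
        rw [add_comm (κ x) x, ← add_assoc, add_self, zero_add]
      rw [κadd, κmul, κmul, ha.2]
      have h3 := hFc a ha _ (δF x hx)
      rw [h2, mul_add, add_mul, h3]
      have : a * x + (κ x + x) * a + (x * a + (κ x + x) * a) =
        a * x + x * a + ((κ x + x) * a + (κ x + x) * a) := by abel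
      rw [this, add_self, add_zero]
    intro f hf x hx
    obtain ⟨a, ha, rfl⟩ := hFJ.exists_sq hf
    have h2 := h1 a ha x hx
    have h3 := hFc a ha _ h2
    have h4 : a * a * x + x * (a * a) = a * (a * x + x * a) + (a * x + x * a) * a := by
      rw [mul_add, add_mul]
      have : a * (a * x) + a * (x * a) + (a * x * a + x * a * a) =
        a * a * x + x * (a * a) + (a * (x * a) + a * (x * a)) := by
        simp only [mul_assoc]
        abel
      rw [this, add_self, add_zero]
    rw [h3, add_self] at h4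
    exact eq_of_add_eq_zero h4
  -- products
  have hFmul : ∀ f ∈ F, ∀ x ∈ A, f * x ∈ A := by
    intro f hf x hx
    obtain ⟨g, hg, rfl⟩ := hFJ.exists_sq hf
    have h1 := h.mul_mul_mem hg.1 hx
    rwa [mul_assoc, ← hcent g hg x hx, ← mul_assoc] at h1
  -- choose `x` outside `F`
  obtain ⟨x, hx, hxne⟩ := hne
  have hd := δF x hx
  have hd0 : κ x + x ≠ 0 := fun h1 => hxne (eq_of_add_eq_zero h1)
  obtain ⟨e, he, hde, hed⟩ := hFJ.inv _ hd hd0
  have hgen : ∀ y ∈ A, ∃ f ∈ F, ∃ g ∈ F, y = f + g * x := by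
    intro y hy
    have hg : (κ y + y) * e ∈ F := by
      have h1 : (κ y + y) * e ∈ A := by
        rw [hcent _ (δF y hy) e he.1]
        exact hFmul e he _ (δF y hy).1
      exact ⟨h1, by rw [κmul, (δF y hy).2, he.2]⟩
    refine ⟨y + (κ y + y) * e * x, ⟨A.add_mem hy (hFmul _ hg x hx), ?_⟩, _, hg, ?_⟩
    · rw [κadd, κmul, hg.2]
      have h2 : κ x = (κ x + x) + x := by rw [add_assoc, add_self, add_zero]
      have h3 : (κ y + y) * e * (κ x + x) = κ y + y := by rw [mul_assoc, hed, mul_one]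
      calc κ y + (κ y + y) * e * κ x = κ y + (κ y + y) * e * ((κ x + x) + x) := by rw [← h2]
        _ = (κ y + κ y) + y + (κ y + y) * e * x := by rw [mul_add, h3]; abel
        _ = _ := by rw [add_self, zero_add]
    · rw [add_assoc, add_self, add_zero]
  intro y hy z hz
  obtain ⟨f, hf, g, hg, rfl⟩ := hgen y hy
  obtain ⟨f', hf', g', hg', rfl⟩ := hgen z hz
  have e1 : g * x * f' = f' * (g * x) := (hcent f' hf' _ (hFmul g hg x hx)).symm
  have e2 : f * (g' * x) = g' * x * f := hcent f hf _ (hFmul g' hg' x hx)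
  have e3 : f * f' = f' * f := hcent f hf f' hf'.1
  have e4 : g * x * (g' * x) = g' * x * (g * x) := by
    calc g * x * (g' * x) = g * (x * g') * x := by simp only [mul_assoc]
      _ = g * g' * (x * x) := by rw [← hcent g' hg' x hx]; simp only [mul_assoc]
      _ = g' * g * (x * x) := by rw [hcent g hg g' hg'.1]
      _ = g' * (g * x) * x := by simp only [mul_assoc]
      _ = g' * x * (g * x) := by rw [hcent g hg x hx]; simp only [mul_assoc]; rw [hcent g hg x hx]
  simp only [mul_add, add_mul]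
  rw [e1, e2, e3, e4]
  abel

/-! ### the odd case -/

theorem exists_card [Finite A] : ∃ n : ℕ, Nat.card A = 2 ^ n := by
  have h2 : ∀ x : A, 2 • x = 0 := by
    intro x
    apply Subtype.ext
    change ((2 • x : A) : E) = 0
    rw [two_nsmul, AddSubgroup.coe_add, add_self]
  let _ : Module (ZMod 2) A := AddCommGroup.zmodModule h2
  refine ⟨Module.finrank (ZMod 2) A, ?_⟩
  rw [Module.natCard_eq_pow_finrank (K := ZMod 2), Nat.card_zmod]

/-- elements of order three are central. -/
theorem IsJ.central_of_cube [Finite A] (h : IsJ A) {c b : E} (hc : c ∈ A) (hb : b ∈ A) (h3 : c ^ 3 = 1) :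
    c * b = b * c := by
  by_cases hc1 : c = 1
  · rw [hc1, one_mul, mul_one]
  have hc10 : c + 1 ≠ 0 := fun h1 => hc1 (eq_of_add_eq_zero h1)
  obtain ⟨d, -, -, hd⟩ := h.inv _ (A.add_mem hc h.one) hc10
  have hsq : c * c = c + 1 := by
    have h4 : (c + 1) * (c * c + (c + 1)) = 0 := by
      have h5 : (c + 1) * (c * c + (c + 1)) = c ^ 3 + 1 + (c * c + c * c) + (c + c) := by
        rw [pow_succ, pow_two]
        simp only [mul_add, add_mul, mul_one, one_mul, mul_assoc]
        abel
      rw [h5, h3]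
      simp only [add_self, add_zero]
    have h6 : c * c + (c + 1) = 0 := by
      calc c * c + (c + 1) = d * (c + 1) * (c * c + (c + 1)) := by rw [hd, one_mul]
        _ = 0 := by rw [mul_assoc, h4, mul_zero]
    exact eq_of_add_eq_zero h6
  by_contra hne
  set w := c * b + b * c with hw
  have hw0 : w ≠ 0 := fun h1 => hne (eq_of_add_eq_zero h1)
  have hwA : w ∈ A := h.add_mem_comm hc hb
  have hcw : c * w = w * c ^ 2 := by
    have h4 : c * w + w * c = w := by
      have h5 : c * w + w * c = c * c * b + b * (c * c) + (c * b * c + c * b * c) := by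
        rw [hw]
        simp only [mul_add, add_mul, mul_assoc]
        abel
      rw [h5, add_self, add_zero, hsq, hw]
      simp only [mul_add, add_mul, mul_one, one_mul]
      have : c * b + b + (b * c + b) = c * b + b * c + (b + b) := by abel
      rw [this, add_self, add_zero]
    have h6 : c * w = w + w * c := by
      rw [← h4, add_assoc]
      have : w * c + (c * w + w * c) * c = w * c + (c * w + w * c) * c := rfl
      rw [h4, add_self, add_zero]
    rw [h6, pow_two, hsq, mul_add, mul_one, add_comm]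
  have hpow : ∀ j : ℕ, c * w ^ j = w ^ j * c ^ (2 ^ j) := by
    have h2 : ∀ i : ℕ, c ^ i * w = w * c ^ (2 * i) := by
      intro i
      induction i with
      | zero => simp
      | succ i ih =>
        rw [pow_succ, mul_assoc, hcw, ← mul_assoc, ih, mul_assoc, ← pow_add]
        congr 2
    intro j
    induction j with
    | zero => simp
    | succ j ih =>
      rw [pow_succ w, ← mul_assoc, ih, mul_assoc, h2, ← mul_assoc]
      congr 2
      ring
  have hodd := h.odd_orderOf hwA hw0
  have h7 := hpow (orderOf w)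
  rw [pow_orderOf_eq_one, mul_one, one_mul] at h7
  obtain ⟨k, hk⟩ := hodd
  have h8 : 2 ^ orderOf w % 3 = 2 := by
    rw [hk, pow_succ, pow_mul]
    have : 4 ^ k % 3 = 1 := by
      rw [Nat.pow_mod]
      norm_num
    norm_num
    omega
  have h9 : c = c ^ 2 := by
    conv_lhs => rw [h7, ← Nat.div_add_mod (2 ^ orderOf w) 3, pow_add, pow_mul, h3, one_pow, one_mul, h8]
  have h10 : c = 1 := by
    calc c = c ^ 3 * c := by rw [h3, one_mul]
      _ = c ^ 2 * c ^ 2 := by rw [← pow_succ, ← pow_add]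
      _ = c * c ^ 2 := by rw [← h9]
      _ = 1 := by rw [← pow_succ', h3]
  exact hc1 h10

theorem IsJ.exists_orbit [Finite A] (h : IsJ A) (h1 : (1 : E) ≠ 0) (hodd : (Nat.card (Mp A)).Coprime 2) (r : ℕ)
    [hr : Fact r.Prime] (e : ℕ) {N : ℕ} (hN : Nat.card A = N + 1) (he : r ^ e ∣ N) :
    ∃ S : Set A, h.e ∈ S ∧ (∀ c ∈ S, (c : E) ≠ 0 ∧ ∃ k : ℕ, orderOf (c : E) ∣ r ^ k) ∧ r ^ e ∣ S.ncard := by
  classical
  have hιp : IsPGroup 2 (Subgroup.zpowers h.ι) := by
    rw [IsPGroup.iff_card]
    have h2 : orderOf h.ι ∣ 2 := by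
      apply orderOf_dvd_of_pow_eq_one
      rw [pow_two, h.ι_mul_ι]
    rw [Nat.card_zpowers]
    rcases (Nat.dvd_prime Nat.prime_two).1 h2 with h3 | h3
    · exact ⟨0, by rw [h3, pow_zero]⟩
    · exact ⟨1, by rw [h3, pow_one]⟩
  have hιT : Subgroup.zpowers h.ι ≤ Subgroup.normalizer (Mp A : Set (Equiv.Perm A)) := by
    rw [Subgroup.zpowers_le, Subgroup.mem_normalizer_iff]
    intro t
    rw [h.ι_inv]
    constructor
    · exact h.conj_mem
    · intro ht
      have h2 := h.conj_mem ht
      have h3 : h.ι * (h.ι * t * h.ι) * h.ι = t := by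
        calc h.ι * (h.ι * t * h.ι) * h.ι = (h.ι * h.ι) * t * (h.ι * h.ι) := by group
          _ = t := by rw [h.ι_mul_ι, one_mul, mul_one]
      rwa [h3] at h2
  have : Fact (Nat.Prime 2) := ⟨Nat.prime_two⟩
  obtain ⟨R, hR⟩ := Coprime.exists_invariant_sylow (p := 2) hιp hodd hιT r
  have hιR : h.ι ∈ Subgroup.normalizer (((R : Subgroup (Mp A)).map (Mp A).subtype : Subgroup (Equiv.Perm A)) : Set (Equiv.Perm A)) :=
    hR (Subgroup.mem_zpowers _)
  refine ⟨MulAction.orbit (R : Subgroup (Mp A)) h.e, MulAction.mem_orbit_self _, ?_, ?_⟩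
  · rintro _ ⟨t, rfl⟩
    set t' : Equiv.Perm A := ((t : Mp A) : Equiv.Perm A) with ht'
    have htM : t' ∈ Mp A := (t : Mp A).2
    change ((t' h.e : A) : E) ≠ 0 ∧ ∃ k : ℕ, orderOf ((t' h.e : A) : E) ∣ r ^ k
    have hc0 : ((t' h.e : A) : E) ≠ 0 := by
      obtain ⟨α, β, hαβ⟩ := htM
      rw [hαβ]
      change (α : E) * 1 * β ≠ 0
      rw [mul_one]
      intro h2
      have h3 : ((α * β : Eˣ) : E) = 0 := h2
      have h4 : (((α * β)⁻¹ : Eˣ) : E) * ((α * β : Eˣ) : E) = 1 := Units.inv_mul _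
      rw [h3, mul_zero] at h4
      exact h1 h4.symm
    refine ⟨hc0, ?_⟩
    set c : E := ((t' h.e : A) : E) with hc
    have hcA : c ∈ A := (t' h.e).2
    have ht'R : t' ∈ (R : Subgroup (Mp A)).map (Mp A).subtype := ⟨t, t.2, rfl⟩
    have hu : t' * (h.ι * t'⁻¹ * h.ι) ∈ (R : Subgroup (Mp A)).map (Mp A).subtype := by
      refine mul_mem ht'R ?_
      have h2 := (Subgroup.mem_normalizer_iff.1 hιR t'⁻¹).1 (inv_mem ht'R)
      rwa [h.ι_inv] at h2
    obtain ⟨k, hk⟩ := (R.2.map (Mp A).subtype) ⟨_, hu⟩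
    have hk' : (t' * (h.ι * t'⁻¹ * h.ι)) ^ r ^ k = 1 := congrArg Subtype.val hk
    have hpw : ∀ j : ℕ, (((t' * (h.ι * t'⁻¹ * h.ι)) ^ j) h.e : E) = c ^ (2 * j) := by
      intro j
      induction j with
      | zero => rw [pow_zero, mul_zero, pow_zero]; rfl
      | succ j ih =>
        rw [pow_succ', Equiv.Perm.mul_apply, h.comm_apply htM, ih, ← hc, ← pow_succ', ← pow_succ]
        congr 1
    have h2 := hpw (r ^ k)
    rw [hk', Equiv.Perm.one_apply] at h2
    have h3 : c ^ (2 * r ^ k) = 1 := h2.symm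
    refine ⟨k, ?_⟩
    have h4 := orderOf_dvd_of_pow_eq_one h3
    exact Nat.Coprime.dvd_of_dvd_mul_left ((Nat.coprime_two_right.2 (h.odd_orderOf hcA hc0))) h4
  · -- counting
    have hT : (MulAction.stabilizer (Mp A) h.e).index = N := by
      rw [MulAction.index_stabilizer]
      have horb : MulAction.orbit (Mp A) h.e = {x : A | x ≠ 0} := by
        ext x
        constructor
        · rintro ⟨t, rfl⟩
          intro h2
          obtain ⟨α, β, hαβ⟩ := t.2
          have h3 : ((t • h.e : A) : E) = 0 := congrArg Subtype.val h2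
          have h4 : (α : E) * 1 * β = 0 := by
            rw [← h3]
            exact (hαβ h.e).symm
          rw [mul_one] at h4
          have h5 : (((α * β)⁻¹ : Eˣ) : E) * ((α * β : Eˣ) : E) = 1 := Units.inv_mul _
          rw [Units.val_mul, h4, mul_zero] at h5
          exact h1 h5.symm
        · intro hx
          have hx0 : (x : E) ≠ 0 := fun h2 => hx (Subtype.ext h2)
          obtain ⟨t, ht, htx⟩ := h.exists_Mp hx0
          exact ⟨⟨t, ht⟩, htx⟩
      rw [horb]
      have h2 : ({x : A | x ≠ 0} : Set A) = ({0} : Set A)ᶜ := rfl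
      rw [h2, Set.ncard_compl, Set.ncard_singleton, hN]
      rfl
    have hR1 : (MulAction.orbit (R : Subgroup (Mp A)) h.e).ncard =
        (MulAction.stabilizer (Mp A) h.e).relIndex (R : Subgroup (Mp A)) := by
      rw [← MulAction.index_stabilizer]
      rfl
    rw [hR1]
    have h2 : r ^ e ∣ (MulAction.stabilizer (Mp A) h.e ⊓ (R : Subgroup (Mp A))).index := by
      refine (he.trans ?_)
      rw [← hT]
      exact Subgroup.index_dvd_of_le inf_le_left
    rw [← Subgroup.relIndex_mul_index (inf_le_right : MulAction.stabilizer (Mp A) h.e ⊓ (R : Subgroup (Mp A)) ≤ R),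
      Subgroup.inf_relIndex_right] at h2
    refine Nat.Coprime.dvd_of_dvd_mul_right ?_ h2
    exact Nat.Coprime.pow_left e ((Nat.Prime.coprime_iff_not_dvd hr.out).2 R.not_dvd_index)

theorem IsJ.odd_case [Finite A] (h : IsJ A) (hodd : (Nat.card (Mp A)).Coprime 2) : Cm A := by
  classical
  by_cases h1 : (1 : E) = 0
  · intro x _ y _
    rw [← mul_one (x * y), ← mul_one (y * x), h1, mul_zero, mul_zero]
  obtain ⟨n, hn⟩ := exists_card (A := A)
  have hn0 : n ≠ 0 := by
    rintro rfl
    rw [pow_zero, Nat.card_eq_one_iff_unique] at hn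
    have := hn.1
    exact h1 (congrArg Subtype.val (Subsingleton.elim h.e 0))
  by_cases hn1 : n = 1
  · subst hn1
    obtain ⟨m, hm0, -, hm, hcm⟩ := h.sub h.one h1
    refine hcm (le_antisymm hm ?_)
    rw [hn]
    exact Nat.pow_le_pow_right (by norm_num) hm0
  have h2n : 2 ^ n = (2 ^ n - 1) + 1 := by
    have : 0 < 2 ^ n := by positivity
    omega
  by_cases h6 : n = 6
  · -- the case `|A| = 64`
    subst h6
    have : Fact (Nat.Prime 3) := ⟨Nat.prime_three⟩
    obtain ⟨S, heS, hS, hdvd⟩ := h.exists_orbit h1 hodd 3 2 (N := 63) (by rw [hn]; norm_num) (by norm_num)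
    by_cases h9 : ∃ c ∈ S, 9 ∣ orderOf (c : E)
    · obtain ⟨c, hcS, hc9⟩ := h9
      obtain ⟨m, hm0, hmd, hmle, hcm⟩ := h.sub c.2 (hS c hcS).1
      refine hcm ?_
      rw [hn] at hmle ⊢
      have hm6 : m ≤ 6 := (Nat.pow_le_pow_iff_right (by norm_num)).1 hmle
      have h9m := hc9.trans hmd
      interval_cases m
      · norm_num at h9m
      · norm_num at h9m
      · norm_num at h9m
      · norm_num at h9m
      · norm_num at h9m
      · rfl
    · exfalso
      push Not at h9
      have hcube : ∀ c ∈ S, (c : E) ^ 3 = 1 := by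
        intro c hc
        obtain ⟨-, k, hk⟩ := hS c hc
        obtain ⟨i, -, hi⟩ := (Nat.dvd_prime_pow Nat.prime_three).1 hk
        have hi2 : i < 2 := by
          by_contra hi2
          apply h9 c hc
          rw [hi]
          exact pow_dvd_pow 3 (not_lt.1 hi2)
        apply orderOf_dvd_iff_pow_eq_one.1
        rw [hi]
        interval_cases i
        · norm_num
        · norm_num
      have hSpos : 0 < S.ncard := by
        rw [Set.ncard_pos]
        exact ⟨_, heS⟩
      have hS9 : 9 ≤ S.ncard := Nat.le_of_dvd hSpos hdvd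
      obtain ⟨c, hcS, hce⟩ : ∃ c ∈ S, c ≠ h.e := by
        by_contra hcon
        push Not at hcon
        have h2 : S ⊆ {h.e} := fun c hc => hcon c hc
        have h3 := Set.ncard_le_ncard h2 (Set.toFinite _)
        rw [Set.ncard_singleton] at h3
        omega
      -- the quadratic equation
      have hquad : ∀ c : A, c ∈ S → c ≠ h.e → (c : E) * c = c + 1 := by
        intro c hcS hce
        have hc1 : (c : E) ≠ 1 := fun h2 => hce (Subtype.ext h2)
        have hc10 : (c : E) + 1 ≠ 0 := fun h1 => hc1 (eq_of_add_eq_zero h1)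
        obtain ⟨d, -, -, hd⟩ := h.inv _ (A.add_mem c.2 h.one) hc10
        have h4 : ((c : E) + 1) * (c * c + (c + 1)) = 0 := by
          have h5 : ((c : E) + 1) * (c * c + (c + 1)) = (c : E) ^ 3 + 1 + (c * c + c * c) + (c + c) := by
            rw [pow_succ, pow_two]
            simp only [mul_add, add_mul, mul_one, one_mul, mul_assoc]
            abel
          rw [h5, hcube c hcS]
          simp only [add_self, add_zero]
        have h6 : (c : E) * c + (c + 1) = 0 := by
          calc (c : E) * c + (c + 1) = d * (c + 1) * (c * c + (c + 1)) := by rw [hd, one_mul]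
            _ = 0 := by rw [mul_assoc, h4, mul_zero]
        exact eq_of_add_eq_zero h6
      have hsub : S ⊆ {h.e, c, c + h.e} := by
        intro d hd
        by_cases hde : d = h.e
        · left
          exact hde
        right
        have hcd := h.central_of_cube c.2 d.2 (hcube c hcS)
        have h2 : ((c : E) + d) * (c + d + 1) = 0 := by
          have h3 : ((c : E) + d) * (c + d + 1) + (1 + 1) =
              (c * c + (c + 1)) + (d * d + (d + 1)) + (c * d + d * c) := by
            simp only [mul_add, add_mul, mul_one]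
            abel
          rw [hquad c hcS hce, hquad d hd hde, hcd] at h3
          simp only [add_self, add_zero] at h3
          exact h3
        by_cases h3 : (c : E) + d = 0
        · left
          exact (Subtype.ext (eq_of_add_eq_zero h3)).symm
        · right
          obtain ⟨u, -, -, hu⟩ := h.inv _ (A.add_mem c.2 d.2) h3
          have h4 : (c : E) + d + 1 = 0 := by
            calc (c : E) + d + 1 = u * (c + d) * (c + d + 1) := by rw [hu, one_mul]
              _ = 0 := by rw [mul_assoc, h2, mul_zero]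
          apply Subtype.ext
          change (d : E) = c + 1
          have h5 : (c : E) + 1 + d = 0 := by
            rw [← h4]
            abel
          exact (eq_of_add_eq_zero h5).symm
      have h3 := Set.ncard_le_ncard hsub (Set.toFinite _)
      have h4 : ({h.e, c, c + h.e} : Set A).ncard ≤ 3 := by
        refine (Set.ncard_insert_le _ _).trans ?_
        have := Set.ncard_insert_le c ({c + h.e} : Set A)
        rw [Set.ncard_singleton] at this
        omega
      omega
  · -- the main case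
    obtain ⟨r, hr, hrn, hrk⟩ := H53.Zsig.zsigmondy (a := 2) (n := n) (by norm_num) (by omega)
      (fun h2 => h6 h2.2) (by
        rintro ⟨-, m, hm⟩
        have h3 : ¬ (3 = 2 ^ m) := by
          intro h4
          rcases m with _ | m
          · norm_num at h4
          · rw [pow_succ] at h4
            omega
        exact h3 hm)
    have : Fact r.Prime := ⟨hr⟩
    obtain ⟨S, heS, hS, hdvd⟩ := h.exists_orbit h1 hodd r 1 (N := 2 ^ n - 1) (by rw [hn]; exact h2n)
      (by rw [pow_one]; exact hrn)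
    rw [pow_one] at hdvd
    have hSpos : 0 < S.ncard := by
      rw [Set.ncard_pos]
      exact ⟨_, heS⟩
    have hS2 : 2 ≤ S.ncard := hr.two_le.trans (Nat.le_of_dvd hSpos hdvd)
    obtain ⟨c, hcS, hce⟩ : ∃ c ∈ S, c ≠ h.e := by
      by_contra hcon
      push Not at hcon
      have h2 : S ⊆ {h.e} := fun c hc => hcon c hc
      have h3 := Set.ncard_le_ncard h2 (Set.toFinite _)
      rw [Set.ncard_singleton] at h3
      omega
    obtain ⟨hc0, k, hk⟩ := hS c hcS
    obtain ⟨i, -, hi⟩ := (Nat.dvd_prime_pow hr).1 hk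
    have hi0 : i ≠ 0 := by
      rintro rfl
      rw [pow_zero, orderOf_eq_one_iff] at hi
      exact hce (Subtype.ext hi)
    have hrc : r ∣ orderOf (c : E) := by
      rw [hi]
      exact dvd_pow_self r hi0
    obtain ⟨m, hm0, hmd, hmle, hcm⟩ := h.sub c.2 hc0
    refine hcm ?_
    rw [hn] at hmle ⊢
    have hmn : m ≤ n := (Nat.pow_le_pow_iff_right (by norm_num)).1 hmle
    have h3 : ¬ m < n := fun h4 => hrk m hm0 h4 (hrc.trans hmd)
    have h4 : m = n := by omega
    rw [h4]

theorem comm_aux : ∀ (n : ℕ) (A : AddSubgroup E) [Finite A], IsJ A → Nat.card A ≤ n → Cm A := by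
  classical
  intro n
  induction n with
  | zero =>
    intro A _ _ hn
    exact absurd (Nat.card_pos (α := A)) (by omega)
  | succ n ih =>
    intro A _ h hn
    by_cases h1 : (1 : E) = 0
    · intro x _ y _
      rw [← mul_one (x * y), ← mul_one (y * x), h1, mul_zero, mul_zero]
    by_cases hodd : (Nat.card (Mp A)).Coprime 2
    · exact h.odd_case hodd
    have h2d : 2 ∣ Nat.card (Mp A) := by
      by_contra h2
      exact hodd ((Nat.Prime.coprime_iff_not_dvd Nat.prime_two).2 h2).symm
    have : Fact (Nat.Prime 2) := ⟨Nat.prime_two⟩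
    obtain ⟨t, ht⟩ := exists_prime_orderOf_dvd_card' (G := Mp A) 2 h2d
    obtain ⟨m, hm⟩ := exists_card (A := A)
    have hm0 : m ≠ 0 := by
      rintro rfl
      rw [pow_zero, Nat.card_eq_one_iff_unique] at hm
      have := hm.1
      exact h1 (congrArg Subtype.val (Subsingleton.elim h.e 0))
    have ht2 : ((t : Equiv.Perm A)) ^ 2 = 1 := by
      have h2 := pow_orderOf_eq_one t
      rw [ht] at h2
      exact congrArg Subtype.val h2
    obtain ⟨α, β, hαβ⟩ := t.2
    have ht0 : (t : Equiv.Perm A) 0 = 0 := by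
      apply Subtype.ext
      rw [hαβ]
      simp
    -- a nonzero fixed point
    obtain ⟨x₀, hx₀, hfix⟩ : ∃ x : A, x ≠ 0 ∧ (t : Equiv.Perm A) x = x := by
      have : Fintype A := Fintype.ofFinite A
      have h3 : 2 ∣ Fintype.card A := by
        rw [← Nat.card_eq_fintype_card, hm]
        exact dvd_pow_self 2 hm0
      obtain ⟨b, hb1, hb2⟩ := Equiv.Perm.exists_fixed_point_of_prime' (p := 2) (n := 1)
        (σ := (t : Equiv.Perm A)) h3 (by rw [pow_one]; exact ht2) ht0
      exact ⟨b, hb2, hb1⟩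
    have hx₀' : (x₀ : E) ≠ 0 := fun h2 => hx₀ (Subtype.ext h2)
    obtain ⟨s, hs, hse⟩ := h.exists_Mp hx₀'
    set t' : Equiv.Perm A := s⁻¹ * t * s with ht'
    have ht'M : t' ∈ Mp A := mul_mem (mul_mem (inv_mem hs) t.2) hs
    have ht'e : t' h.e = h.e := by
      rw [ht', Equiv.Perm.mul_apply, Equiv.Perm.mul_apply, hse, hfix, ← hse, ← Equiv.Perm.mul_apply,
        inv_mul_cancel, Equiv.Perm.one_apply]
    have ht'2 : t' * t' = 1 := by
      have h2 : (t : Equiv.Perm A) * t = 1 := by rw [← pow_two, ht2]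
      calc t' * t' = s⁻¹ * (t * t) * s := by rw [ht']; group
        _ = 1 := by rw [h2, mul_one, inv_mul_cancel]
    have ht'1 : t' ≠ 1 := by
      intro h2
      have h3 : (t : Equiv.Perm A) = 1 := by
        calc (t : Equiv.Perm A) = s * t' * s⁻¹ := by rw [ht']; group
          _ = 1 := by rw [h2, mul_one, mul_inv_cancel]
      have h4 : t = 1 := Subtype.ext h3
      rw [h4, orderOf_one] at ht
      norm_num at ht
    obtain ⟨γ, δ, hγδ⟩ := ht'M
    have hδ : (δ : E) = (γ⁻¹ : Eˣ) := by
      have h2 := hγδ h.e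
      rw [ht'e] at h2
      have h3 : (γ : E) * δ = 1 := by
        have h4 : ((h.e : A) : E) = 1 := rfl
        rw [h4, mul_one] at h2
        exact h2.symm
      calc (δ : E) = (γ⁻¹ : Eˣ) * (γ * δ) := by rw [← mul_assoc, Units.inv_mul, one_mul]
        _ = _ := by rw [h3, mul_one]
    have hγ : ∀ x : A, ((t' x : A) : E) = γ * x * (γ⁻¹ : Eˣ) := by
      intro x
      rw [hγδ, hδ]
    refine h.even_step (fun B hB hBA => ?_) γ ?_ ?_ ?_
    · have hfin : Finite B := Finite.of_injective (AddSubgroup.inclusion hBA.le)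
        (AddSubgroup.inclusion_injective hBA.le)
      refine ih B hB ?_
      have h2 : Nat.card B < Nat.card A := by
        by_contra hc
        exact hBA.ne (AddSubgroup.eq_of_le_of_card_ge hBA.le (not_lt.1 hc))
      omega
    · intro x hx
      have h2 := (t' ⟨x, hx⟩).2
      rw [hγ] at h2
      exact h2
    · intro x hx
      have h2 : t' (t' ⟨x, hx⟩) = ⟨x, hx⟩ := by
        rw [← Equiv.Perm.mul_apply, ht'2, Equiv.Perm.one_apply]
      have h3 := congrArg Subtype.val h2
      rw [hγ, hγ] at h3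
      exact h3
    · by_contra hcon
      push Not at hcon
      apply ht'1
      ext x
      rw [hγ, hcon x x.2, Equiv.Perm.one_apply]

/-- `A` is commutative. -/
theorem IsJ.comm [Finite A] (h : IsJ A) {x y : E} (hx : x ∈ A) (hy : y ∈ A) : x * y = y * x :=
  comm_aux _ A h le_rfl x hx y hy

/-- `A` is closed under multiplication. -/
theorem IsJ.mul_mem [Finite A] (h : IsJ A) {x y : E} (hx : x ∈ A) (hy : y ∈ A) : x * y ∈ A :=
  h.mul_mem_of_comm hx hy fun _ hc _ => h.comm hc hx

end H13.JField
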