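import Mathlib
import Cfsg.Agent.Lib.H13.JField
import Cfsg.Agent.Lib.H13.NatSL2

set_option autoImplicit false

/-!
The field attached to a finite Jordan division ring, and generation of `SL₂(K)` by its two root subgroups.
-/

namespace H13.JField

variable {E : Type*} [Ring E] [CharP E 2] {A : AddSubgroup E}

/-- the subring with underlying set `A` -/
def IsJ.subring [Finite A] (h : IsJ A) : Subring E where
  carrier := A
  mul_mem' := h.mul_mem
  one_mem' := h.one
  add_mem' := A.add_mem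
  zero_mem' := A.zero_mem
  neg_mem' := A.neg_mem

theorem IsJ.mem_subring [Finite A] (h : IsJ A) {x : E} : x ∈ h.subring ↔ x ∈ A := Iff.rfl

instance IsJ.finite_subring [Finite A] (h : IsJ A) : Finite h.subring := inferInstanceAs (Finite A)

theorem IsJ.card_subring [Finite A] (h : IsJ A) : Nat.card h.subring = Nat.card A := rfl

/-- the field structure -/
@[reducible] noncomputable def IsJ.field [Finite A] (h : IsJ A) (h1 : (1 : E) ≠ 0) : Field h.subring :=
  letI : CommRing h.subring :=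
    { (inferInstance : Ring h.subring) with
      mul_comm := fun x y => Subtype.ext (h.comm x.2 y.2) }
  haveI : Nontrivial h.subring := ⟨⟨1, 0, fun h2 => h1 (congrArg Subtype.val h2)⟩⟩
  Field.ofIsUnitOrEqZero (fun a => by
    by_cases ha : (a : E) = 0
    · exact Or.inr (Subtype.ext ha)
    · obtain ⟨b, hb, hab, -⟩ := h.inv a a.2 ha
      exact Or.inl (IsUnit.of_mul_eq_one (⟨b, hb⟩ : h.subring) (Subtype.ext hab)))

end H13.JField

namespace H13.SL2Gen

open Matrix

variable {K : Type*} [Field K]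

theorem decomp {g : SpecialLinearGroup (Fin 2) K} (hc : g 1 0 ≠ 0) :
    g = NatSL2.up ((g 0 0 - 1) / g 1 0) * NatSL2.lo (g 1 0) * NatSL2.up ((g 1 1 - 1) / g 1 0) := by
  have hdet := g.2
  rw [Matrix.det_fin_two] at hdet
  ext i j
  change (g : Matrix (Fin 2) (Fin 2) K) i j =
    ((NatSL2.up ((g 0 0 - 1) / g 1 0) : Matrix (Fin 2) (Fin 2) K) * (NatSL2.lo (g 1 0) : Matrix (Fin 2) (Fin 2) K) *
      (NatSL2.up ((g 1 1 - 1) / g 1 0) : Matrix (Fin 2) (Fin 2) K)) i j
  rw [NatSL2.up_coe, NatSL2.up_coe, NatSL2.lo_coe]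
  have h1 : (g 0 0 - 1) / g 1 0 * g 1 0 = g 0 0 - 1 := div_mul_cancel₀ _ hc
  have h2 : g 1 0 * ((g 1 1 - 1) / g 1 0) = g 1 1 - 1 := mul_div_cancel₀ _ hc
  have hdet' : g 0 0 * g 1 1 - g 0 1 * g 1 0 = 1 := hdet
  fin_cases i <;> fin_cases j
  · simp [Matrix.mul_apply, Fin.sum_univ_two]
    rw [h1]
    ring
  · simp [Matrix.mul_apply, Fin.sum_univ_two]
    field_simp
    linear_combination -hdet'
  · simp [Matrix.mul_apply, Fin.sum_univ_two]
  · simp [Matrix.mul_apply, Fin.sum_univ_two]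
    rw [h2]
    ring

theorem closure_eq_top :
    Subgroup.closure (Set.range (NatSL2.up : K → SpecialLinearGroup (Fin 2) K) ∪ Set.range NatSL2.lo) = ⊤ := by
  set C := Subgroup.closure (Set.range (NatSL2.up : K → SpecialLinearGroup (Fin 2) K) ∪ Set.range NatSL2.lo) with hC
  have hup : ∀ t : K, NatSL2.up t ∈ C := fun t => Subgroup.subset_closure (Or.inl ⟨t, rfl⟩)
  have hlo : ∀ t : K, NatSL2.lo t ∈ C := fun t => Subgroup.subset_closure (Or.inr ⟨t, rfl⟩)
  have key : ∀ g : SpecialLinearGroup (Fin 2) K, g 1 0 ≠ 0 → g ∈ C := by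
    intro g hg
    rw [decomp hg]
    exact mul_mem (mul_mem (hup _) (hlo _)) (hup _)
  rw [eq_top_iff]
  intro g _
  by_cases hg : g 1 0 = 0
  · have h1 : (NatSL2.lo (1 : K) * g) ∈ C := by
      apply key
      have h2 : (NatSL2.lo (1 : K) * g) 1 0 = g 0 0 := by
        change ((NatSL2.lo (1 : K) : Matrix (Fin 2) (Fin 2) K) * (g : Matrix (Fin 2) (Fin 2) K)) 1 0 = g 0 0
        rw [NatSL2.lo_coe, Matrix.mul_apply, Fin.sum_univ_two]
        simp [hg]
      rw [h2]
      intro h3
      have hdet := g.2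
      rw [Matrix.det_fin_two] at hdet
      have hdet' : g 0 0 * g 1 1 - g 0 1 * g 1 0 = 1 := hdet
      rw [h3, hg] at hdet'
      simp at hdet'
    have h2 := mul_mem (inv_mem (hlo 1)) h1
    rwa [inv_mul_cancel_left] at h2
  · exact key g hg

end H13.SL2Gen
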