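import Mathlib
import Cfsg.Agent.Lib.H13.JField2

set_option autoImplicit false

/-!
A space `Φ` of isomorphisms `N → M` (with `|Φ| = |M|`, `M` elementary abelian of exponent two), closed under
`φ ↦ φ₀ φ⁻¹ φ₀`, is the space of multiplications by the elements of a field.
-/

namespace H13.JField

universe u v

theorem exists_field {M : Type u} {N : Type v} [AddCommGroup M] [AddCommGroup N] [Finite M] (h2 : ∀ m : M, m + m = 0)
    (Φ : AddSubgroup (N →+ M)) (hbij : ∀ φ ∈ Φ, φ ≠ 0 → Function.Bijective φ) (hcard : Nat.card Φ = Nat.card M)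
    (hne : ∃ φ₀ ∈ Φ, φ₀ ≠ 0)
    (hinv : ∀ φ₀ ∈ Φ, φ₀ ≠ 0 → ∀ φ ∈ Φ, φ ≠ 0 → ∃ ψ ∈ Φ, ∀ x y : N, φ y = φ₀ x → ψ x = φ₀ y) :
    ∃ (K : Type) (_ : Field K) (_ : Fintype K) (eM : K ≃+ M) (eN : K ≃+ N),
      ∀ φ : N →+ M, φ ∈ Φ ↔ ∃ a : K, ∀ b : K, φ (eN b) = eM (a * b) := by
  classical
  obtain ⟨φ₀, hφ₀, hφ₀0⟩ := hne
  have hb₀ := hbij φ₀ hφ₀ hφ₀0
  let e₀ : N ≃+ M := AddEquiv.ofBijective φ₀ hb₀
  have he₀ : ∀ x, e₀ x = φ₀ x := fun x => rfl
  have he₀' : ∀ m, φ₀ (e₀.symm m) = m := fun m => e₀.apply_symm_apply m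
  obtain ⟨n₀, hn₀⟩ : ∃ n₀ : N, φ₀ n₀ ≠ 0 := by
    by_contra hcon
    push Not at hcon
    exact hφ₀0 (AddMonoidHom.ext hcon)
  set m₀ := φ₀ n₀ with hm₀
  -- characteristic two
  have hE1 : (1 : AddMonoid.End M) ≠ 0 := by
    intro h1
    have h3 := DFunLike.congr_fun h1 m₀
    exact hn₀ h3
  have hch : CharP (AddMonoid.End M) 2 := by
    have hnt : Nontrivial (AddMonoid.End M) := ⟨1, 0, hE1⟩
    refine CharTwo.of_one_ne_zero_of_two_eq_zero hE1 ?_
    have h3 : (2 : AddMonoid.End M) = 1 + 1 := one_add_one_eq_two.symm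
    rw [h3]
    ext m
    exact h2 m
  let A : AddSubgroup (AddMonoid.End M) :=
    { carrier := {ψ | (AddMonoidHom.comp ψ φ₀ : N →+ M) ∈ Φ}
      zero_mem' := by
        have h3 : (AddMonoidHom.comp (0 : AddMonoid.End M) φ₀ : N →+ M) = 0 := by
          ext x
          rfl
        change (AddMonoidHom.comp (0 : AddMonoid.End M) φ₀ : N →+ M) ∈ Φ
        rw [h3]
        exact Φ.zero_mem
      add_mem' := by
        intro a b ha hb
        have h3 : (AddMonoidHom.comp (a + b) φ₀ : N →+ M) = AddMonoidHom.comp a φ₀ + AddMonoidHom.comp b φ₀ := by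
          ext x
          rfl
        change (AddMonoidHom.comp (a + b) φ₀ : N →+ M) ∈ Φ
        rw [h3]
        exact Φ.add_mem ha hb
      neg_mem' := by
        intro a ha
        have h3 : (AddMonoidHom.comp (-a) φ₀ : N →+ M) = - AddMonoidHom.comp a φ₀ := by
          ext x
          rfl
        change (AddMonoidHom.comp (-a) φ₀ : N →+ M) ∈ Φ
        rw [h3]
        exact Φ.neg_mem ha }
  have hA : ∀ {ψ : AddMonoid.End M}, ψ ∈ A ↔ (AddMonoidHom.comp ψ φ₀ : N →+ M) ∈ Φ := Iff.rfl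
  have hJ : IsJ A := by
    refine ⟨?_, ?_⟩
    · rw [hA]
      exact hφ₀
    · intro ψ hψ hψ0
      have hc0 : (AddMonoidHom.comp ψ φ₀ : N →+ M) ≠ 0 := by
        intro h3
        apply hψ0
        ext m
        obtain ⟨x, rfl⟩ := hb₀.2 m
        exact DFunLike.congr_fun h3 x
      have hcb := hbij _ hψ hc0
      have hψb : Function.Bijective ψ := by
        have h3 : (ψ : M → M) ∘ φ₀ = (AddMonoidHom.comp ψ φ₀ : N →+ M) := rfl
        refine ⟨?_, ?_⟩
        · intro m m' hmm
          obtain ⟨x, rfl⟩ := hb₀.2 m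
          obtain ⟨x', rfl⟩ := hb₀.2 m'
          exact congrArg φ₀ (hcb.1 hmm)
        · intro m
          obtain ⟨x, hx⟩ := hcb.2 m
          exact ⟨φ₀ x, hx⟩
      let eψ : M ≃+ M := AddEquiv.ofBijective ψ hψb
      obtain ⟨χ, hχ, hχ'⟩ := hinv φ₀ hφ₀ hφ₀0 _ hψ hc0
      refine ⟨(eψ.symm : M →+ M), ?_, ?_, ?_⟩
      · change (AddMonoidHom.comp (eψ.symm : M →+ M) φ₀ : N →+ M) ∈ Φ
        have h3 : (AddMonoidHom.comp (eψ.symm : M →+ M) φ₀ : N →+ M) = χ := by
          ext x
          obtain ⟨y, hy⟩ := hcb.2 (φ₀ x)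
          rw [hχ' x y hy]
          change eψ.symm (φ₀ x) = φ₀ y
          rw [← hy]
          exact eψ.symm_apply_apply (φ₀ y)
        exact (by rw [h3]; exact hχ)
      · ext m
        exact eψ.apply_symm_apply m
      · ext m
        exact eψ.symm_apply_apply m
  -- finiteness and cardinality
  let f : A ≃ Φ :=
    { toFun := fun ψ => ⟨AddMonoidHom.comp (ψ : AddMonoid.End M) φ₀, ψ.2⟩
      invFun := fun φ => ⟨AddMonoidHom.comp (φ : N →+ M) (e₀.symm : M →+ N), by
        change (AddMonoidHom.comp (AddMonoidHom.comp (φ : N →+ M) (e₀.symm : M →+ N)) φ₀ : N →+ M) ∈ Φ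
        have h3 : (AddMonoidHom.comp (AddMonoidHom.comp (φ : N →+ M) (e₀.symm : M →+ N)) φ₀ : N →+ M) = φ := by
          ext x
          exact congrArg (φ : N →+ M) (e₀.symm_apply_apply x)
        exact (by rw [h3]; exact φ.2)⟩
      left_inv := by
        intro ψ
        apply Subtype.ext
        ext m
        exact congrArg (ψ : AddMonoid.End M) (e₀.apply_symm_apply m)
      right_inv := by
        intro φ
        apply Subtype.ext
        ext x
        exact congrArg (φ : N →+ M) (e₀.symm_apply_apply x) }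
  have : Finite N := Finite.of_injective e₀ e₀.injective
  have : Finite (N →+ M) := Finite.of_injective (fun φ : N →+ M => (φ : N → M)) DFunLike.coe_injective
  have : Finite A := Finite.of_equiv _ f.symm
  have hAc : Nat.card A = Nat.card M := (Nat.card_congr f).trans hcard
  let K₁ := hJ.subring
  letI : Field K₁ := hJ.field hE1
  have hK₁c : Nat.card K₁ = Nat.card M := hAc
  have hinjK : ∀ a : K₁, (a : AddMonoid.End M) m₀ = 0 → a = 0 := by
    intro a ha
    by_contra ha0
    have ha0' : (a : AddMonoid.End M) ≠ 0 := fun h3 => ha0 (Subtype.ext h3)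
    obtain ⟨b, -, -, hba⟩ := hJ.inv a a.2 ha0'
    apply hn₀
    have h3 := DFunLike.congr_fun hba m₀
    change b ((a : AddMonoid.End M) m₀) = m₀ at h3
    rw [← h3, ha, map_zero]
  let g : K₁ →+ M :=
    { toFun := fun a => (a : AddMonoid.End M) m₀
      map_zero' := rfl
      map_add' := fun a b => rfl }
  have hg : Function.Bijective g := by
    rw [Nat.bijective_iff_injective_and_card]
    refine ⟨?_, hK₁c⟩
    rw [injective_iff_map_eq_zero]
    exact hinjK
  let eM₁ : K₁ ≃+ M := AddEquiv.ofBijective g hg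
  let eN₁ : K₁ ≃+ N := eM₁.trans e₀.symm
  have main : ∀ φ : N →+ M, φ ∈ Φ ↔ ∃ a : K₁, ∀ b : K₁, φ (eN₁ b) = eM₁ (a * b) := by
    intro φ
    constructor
    · intro hφ
      refine ⟨⟨AddMonoidHom.comp φ (e₀.symm : M →+ N), ?_⟩, ?_⟩
      · change (AddMonoidHom.comp (AddMonoidHom.comp φ (e₀.symm : M →+ N)) φ₀ : N →+ M) ∈ Φ
        have h3 : (AddMonoidHom.comp (AddMonoidHom.comp φ (e₀.symm : M →+ N)) φ₀ : N →+ M) = φ := by
          ext x
          exact congrArg φ (e₀.symm_apply_apply x)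
        exact (by rw [h3]; exact hφ)
      · intro b
        rfl
    · rintro ⟨a, ha⟩
      have h3 : φ = (AddMonoidHom.comp (a : AddMonoid.End M) φ₀ : N →+ M) := by
        ext x
        obtain ⟨b, rfl⟩ := eN₁.surjective x
        rw [ha]
        change (a : AddMonoid.End M) ((b : AddMonoid.End M) m₀) = (a : AddMonoid.End M) (φ₀ (e₀.symm (g b)))
        rw [he₀']
        rfl
      rw [h3]
      exact a.2
  -- transport to `Type`
  have : Fintype K₁ := Fintype.ofFinite _
  have hchK : CharP K₁ 2 := by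
    refine CharTwo.of_one_ne_zero_of_two_eq_zero one_ne_zero ?_
    apply Subtype.ext
    have h3 : ((2 : K₁) : AddMonoid.End M) = 2 := rfl
    rw [h3]
    exact CharTwo.two_eq_zero
  obtain ⟨n, hp, hn⟩ := FiniteField.card K₁ 2
  have : Fact (Nat.Prime 2) := ⟨hp⟩
  have : Fintype (GaloisField 2 n) := Fintype.ofFinite _
  have hcc : Fintype.card (GaloisField 2 n) = Fintype.card K₁ := by
    rw [hn, ← Nat.card_eq_fintype_card, GaloisField.card 2 n n.ne_zero]
  let F := FiniteField.ringEquivOfCardEq hcc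
  refine ⟨GaloisField 2 n, inferInstance, inferInstance, F.toAddEquiv.trans eM₁, F.toAddEquiv.trans eN₁, ?_⟩
  intro φ
  rw [main]
  constructor
  · rintro ⟨a, ha⟩
    refine ⟨F.symm a, fun b => ?_⟩
    change φ (eN₁ (F b)) = eM₁ (F (F.symm a * b))
    rw [ha, map_mul F, F.apply_symm_apply]
  · rintro ⟨a, ha⟩
    refine ⟨F a, fun b => ?_⟩
    have h3 := ha (F.symm b)
    change φ (eN₁ (F (F.symm b))) = eM₁ (F (a * F.symm b)) at h3
    rw [F.apply_symm_apply, map_mul F, F.apply_symm_apply] at h3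
    exact h3

end H13.JField
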