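import Mathlib.GroupTheory.Sylow
import Mathlib.GroupTheory.Nilpotent
import Cfsg.Prelude.Def_Local
import Cfsg.Agent.Lib.H13.PSolvMap

set_option autoImplicit false

/-!
The upper `p`-series.
-/

namespace H13.PSeries

open Subgroup

universe u

variable {G : Type u} [Group G] {p : ℕ}

theorem series_odd (p : ℕ) (G : Type u) [Group G] (k : ℕ) :
    (Cfsg.upperPSeries p G (2 * k + 1)).1 =
      (Cfsg.pPrimeCore p (G ⧸ (Cfsg.upperPSeries p G (2 * k)).1)).comap
        (QuotientGroup.mk' (Cfsg.upperPSeries p G (2 * k)).1) := by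
  rw [Cfsg.upperPSeries]
  simp

theorem series_even (p : ℕ) (G : Type u) [Group G] (k : ℕ) :
    (Cfsg.upperPSeries p G (2 * k + 2)).1 =
      (Cfsg.pCore p (G ⧸ (Cfsg.upperPSeries p G (2 * k + 1)).1)).comap
        (QuotientGroup.mk' (Cfsg.upperPSeries p G (2 * k + 1)).1) := by
  rw [Cfsg.upperPSeries]
  simp

theorem le_series_succ (p : ℕ) (G : Type u) [Group G] (n : ℕ) :
    (Cfsg.upperPSeries p G n).1 ≤ (Cfsg.upperPSeries p G (n + 1)).1 := by
  rcases Nat.even_or_odd' n with ⟨k, rfl | rfl⟩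
  · rw [series_odd]
    intro x hx
    rw [mem_comap]
    have : QuotientGroup.mk' (Cfsg.upperPSeries p G (2 * k)).1 x = 1 := by
      rw [← MonoidHom.mem_ker, QuotientGroup.ker_mk']; exact hx
    rw [this]
    exact one_mem _
  · rw [series_even]
    intro x hx
    rw [mem_comap]
    have : QuotientGroup.mk' (Cfsg.upperPSeries p G (2 * k + 1)).1 x = 1 := by
      rw [← MonoidHom.mem_ker, QuotientGroup.ker_mk']; exact hx
    rw [this]
    exact one_mem _

theorem pPrimeCore_quotient_of_eq [Finite G] {N M : Subgroup G} [N.Normal] [M.Normal]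
    (h : M = (Cfsg.pPrimeCore p (G ⧸ N)).comap (QuotientGroup.mk' N)) :
    Cfsg.pPrimeCore p (G ⧸ M) = ⊥ := by
  have hNM : N ≤ M := by
    intro x hx
    rw [h, mem_comap]
    have : QuotientGroup.mk' N x = 1 := by
      rw [← MonoidHom.mem_ker, QuotientGroup.ker_mk']; exact hx
    rw [this]
    exact one_mem _
  let f : G ⧸ N →* G ⧸ M := QuotientGroup.map N M (MonoidHom.id G) (by simpa using hNM)
  have hf : Function.Surjective f := by
    intro x
    obtain ⟨g, rfl⟩ := QuotientGroup.mk'_surjective M x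
    exact ⟨QuotientGroup.mk' N g, rfl⟩
  have hker : f.ker = Cfsg.pPrimeCore p (G ⧸ N) := by
    ext x
    obtain ⟨g, rfl⟩ := QuotientGroup.mk'_surjective N x
    rw [MonoidHom.mem_ker]
    have h1 : f (QuotientGroup.mk' N g) = QuotientGroup.mk' M g := rfl
    rw [h1, ← MonoidHom.mem_ker, QuotientGroup.ker_mk']
    conv_lhs => rw [h]
    rw [mem_comap]
  rw [← CoresQuot.map_pPrimeCore hf (by rw [hker]; exact Cores.coprime_card_pPrimeCore), ← hker]
  rw [eq_bot_iff]
  rintro _ ⟨x, hx, rfl⟩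
  exact MonoidHom.mem_ker.1 hx

theorem pPrimeCore_odd [Finite G] (k : ℕ) :
    Cfsg.pPrimeCore p (G ⧸ (Cfsg.upperPSeries p G (2 * k + 1)).1) = ⊥ :=
  pPrimeCore_quotient_of_eq (series_odd p G k)

theorem centralizer_le [Finite G] [hp : Fact p.Prime] (hsol : Cfsg.IsPSolvable p G) (k : ℕ) :
    centralizer (Cfsg.pCore p (G ⧸ (Cfsg.upperPSeries p G (2 * k + 1)).1) :
      Set (G ⧸ (Cfsg.upperPSeries p G (2 * k + 1)).1)) ≤
      Cfsg.pCore p (G ⧸ (Cfsg.upperPSeries p G (2 * k + 1)).1) :=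
  H37.PSolv.centralizer_pCore_le (H37.PSolv.quotient hsol _) (pPrimeCore_odd k)

theorem map_even [Finite G] (k : ℕ) :
    (Cfsg.upperPSeries p G (2 * k + 2)).1.map
        (QuotientGroup.mk' (Cfsg.upperPSeries p G (2 * k + 1)).1) =
      Cfsg.pCore p (G ⧸ (Cfsg.upperPSeries p G (2 * k + 1)).1) := by
  rw [series_even, map_comap_eq_self_of_surjective (QuotientGroup.mk'_surjective _)]

theorem mem_pCore_of_comm [Finite G] [hp : Fact p.Prime] {M : Subgroup G} [M.Normal]
    (hM : centralizer (Cfsg.pCore p (G ⧸ M) : Set (G ⧸ M)) ≤ Cfsg.pCore p (G ⧸ M))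
    (S : Sylow p G) {z : G} (hz : ∀ s ∈ (S : Subgroup G), z * s * z⁻¹ * s⁻¹ ∈ M) :
    QuotientGroup.mk' M z ∈ Cfsg.pCore p (G ⧸ M) := by
  apply hM
  rw [mem_centralizer_iff]
  intro y hy
  let S' : Sylow p (G ⧸ M) := S.mapSurjective (QuotientGroup.mk'_surjective M)
  have hy' : y ∈ (S' : Subgroup (G ⧸ M)) := Cores.pCore_le_sylow S' hy
  obtain ⟨s, hs, rfl⟩ : y ∈ (S : Subgroup G).map (QuotientGroup.mk' M) := hy'
  have h5 : QuotientGroup.mk' M (z * s * z⁻¹ * s⁻¹) = 1 := by
    rw [← MonoidHom.mem_ker, QuotientGroup.ker_mk']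
    exact hz s hs
  rw [map_mul, map_mul, map_mul, map_inv, map_inv, mul_inv_eq_one, mul_inv_eq_iff_eq_mul] at h5
  exact h5.symm

theorem upperCentral_le [Finite G] [hp : Fact p.Prime] (hsol : Cfsg.IsPSolvable p G)
    (S : Sylow p G) (k : ℕ) :
    (Subgroup.upperCentralSeries (S : Subgroup G) k).map (S : Subgroup G).subtype ≤
      (Cfsg.upperPSeries p G (2 * k)).1 := by
  induction k with
  | zero =>
    rw [Subgroup.upperCentralSeries_zero, Subgroup.map_bot]
    exact bot_le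
  | succ k ih =>
    have h2 : 2 * (k + 1) = 2 * k + 2 := by ring
    rw [h2, series_even]
    rintro _ ⟨z, hz, rfl⟩
    rw [mem_comap]
    apply mem_pCore_of_comm (centralizer_le hsol k) S
    intro s hs
    have h3 := (Subgroup.mem_upperCentralSeries_succ_iff.1 hz) ⟨s, hs⟩
    exact le_series_succ p G (2 * k) (ih ⟨_, h3, rfl⟩)

theorem pLengthLE_nilpotencyClass [Finite G] [hp : Fact p.Prime] (hsol : Cfsg.IsPSolvable p G)
    (S : Sylow p G) : Cfsg.PLengthLE p (Group.nilpotencyClass ↥(S : Subgroup G)) G := by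
  have hnil : Group.IsNilpotent (S : Subgroup G) := S.isPGroup'.isNilpotent
  set c := Group.nilpotencyClass ↥(S : Subgroup G) with hc
  have h1 := upperCentral_le hsol S c
  rw [hc, Subgroup.upperCentralSeries_nilpotencyClass] at h1
  have h2 : (S : Subgroup G) ≤ (Cfsg.upperPSeries p G (2 * c)).1 := by
    intro s hs
    exact h1 ⟨⟨s, hs⟩, mem_top _, rfl⟩
  unfold Cfsg.PLengthLE
  rw [series_odd]
  have h3 : Cfsg.pPrimeCore p (G ⧸ (Cfsg.upperPSeries p G (2 * c)).1) = ⊤ := by
    rw [eq_top_iff]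
    apply Cores.le_pPrimeCore inferInstance
    rw [card_top]
    rw [← index_eq_card]
    have h4 : (Cfsg.upperPSeries p G (2 * c)).1.index ∣ (S : Subgroup G).index :=
      index_dvd_of_le h2
    exact Nat.Coprime.coprime_dvd_left h4
      (((Nat.Prime.coprime_iff_not_dvd hp.out).2 S.not_dvd_index).symm)
  rw [h3, comap_top]

end H13.PSeries
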