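import Mathlib
import Cfsg.Prelude
import Cfsg.Agent.Lib.H66.SADef
import Cfsg.Agent.Lib.H66.CoprimeConj
import Cfsg.Agent.S0001

set_option autoImplicit false

/-! # S4100, piece R: the group theoretic reduction -/

open Subgroup

namespace H13.S41R

universe u

def Good (p : ℕ) (H : Type u) [Group H] : Prop :=
  ∃ x : H, (∃ k : ℕ, x ^ p ^ k = 1) ∧ x ∉ center H ∧ ¬ Group.IsSolvable (centralizer ({x} : Set H))

theorem not_solv_of_le {G : Type*} [Group G] {K C : Subgroup G} (h : K ≤ C) (hK : ¬ Group.IsSolvable K) :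
    ¬ Group.IsSolvable C := by
  intro hC
  exact hK (Group.isSolvable_of_isSolvable_injective (inclusion_injective h))

theorem not_solv_map {G G' : Type*} [Group G] [Group G'] (f : G →* G') (K : Subgroup G)
    (hK : ¬ Group.IsSolvable (K.map f)) : ¬ Group.IsSolvable K := by
  intro h
  exact hK (Group.isSolvable_of_surjective (f.subgroupMap_surjective K))

theorem not_solv_map_inj {G G' : Type*} [Group G] [Group G'] (f : G →* G') (hf : Function.Injective f)
    (K : Subgroup G) (hK : ¬ Group.IsSolvable K) : ¬ Group.IsSolvable (K.map f) := by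
  intro h
  apply hK
  refine Group.isSolvable_of_isSolvable_injective (f := f.subgroupMap K) ?_
  intro a b hab
  have := congrArg Subtype.val hab
  exact Subtype.ext (hf this)

theorem good_of_sub {p : ℕ} {H : Type u} [Group H] (H₁ : Subgroup H) (h : Good p H₁) : Good p H := by
  obtain ⟨x, ⟨k, hk⟩, hx, hs⟩ := h
  refine ⟨(x : H), ⟨k, by exact_mod_cast congrArg Subtype.val hk⟩, ?_, ?_⟩
  · intro hc
    apply hx
    rw [mem_center_iff] at hc ⊢
    intro g
    exact Subtype.ext (hc (g : H))
  · refine not_solv_of_le ?_ (not_solv_map_inj H₁.subtype H₁.subtype_injective _ hs)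
    rintro _ ⟨y, hy, rfl⟩
    rw [mem_centralizer_singleton_iff]
    have := mem_centralizer_singleton_iff.1 hy
    exact congrArg Subtype.val this

theorem not_central_lift {H : Type u} [Group H] (N : Subgroup H) [N.Normal] {x : H}
    (h : QuotientGroup.mk' N x ∉ center (H ⧸ N)) : x ∉ center H := by
  intro hc
  apply h
  rw [mem_center_iff] at hc ⊢
  intro g
  obtain ⟨g, rfl⟩ := QuotientGroup.mk'_surjective N g
  rw [← map_mul, ← map_mul, hc g]

theorem centralizer_zpowers {H : Type u} [Group H] (x : H) :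
    centralizer ((zpowers x : Subgroup H) : Set H) = centralizer ({x} : Set H) := by
  apply le_antisymm
  · exact centralizer_le (by simp)
  · intro g hg
    rw [mem_centralizer_singleton_iff] at hg
    rw [mem_centralizer_iff]
    rintro _ ⟨k, rfl⟩
    exact ((Commute.zpow_right (show Commute g x from hg) k).eq).symm

theorem lift_pelement {p : ℕ} [hp : Fact p.Prime] {G : Type u} [Group G] [Finite G] (N : Subgroup G) [N.Normal]
    (y : G ⧸ N) {k : ℕ} (hy : y ^ p ^ k = 1) : ∃ x : G, QuotientGroup.mk' N x = y ∧ ∃ l, x ^ p ^ l = 1 := by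
  obtain ⟨z, rfl⟩ := QuotientGroup.mk'_surjective N y
  have hpos : orderOf z ≠ 0 := (orderOf_pos z).ne'
  obtain ⟨a, m, hm, ham⟩ := Nat.exists_eq_pow_mul_and_not_dvd hpos p hp.out.ne_one
  have hcop : Nat.Coprime m (p ^ k) := by
    apply Nat.Coprime.pow_right
    exact (Nat.Coprime.symm ((Nat.Prime.coprime_iff_not_dvd hp.out).2 hm))
  obtain ⟨c, hc1, hc2⟩ := Nat.chineseRemainder hcop 0 1
  refine ⟨z ^ c, ?_, a, ?_⟩
  · rw [map_pow]
    have h1 : (QuotientGroup.mk' N z) ^ c = (QuotientGroup.mk' N z) ^ 1 := by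
      rw [pow_eq_pow_iff_modEq]
      exact hc2.of_dvd (orderOf_dvd_of_pow_eq_one hy)
    rw [h1, pow_one]
  · rw [← pow_mul, ← orderOf_dvd_iff_pow_eq_one, ham, mul_comm c]
    exact Nat.mul_dvd_mul_left _ ((Nat.modEq_zero_iff_dvd).1 hc1)

theorem good_of_coprime {p : ℕ} [hp : Fact p.Prime] {H : Type u} [Group H] [Finite H] (N : Subgroup H) [N.Normal]
    (hN : (Nat.card N).Coprime p) (h : Good p (H ⧸ N)) : Good p H := by
  obtain ⟨y, ⟨k, hk⟩, hy, hs⟩ := h
  obtain ⟨x, rfl, l, hl⟩ := lift_pelement N y hk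
  refine ⟨x, ⟨l, hl⟩, not_central_lift N hy, ?_⟩
  have hP : IsPGroup p (zpowers x) := by
    obtain ⟨j, _, hj⟩ := (Nat.dvd_prime_pow hp.out).1 (orderOf_dvd_of_pow_eq_one hl)
    exact IsPGroup.of_card (n := j) (by rw [Nat.card_zpowers, hj])
  have h1 := H66.CoprimeConj.centralizer_map_mk' N hN (zpowers x) hP
  rw [MonoidHom.map_zpowers, centralizer_zpowers, centralizer_zpowers] at h1
  rw [h1] at hs
  exact not_solv_map _ _ hs

/-- the commutator homomorphism -/
theorem solv_of_central {H : Type u} [Group H] (Z₀ : Subgroup H) [Z₀.Normal] (hZ : Z₀ ≤ center H) (x : H)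
    (hs : Group.IsSolvable (centralizer ({x} : Set H))) :
    Group.IsSolvable ((centralizer ({QuotientGroup.mk' Z₀ x} : Set (H ⧸ Z₀))).comap (QuotientGroup.mk' Z₀)) := by
  set C := (centralizer ({QuotientGroup.mk' Z₀ x} : Set (H ⧸ Z₀))).comap (QuotientGroup.mk' Z₀) with hC
  have hc : ∀ g : C, (g : H) * x * (g : H)⁻¹ * x⁻¹ ∈ center H := by
    intro g
    apply hZ
    have h1 := mem_centralizer_singleton_iff.1 (mem_comap.1 g.2)
    rw [← QuotientGroup.eq_one_iff]
    change QuotientGroup.mk' Z₀ _ = 1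
    rw [map_mul, map_mul, map_mul, h1, map_inv, map_inv]
    group
  let g : C →* center H := MonoidHom.mk' (fun g => ⟨(g : H) * x * (g : H)⁻¹ * x⁻¹, hc g⟩) (by
    intro a b
    apply Subtype.ext
    have h1 := mem_center_iff.1 (hc b) (a : H)
    change (a : H) * b * x * ((a : H) * b)⁻¹ * x⁻¹ = ((a : H) * x * (a : H)⁻¹ * x⁻¹) * ((b : H) * x * (b : H)⁻¹ * x⁻¹)
    have h2 := mem_center_iff.1 (hc b) ((a : H) * x * (a : H)⁻¹ * x⁻¹)
    rw [h2]
    have h3 : (a : H) * b * x * ((a : H) * b)⁻¹ * x⁻¹ =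
      ((a : H) * ((b : H) * x * (b : H)⁻¹ * x⁻¹)) * (x * (a : H)⁻¹ * x⁻¹) := by group
    rw [h3, h1]
    group)
  have hle : centralizer ({x} : Set H) ≤ C := by
    intro y hy
    rw [hC, mem_comap, mem_centralizer_singleton_iff, ← map_mul, ← map_mul, mem_centralizer_singleton_iff.1 hy]
  have : Group.IsSolvable (centralizer ({x} : Set H)) := hs
  have : Group.IsSolvable (center H) := by
    apply Group.isSolvable_of_comm
    intro a b
    exact Subtype.ext (mem_center_iff.1 b.2 a)
  refine Group.isSolvable_of_ker_le_range (inclusion hle) g ?_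
  intro y hy
  have h1 : (y : H) * x * (y : H)⁻¹ * x⁻¹ = 1 := congrArg Subtype.val (MonoidHom.mem_ker.1 hy)
  refine ⟨⟨(y : H), ?_⟩, rfl⟩
  rw [mem_centralizer_singleton_iff]
  have h2 : (y : H) * x = ((y : H) * x * (y : H)⁻¹ * x⁻¹) * x * y := by group
  rw [h2, h1, one_mul]

theorem good_of_central {p : ℕ} {H : Type u} [Group H] [Finite H] (Z₀ : Subgroup H) [Z₀.Normal] (hZ : Z₀ ≤ center H)
    (hZp : IsPGroup p Z₀) (h : Good p (H ⧸ Z₀)) : Good p H := by
  obtain ⟨y, ⟨k, hk⟩, hy, hs⟩ := h
  obtain ⟨x, rfl⟩ := QuotientGroup.mk'_surjective Z₀ y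
  have h1 : x ^ p ^ k ∈ Z₀ := by
    rw [← QuotientGroup.eq_one_iff]
    exact hk
  obtain ⟨j, hj⟩ := hZp ⟨_, h1⟩
  have h2 : (x ^ p ^ k) ^ p ^ j = 1 := congrArg Subtype.val hj
  refine ⟨x, ⟨k + j, by rw [pow_add, pow_mul]; exact h2⟩, not_central_lift Z₀ hy, ?_⟩
  intro hsx
  apply not_solv_map (QuotientGroup.mk' Z₀) _ _ (solv_of_central Z₀ hZ x hsx)
  rwa [map_comap_eq_self_of_surjective (QuotientGroup.mk'_surjective Z₀)]

/-- elements of order dividing `p` in the centre of `N` -/
def VV {H : Type u} [Group H] (N : Subgroup H) (p : ℕ) : Subgroup H where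
  carrier := {x | x ∈ N ∧ (∀ y ∈ N, x * y = y * x) ∧ x ^ p = 1}
  one_mem' := ⟨one_mem _, fun y _ => by simp, one_pow _⟩
  mul_mem' := by
    rintro a b ⟨ha, ha2, ha3⟩ ⟨hb, hb2, hb3⟩
    refine ⟨mul_mem ha hb, ?_, ?_⟩
    · intro y hy
      rw [mul_assoc, hb2 y hy, ← mul_assoc, ha2 y hy, mul_assoc]
    · rw [(show Commute a b from ha2 b hb).mul_pow, ha3, hb3, one_mul]
  inv_mem' := by
    rintro a ⟨ha, ha2, ha3⟩
    refine ⟨inv_mem ha, ?_, by rw [inv_pow, ha3, inv_one]⟩
    intro y hy
    exact ((show Commute a y from ha2 y hy).inv_left).eq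

theorem VV_comm {H : Type u} [Group H] (N : Subgroup H) (p : ℕ) (a b : VV N p) : a * b = b * a :=
  Subtype.ext (a.2.2.1 b b.2.1)

theorem VV_conj {H : Type u} [Group H] (N : Subgroup H) [hN : N.Normal] (p : ℕ) (h : H) {v : H} (hv : v ∈ VV N p) :
    h * v * h⁻¹ ∈ VV N p := by
  refine ⟨hN.conj_mem _ hv.1 _, ?_, ?_⟩
  · intro y hy
    have h1 := hv.2.1 (h⁻¹ * y * h) (by simpa using hN.conj_mem y hy h⁻¹)
    have h2 : h * v * h⁻¹ * y = h * (v * (h⁻¹ * y * h)) * h⁻¹ := by group
    rw [h2, h1]
    group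
  · rw [conj_pow, hv.2.2, mul_one, mul_inv_cancel]

theorem VV_eq {H : Type u} [Group H] (N : Subgroup H) [hN : N.Normal] (p : ℕ) {h k v : H} (hv : v ∈ VV N p)
    (hk : k⁻¹ * h ∈ N) : h * v * h⁻¹ = k * v * k⁻¹ := by
  have h1 := hv.2.1 _ hk
  have h2 : h * v * h⁻¹ = k * ((k⁻¹ * h) * v) * (k⁻¹ * h)⁻¹ * k⁻¹ := by group
  rw [h2, ← h1]
  group

theorem good_of_star {p n : ℕ} [hp : Fact p.Prime] (hst : H66.SA.Star.{u} p n) {H : Type u} [Group H] [Finite H]
    (π : H →* alternatingGroup (Fin n)) (hπ : Function.Surjective π) (hNp : IsPGroup p π.ker)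
    (hne : π.ker ≠ ⊥) (hz : π.ker ⊓ center H = ⊥) : Good p H := by
  classical
  set N := π.ker with hN
  let s : alternatingGroup (Fin n) → H := Function.surjInv hπ
  have hs : ∀ a, π (s a) = a := Function.surjInv_eq hπ
  have hker : ∀ h k : H, π h = π k → k⁻¹ * h ∈ N := by
    intro h k hk
    rw [hN, MonoidHom.mem_ker, map_mul, map_inv, hk, inv_mul_cancel]
  letI : CommGroup (VV N p) := { (inferInstance : Group (VV N p)) with mul_comm := VV_comm N p }
  letI act : DistribMulAction (alternatingGroup (Fin n)) (Additive (VV N p)) :=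
    { smul := fun a v => Additive.ofMul ⟨s a * (v.toMul : H) * (s a)⁻¹, VV_conj N p _ v.toMul.2⟩
      one_smul := by
        intro v
        apply Additive.toMul.injective
        apply Subtype.ext
        change s 1 * (v.toMul : H) * (s 1)⁻¹ = v.toMul
        rw [VV_eq N p v.toMul.2 (hker (s 1) 1 (by rw [hs, map_one]))]
        simp
      mul_smul := by
        intro a b v
        apply Additive.toMul.injective
        apply Subtype.ext
        change s (a * b) * (v.toMul : H) * (s (a * b))⁻¹ = s a * (s b * (v.toMul : H) * (s b)⁻¹) * (s a)⁻¹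
        rw [VV_eq N p v.toMul.2 (hker (s (a * b)) (s a * s b) (by rw [map_mul, hs, hs, hs]))]
        group
      smul_zero := by
        intro a
        apply Additive.toMul.injective
        apply Subtype.ext
        change s a * 1 * (s a)⁻¹ = 1
        group
      smul_add := by
        intro a v w
        apply Additive.toMul.injective
        apply Subtype.ext
        change s a * ((v.toMul : H) * (w.toMul : H)) * (s a)⁻¹ =
          (s a * (v.toMul : H) * (s a)⁻¹) * (s a * (w.toMul : H) * (s a)⁻¹)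
        group }
  have hsm : ∀ (a : alternatingGroup (Fin n)) (v : Additive (VV N p)),
      (((a • v).toMul : VV N p) : H) = s a * (v.toMul : H) * (s a)⁻¹ := fun a v => rfl
  have hfin : Finite (Additive (VV N p)) := inferInstance
  have hnt : Nontrivial (Additive (VV N p)) := by
    have h1 : Nontrivial N := (Subgroup.nontrivial_iff_ne_bot N).2 hne
    have h2 : Nontrivial (center N) := hNp.center_nontrivial
    have h3 : p ∣ Nat.card (center N) := by
      have h4 : IsPGroup p (center N) := hNp.to_subgroup _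
      obtain ⟨k, hk⟩ := IsPGroup.iff_card.1 h4
      rcases k with - | k
      · exfalso
        rw [pow_zero] at hk
        have := Finite.one_lt_card (α := center N)
        omega
      · rw [hk]; exact dvd_pow_self p (Nat.succ_ne_zero k)
    obtain ⟨c, hc⟩ := exists_prime_orderOf_dvd_card' p h3
    have hcp : c ^ p = 1 := by rw [← hc]; exact pow_orderOf_eq_one c
    have hc1 : c ≠ 1 := by
      rintro rfl
      rw [orderOf_one] at hc
      exact hp.out.one_lt.ne hc
    refine ⟨⟨0, Additive.ofMul ⟨((c : N) : H), (c : N).2, ?_, ?_⟩, ?_⟩⟩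
    · intro y hy
      have := mem_center_iff.1 c.2 ⟨y, hy⟩
      exact (congrArg Subtype.val this).symm
    · have := congrArg (fun z : center N => ((z : N) : H)) hcp
      simpa using this
    · intro h
      apply hc1
      apply Subtype.ext
      apply Subtype.ext
      have h5 := congrArg (fun z : Additive (VV N p) => ((z.toMul : VV N p) : H)) h
      exact h5.symm
  obtain ⟨v, hv, hvs⟩ := hst (Additive (VV N p)) (by
    intro v
    apply Additive.toMul.injective
    apply Subtype.ext
    exact v.toMul.2.2.2)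
  have hvN : ((v.toMul : VV N p) : H) ∈ N := v.toMul.2.1
  have hv1 : ((v.toMul : VV N p) : H) ≠ 1 := by
    intro h
    apply hv
    apply Additive.toMul.injective
    exact Subtype.ext h
  refine ⟨((v.toMul : VV N p) : H), ⟨1, by rw [pow_one]; exact v.toMul.2.2.2⟩, ?_, ?_⟩
  · intro hc
    apply hv1
    have : ((v.toMul : VV N p) : H) ∈ N ⊓ center H := ⟨hvN, hc⟩
    rw [hz] at this
    exact this
  · have h1 : (MulAction.stabilizer (alternatingGroup (Fin n)) v).comap π ≤ centralizer ({((v.toMul : VV N p) : H)} : Set H) := by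
      intro h hh
      rw [mem_comap, MulAction.mem_stabilizer_iff] at hh
      have h2 := congrArg (fun z : Additive (VV N p) => ((z.toMul : VV N p) : H)) hh
      have h3 : s (π h) * ((v.toMul : VV N p) : H) * (s (π h))⁻¹ = ((v.toMul : VV N p) : H) := h2
      rw [← VV_eq N p v.toMul.2 (hker h (s (π h)) (by rw [hs]))] at h3
      rw [mem_centralizer_singleton_iff]
      rw [mul_inv_eq_iff_eq_mul] at h3
      exact h3
    refine not_solv_of_le h1 (not_solv_map π _ ?_)
    rwa [map_comap_eq_self_of_surjective hπ]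

/-- the coprime case -/
theorem good_of_compl {p n : ℕ} [hp : Fact p.Prime] {H : Type u} [Group H] [Finite H]
    (π : H →* alternatingGroup (Fin n)) (hπ : Function.Surjective π) (hNp : IsPGroup p π.ker)
    (c : alternatingGroup (Fin n)) {k : ℕ} (hc : c ^ p ^ k = 1) (hcz : c ∉ center (alternatingGroup (Fin n)))
    (K : Subgroup (alternatingGroup (Fin n))) (hK : K ≤ centralizer ({c} : Set (alternatingGroup (Fin n))))
    (hKs : ¬ Group.IsSolvable K) (hKc : (Nat.card K).Coprime p) : Good p H := by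
  classical
  set N := π.ker with hN
  set L := K.comap π with hL
  have hNL : N ≤ L := by
    intro x hx
    rw [hL, mem_comap, MonoidHom.mem_ker.1 hx]
    exact one_mem _
  have hNn : (N.subgroupOf L).Normal := inferInstance
  have hcardN : ∃ a, Nat.card (N.subgroupOf L) = p ^ a := by
    obtain ⟨a, ha⟩ := IsPGroup.iff_card.1 hNp
    exact ⟨a, by rw [Nat.card_congr (Subgroup.subgroupOfEquivOfLe hNL).toEquiv, ha]⟩
  have hidx : (N.subgroupOf L).index = Nat.card K := by
    have h1 : N.subgroupOf L = ((π.comp L.subtype).codRestrict K (fun x => x.2)).ker := by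
      ext x
      rw [mem_subgroupOf, hN, MonoidHom.mem_ker, MonoidHom.mem_ker]
      exact ⟨fun h => Subtype.ext h, fun h => congrArg Subtype.val h⟩
    rw [h1, Subgroup.index_ker]
    have h2 : ((π.comp L.subtype).codRestrict K (fun x => x.2)).range = ⊤ := by
      rw [MonoidHom.range_eq_top]
      intro y
      obtain ⟨x, hx⟩ := hπ y
      exact ⟨⟨x, by rw [hL, mem_comap, hx]; exact y.2⟩, Subtype.ext hx⟩
    rw [h2, Subgroup.card_top]
  have hcop : (Nat.card (N.subgroupOf L)).Coprime (N.subgroupOf L).index := by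
    obtain ⟨a, ha⟩ := hcardN
    rw [ha, hidx]
    exact (Nat.Coprime.pow_right a hKc).symm
  obtain ⟨K₁, hK₁⟩ := Subgroup.exists_right_complement'_of_coprime hcop
  obtain ⟨x, hx⟩ := hπ c
  -- `x` normalizes `L`
  have hxL : ∀ y, y ∈ L → x * y * x⁻¹ ∈ L := by
    intro y hy
    rw [hL, mem_comap] at hy ⊢
    rw [map_mul, map_mul, map_inv, hx]
    have h1 := mem_centralizer_singleton_iff.1 (hK hy)
    have h2 : c * π y * c⁻¹ = π y := by rw [← h1, mul_inv_cancel_right]
    rwa [h2]
  have hxL' : ∀ y, y ∈ L → x⁻¹ * y * x ∈ L := by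
    intro y hy
    rw [hL, mem_comap] at hy ⊢
    rw [map_mul, map_mul, map_inv, hx]
    have h1 := mem_centralizer_singleton_iff.1 (hK hy)
    have h2 : c⁻¹ * π y * c = π y := by rw [mul_assoc, h1, inv_mul_cancel_left]
    rwa [h2]
  let φ : L ≃* L :=
    { toFun := fun y => ⟨x * y * x⁻¹, hxL y y.2⟩
      invFun := fun y => ⟨x⁻¹ * y * x, hxL' y y.2⟩
      left_inv := fun y => Subtype.ext (by change x⁻¹ * (x * y * x⁻¹) * x = y; group)
      right_inv := fun y => Subtype.ext (by change x * (x⁻¹ * y * x) * x⁻¹ = y; group)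
      map_mul' := fun a b => Subtype.ext (by change x * (a * b) * x⁻¹ = (x * a * x⁻¹) * (x * b * x⁻¹); group) }
  have hK₂ : Subgroup.IsComplement' (N.subgroupOf L) (K₁.map φ.toMonoidHom) := by
    have h1 : (N.subgroupOf L).map φ.toMonoidHom = N.subgroupOf L := by
      ext y
      constructor
      · rintro ⟨z, hz, rfl⟩
        rw [mem_subgroupOf]
        exact (inferInstance : N.Normal).conj_mem _ hz x
      · intro hy
        refine ⟨φ.symm y, ?_, φ.apply_symm_apply y⟩
        change (φ.symm y : H) ∈ N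
        have := (inferInstance : N.Normal).conj_mem _ (mem_subgroupOf.1 hy) x⁻¹
        rw [inv_inv] at this
        exact this
    rw [Subgroup.isComplement'_iff_card_mul_and_disjoint] at hK₁ ⊢
    obtain ⟨hc1, hd1⟩ := hK₁
    constructor
    · rw [Subgroup.card_map_of_injective φ.injective, hc1]
    · rw [disjoint_iff, ← h1, ← Subgroup.map_inf _ _ _ φ.injective, hd1.eq_bot, Subgroup.map_bot]
  have hsolN : Group.IsSolvable (N.subgroupOf L) := by
    obtain ⟨a, ha⟩ := hcardN
    have h1 : IsPGroup p (N.subgroupOf L) := IsPGroup.of_card ha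
    have h2 : Group.IsNilpotent (N.subgroupOf L) := h1.isNilpotent
    infer_instance
  obtain ⟨g, hg⟩ := Cfsg.Agent.S0001.result (N.subgroupOf L) hcop (Or.inl hsolN) _ _ hK₂ hK₁
  have hg1 : g ∈ (K₁ : Subgroup L) ⊔ N.subgroupOf L := by
    rw [sup_comm, hK₁.sup_eq_top]; trivial
  rw [Subgroup.mem_sup_of_normal_right] at hg1
  obtain ⟨k₁, hk₁, n₁, hn₁, rfl⟩ := hg1
  -- the element y
  set y : H := (n₁ : H) * x with hy
  have hy1 : π y = c := by
    rw [hy, map_mul, MonoidHom.mem_ker.1 (show (n₁ : H) ∈ π.ker from hn₁), one_mul, hx]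
  have hyK : ∀ z : L, z ∈ K₁ → ∃ w ∈ K₁, (w : H) = y * z * y⁻¹ := by
    intro z hz
    have h1 : (MulAut.conj (k₁ * n₁)) (φ z) ∈ K₁ := by
      rw [← hg]
      exact Subgroup.smul_mem_pointwise_smul _ _ _ ⟨z, hz, rfl⟩
    refine ⟨k₁⁻¹ * (MulAut.conj (k₁ * n₁)) (φ z) * k₁, mul_mem (mul_mem (inv_mem hk₁) h1) hk₁, ?_⟩
    change (k₁ : H)⁻¹ * (((k₁ : H) * n₁) * (x * z * x⁻¹) * ((k₁ : H) * n₁)⁻¹) * k₁ = (n₁ : H) * x * z * ((n₁ : H) * x)⁻¹
    group
  have hyC : ∀ z : L, z ∈ K₁ → (z : H) * y = y * z := by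
    intro z hz
    obtain ⟨w, hw, hwe⟩ := hyK z hz
    have h1 : w * z⁻¹ ∈ N.subgroupOf L ⊓ K₁ := by
      refine Subgroup.mem_inf.2 ⟨?_, K₁.mul_mem hw (K₁.inv_mem hz)⟩
      rw [mem_subgroupOf, hN, MonoidHom.mem_ker]
      change π ((w : H) * (z : H)⁻¹) = 1
      rw [hwe, map_mul, map_mul, map_mul, map_inv, map_inv, hy1]
      have h2 := mem_centralizer_singleton_iff.1 (hK z.2)
      have h3 : c * π z * c⁻¹ = π z := by rw [← h2, mul_inv_cancel_right]
      rw [h3, mul_inv_cancel]
    rw [hK₁.disjoint.eq_bot, mem_bot] at h1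
    have h2 : w = z := by rwa [mul_inv_eq_one] at h1
    rw [h2] at hwe
    rw [eq_mul_inv_iff_mul_eq] at hwe
    exact hwe
  have hyp : ∃ j, y ^ p ^ j = 1 := by
    have h1 : y ^ p ^ k ∈ N := by rw [hN, MonoidHom.mem_ker, map_pow, hy1, hc]
    obtain ⟨j, hj⟩ := hNp ⟨_, h1⟩
    refine ⟨k + j, ?_⟩
    rw [pow_add, pow_mul]
    exact congrArg Subtype.val hj
  refine ⟨y, hyp, ?_, ?_⟩
  · intro hyc
    apply hcz
    rw [mem_center_iff] at hyc ⊢
    intro g'
    obtain ⟨g', rfl⟩ := hπ g'
    rw [← hy1, ← map_mul, ← map_mul, hyc]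
  · have h1 : K₁.map L.subtype ≤ centralizer ({y} : Set H) := by
      rintro _ ⟨z, hz, rfl⟩
      rw [mem_centralizer_singleton_iff]
      exact hyC z hz
    refine not_solv_of_le h1 (not_solv_map π _ ?_)
    have h2 : (K₁.map L.subtype).map π = K := by
      apply le_antisymm
      · rintro _ ⟨_, ⟨z, hz, rfl⟩, rfl⟩
        exact z.2
      · intro q hq
        obtain ⟨h, hh⟩ := hπ q
        have h3 : (⟨h, by rw [hL, mem_comap, hh]; exact hq⟩ : L) ∈ N.subgroupOf L ⊔ K₁ := by
          rw [hK₁.sup_eq_top]; trivial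
        rw [Subgroup.mem_sup_of_normal_left] at h3
        obtain ⟨n, hn, z, hz, he⟩ := h3
        refine ⟨z, ⟨z, hz, rfl⟩, ?_⟩
        have h4 : (n : H) * z = h := congrArg Subtype.val he
        rw [← hh, ← h4, map_mul, MonoidHom.mem_ker.1 (show (n : H) ∈ π.ker from hn), one_mul]
    rw [h2]
    exact hKs

theorem main_red {p n : ℕ} [hp : Fact p.Prime]
    (c : alternatingGroup (Fin n)) {k : ℕ} (hc : c ^ p ^ k = 1) (hcz : c ∉ center (alternatingGroup (Fin n)))
    (K : Subgroup (alternatingGroup (Fin n))) (hK : K ≤ centralizer ({c} : Set (alternatingGroup (Fin n))))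
    (hKs : ¬ Group.IsSolvable K) (hcase : H66.SA.Star.{u} p n ∨ (Nat.card K).Coprime p) :
    ∀ (m : ℕ) (H : Type u) [Group H] [Finite H] (π : H →* alternatingGroup (Fin n)), Function.Surjective π →
      Nat.card H ≤ m → Good p H := by
  intro m
  induction m with
  | zero =>
    intro H _ _ π hπ hm
    have := Nat.card_pos (α := H)
    omega
  | succ m ih =>
    intro H _ _ π hπ hm
    have hquot : ∀ R : Subgroup H, ∀ _ : R.Normal, R ≠ ⊥ → R ≤ π.ker → Good p (H ⧸ R) := by
      intro R hRn hRb hRN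
      apply ih (H ⧸ R) (QuotientGroup.lift R π hRN)
      · intro y
        obtain ⟨h, rfl⟩ := hπ y
        exact ⟨QuotientGroup.mk' R h, rfl⟩
      · have h1 := Subgroup.card_eq_card_quotient_mul_card_subgroup R
        have h2 : 1 < Nat.card R := by
          rw [Subgroup.one_lt_card_iff_ne_bot]; exact hRb
        have h3 := Nat.card_pos (α := H ⧸ R)
        nlinarith
    by_cases ha : ∃ H₁ : Subgroup H, H₁ ≠ ⊤ ∧ H₁.map π = ⊤
    · obtain ⟨H₁, hne, hmap⟩ := ha
      apply good_of_sub H₁
      apply ih H₁ (π.comp H₁.subtype)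
      · rw [← MonoidHom.range_eq_top, MonoidHom.range_comp, Subgroup.range_subtype]
        exact hmap
      · have h1 := Subgroup.card_mul_index H₁
        have h2 : H₁.index ≠ 1 := by rwa [Ne, Subgroup.index_eq_one]
        have h3 : H₁.index ≠ 0 := Subgroup.index_ne_zero_of_finite
        have h4 := Nat.card_pos (α := H₁)
        have h5 : 2 ≤ H₁.index := by omega
        nlinarith
    push Not at ha
    have hmin : ∀ H₁ : Subgroup H, H₁.map π = ⊤ → H₁ = ⊤ := fun H₁ h => by
      by_contra h2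
      exact ha H₁ h2 h
    set N := π.ker with hN
    by_cases hNb : N = ⊥
    · have hinj : Function.Injective π := (MonoidHom.ker_eq_bot_iff π).1 hNb
      obtain ⟨x, hx⟩ := hπ c
      refine ⟨x, ⟨k, hinj (by rw [map_pow, hx, hc, map_one])⟩, ?_, ?_⟩
      · intro hxc
        apply hcz
        rw [mem_center_iff] at hxc ⊢
        intro g
        obtain ⟨g, rfl⟩ := hπ g
        rw [← hx, ← map_mul, ← map_mul, hxc]
      · have h1 : K.comap π ≤ centralizer ({x} : Set H) := by
          intro y hy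
          rw [mem_centralizer_singleton_iff]
          apply hinj
          rw [map_mul, map_mul, hx]
          exact mem_centralizer_singleton_iff.1 (hK hy)
        refine not_solv_of_le h1 (not_solv_map π _ ?_)
        rwa [map_comap_eq_self_of_surjective hπ]
    by_cases hr : ∃ r : ℕ, r.Prime ∧ r ≠ p ∧ r ∣ Nat.card N
    · obtain ⟨r, hrp, hrne, hrd⟩ := hr
      have := Fact.mk hrp
      obtain ⟨R⟩ := (inferInstance : Nonempty (Sylow r N))
      have h1 : Subgroup.normalizer (((R : Subgroup N).map N.subtype : Subgroup H) : Set H) ⊔ N = ⊤ :=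
        Sylow.normalizer_sup_eq_top R
      have h2 : Subgroup.normalizer (((R : Subgroup N).map N.subtype : Subgroup H) : Set H) = ⊤ := by
        apply hmin
        have h3 := congrArg (Subgroup.map π) h1
        rw [Subgroup.map_sup, Subgroup.map_top_of_surjective π hπ] at h3
        have h4 : N.map π = ⊥ := by rw [Subgroup.map_eq_bot_iff]
        rwa [h4, sup_bot_eq] at h3
      have hRn : ((R : Subgroup N).map N.subtype).Normal := Subgroup.normalizer_eq_top_iff.1 h2
      obtain ⟨a, ha'⟩ := IsPGroup.iff_card.1 R.2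
      have hcard : Nat.card ((R : Subgroup N).map N.subtype) = r ^ a := by
        rw [Subgroup.card_map_of_injective N.subtype_injective, ha']
      have hne : (R : Subgroup N).map N.subtype ≠ ⊥ := by
        intro h
        rw [Subgroup.map_eq_bot_iff_of_injective _ N.subtype_injective] at h
        have h5 := R.2
        have h6 : ¬ r ∣ (R : Subgroup N).index := R.not_dvd_index
        rw [h, Subgroup.index_bot] at h6
        exact h6 hrd
      have hle : (R : Subgroup N).map N.subtype ≤ N := Subgroup.map_subtype_le _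
      apply good_of_coprime _ _ (hquot _ hRn hne hle)
      rw [hcard]
      exact Nat.Coprime.pow_left a ((Nat.coprime_primes hrp hp.out).2 hrne)
    · push Not at hr
      have hNp : IsPGroup p N := by
        have h1 : Nat.card N = p ^ (Nat.card N).primeFactorsList.length :=
          Nat.eq_prime_pow_of_unique_prime_dvd Nat.card_pos.ne' (fun {d} hd hdd => by
            by_contra hne
            exact hr d hd hne hdd)
        exact IsPGroup.of_card h1
      by_cases hz : N ⊓ center H = ⊥
      · rcases hcase with h | h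
        · exact good_of_star h π hπ hNp hNb hz
        · exact good_of_compl π hπ hNp c hc hcz K hK hKs h
      · apply good_of_central (N ⊓ center H) inf_le_right
          (hNp.to_le inf_le_left) (hquot _ inferInstance hz inf_le_left)

theorem a5_not_solv : ¬ Group.IsSolvable (alternatingGroup (Fin 5)) := by
  intro h
  apply Equiv.Perm.not_isSolvable_fin_5
  refine Group.isSolvable_of_ker_le_range (alternatingGroup (Fin 5)).subtype Equiv.Perm.sign ?_
  intro x hx
  exact ⟨⟨x, hx⟩, rfl⟩

/-- permutations of the two blocks -/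
def jj (m : ℕ) : Equiv.Perm (Fin m) × Equiv.Perm (Fin 5) →* Equiv.Perm (Fin (m + 5)) :=
  (finSumFinEquiv.permCongrHom.toMonoidHom).comp (Equiv.Perm.sumCongrHom (Fin m) (Fin 5))

theorem jj_inj (m : ℕ) : Function.Injective (jj m) := by
  intro a b hab
  apply Equiv.Perm.sumCongrHom_injective
  exact finSumFinEquiv.permCongrHom.injective hab

theorem jj_sign (m : ℕ) (a : Equiv.Perm (Fin m)) (b : Equiv.Perm (Fin 5)) :
    Equiv.Perm.sign (jj m (a, b)) = Equiv.Perm.sign a * Equiv.Perm.sign b := by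
  change Equiv.Perm.sign (finSumFinEquiv.permCongr (Equiv.Perm.sumCongr a b)) = _
  rw [Equiv.Perm.sign_permCongr, Equiv.Perm.sign_sumCongr]

theorem base {p m k : ℕ} (c₀ : Equiv.Perm (Fin m)) (hs : Equiv.Perm.sign c₀ = 1) (h1 : c₀ ^ p ^ k = 1)
    (hne : c₀ ≠ 1) :
    ∃ c : alternatingGroup (Fin (m + 5)), c ^ p ^ k = 1 ∧ c ∉ center (alternatingGroup (Fin (m + 5))) ∧
      ∃ K : Subgroup (alternatingGroup (Fin (m + 5))), K ≤ centralizer ({c} : Set (alternatingGroup (Fin (m + 5)))) ∧
        ¬ Group.IsSolvable K ∧ Nat.card K = 60 := by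
  let c : alternatingGroup (Fin (m + 5)) := ⟨jj m (c₀, 1), by
    rw [Equiv.Perm.mem_alternatingGroup, jj_sign, hs, map_one, one_mul]⟩
  let f : alternatingGroup (Fin 5) →* alternatingGroup (Fin (m + 5)) :=
    { toFun := fun b => ⟨jj m (1, b), by
        rw [Equiv.Perm.mem_alternatingGroup, jj_sign, map_one, one_mul]
        exact b.2⟩
      map_one' := Subtype.ext (map_one (jj m))
      map_mul' := fun a b => Subtype.ext (by
        change jj m (1, (a : Equiv.Perm (Fin 5)) * b) = jj m (1, a) * jj m (1, b)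
        rw [← map_mul]; simp) }
  have hf : Function.Injective f := by
    intro a b hab
    have h2 : jj m (1, (a : Equiv.Perm (Fin 5))) = jj m (1, b) := congrArg Subtype.val hab
    have h3 := jj_inj m h2
    exact Subtype.ext (congrArg Prod.snd h3)
  refine ⟨c, ?_, ?_, f.range, ?_, ?_, ?_⟩
  · apply Subtype.ext
    change (jj m (c₀, 1)) ^ p ^ k = 1
    rw [← map_pow, Prod.pow_mk, h1, one_pow]
    exact map_one (jj m)
  · rw [alternatingGroup.center_eq_bot (by rw [Nat.card_eq_fintype_card, Fintype.card_fin]; omega), mem_bot]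
    intro h
    apply hne
    have h2 : jj m (c₀, 1) = jj m (1, 1) := by
      rw [show ((1 : Equiv.Perm (Fin m)), (1 : Equiv.Perm (Fin 5))) = 1 from rfl, map_one]
      exact congrArg Subtype.val h
    exact congrArg Prod.fst (jj_inj m h2)
  · rintro _ ⟨b, rfl⟩
    rw [mem_centralizer_singleton_iff]
    apply Subtype.ext
    change jj m (1, (b : Equiv.Perm (Fin 5))) * jj m (c₀, 1) = jj m (c₀, 1) * jj m (1, b)
    rw [← map_mul, ← map_mul]
    simp
  · intro h
    apply a5_not_solv
    exact Group.isSolvable_of_isSolvable_injective (f := f.rangeRestrict)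
      (MonoidHom.rangeRestrict_injective_iff.2 hf)
  · rw [Nat.card_congr (MonoidHom.ofInjective hf).toEquiv.symm, Nat.card_eq_fintype_card]
    decide +kernel

/-- `A_n` embeds in `A_d` -/
theorem exists_emb {n d : ℕ} (h : n ≤ d) :
    ∃ f : alternatingGroup (Fin n) →* alternatingGroup (Fin d), Function.Injective f := by
  classical
  let e : Fin n ≃ {x : Fin d // x ∈ Set.range (Fin.castLE h)} :=
    Equiv.ofInjective (Fin.castLE h) (Fin.castLE_injective h)
  let F := Equiv.Perm.extendDomainHom e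
  refine ⟨{ toFun := fun a => ⟨F a, ?_⟩, map_one' := Subtype.ext (map_one F),
            map_mul' := fun a b => Subtype.ext (map_mul F _ _) }, ?_⟩
  · rw [Equiv.Perm.mem_alternatingGroup]
    change Equiv.Perm.sign ((a : Equiv.Perm (Fin n)).extendDomain e) = 1
    rw [Equiv.Perm.sign_extendDomain]
    exact a.2
  · intro a b hab
    have h2 : F a = F b := congrArg Subtype.val hab
    exact Subtype.ext (Equiv.Perm.extendDomainHom_injective e h2)

theorem good_of_involves {p n d : ℕ} [hp : Fact p.Prime] (hnd : n ≤ d) {G : Type u} [Group G] [Finite G]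
    (hinv : Cfsg.Involves (alternatingGroup (Fin d)) G)
    (c : alternatingGroup (Fin n)) {k : ℕ} (hc : c ^ p ^ k = 1) (hcz : c ∉ center (alternatingGroup (Fin n)))
    (K : Subgroup (alternatingGroup (Fin n))) (hK : K ≤ centralizer ({c} : Set (alternatingGroup (Fin n))))
    (hKs : ¬ Group.IsSolvable K) (hcase : H66.SA.Star.{u} p n ∨ (Nat.card K).Coprime p) : Good p G := by
  obtain ⟨M, R, hR, ⟨e⟩⟩ := hinv
  obtain ⟨f, hf⟩ := exists_emb hnd
  let ψ : M →* alternatingGroup (Fin d) := e.toMonoidHom.comp (QuotientGroup.mk' (R.subgroupOf M))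
  have hψ : Function.Surjective ψ := e.surjective.comp (QuotientGroup.mk'_surjective _)
  let H₀ : Subgroup M := f.range.comap ψ
  let π : H₀ →* alternatingGroup (Fin n) :=
    (MonoidHom.ofInjective hf).symm.toMonoidHom.comp ((ψ.comp H₀.subtype).codRestrict f.range (fun x => x.2))
  have hπ : Function.Surjective π := by
    apply (MonoidHom.ofInjective hf).symm.surjective.comp
    intro y
    obtain ⟨x, hx⟩ := hψ y
    exact ⟨⟨x, by change ψ x ∈ f.range; rw [hx]; exact y.2⟩, Subtype.ext hx⟩
  exact good_of_sub M (good_of_sub H₀ (main_red c hc hcz K hK hKs hcase _ H₀ π hπ le_rfl))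

theorem finish {p : ℕ} [hp : Fact p.Prime] {G : Type u} [Group G] [Finite G]
    (h : ∀ x : G, x ∉ Subgroup.center G → (∃ k : ℕ, orderOf x = p ^ k) →
      Group.IsSolvable (Subgroup.centralizer ({x} : Set G))) : ¬ Good p G := by
  rintro ⟨x, ⟨k, hk⟩, hx, hs⟩
  apply hs
  apply h x hx
  obtain ⟨j, _, hj⟩ := (Nat.dvd_prime_pow hp.out).1 (orderOf_dvd_of_pow_eq_one hk)
  exact ⟨j, hj⟩

theorem main (h5 : H66.SA.Star.{u} 5 10) (h2 : H66.SA.Star.{u} 2 9)
    {G : Type u} [Group G] [Finite G] (p : ℕ) [Fact p.Prime] (hp3 : p ≠ 3)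
    (h : ∀ x : G, x ∉ Subgroup.center G → (∃ k : ℕ, orderOf x = p ^ k) →
      Group.IsSolvable (Subgroup.centralizer ({x} : Set G)))
    (d : ℕ) (hd : 5 ≤ d) (hinv : Cfsg.Involves (alternatingGroup (Fin d)) G) :
    d ≤ p + 4 + (if p = 2 then 2 else 0) := by
  have hp : p.Prime := Fact.out
  by_contra hcon
  push Not at hcon
  apply finish h
  by_cases hp2 : p = 2
  · subst hp2
    rw [if_pos rfl] at hcon
    obtain ⟨c, hc, hcz, K, hK, hKs, hKc⟩ := base (p := 2) (m := 4) (k := 1)
      (Equiv.swap 0 1 * Equiv.swap 2 3) (by decide) (by decide) (by decide)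
    exact good_of_involves (n := 9) (by omega) hinv c hc hcz K hK hKs (Or.inl h2)
  · rw [if_neg hp2] at hcon
    have hp5 : 5 ≤ p := by
      have h2 := hp.two_le
      have h4 : p ≠ 4 := by rintro rfl; exact absurd hp (by decide)
      omega
    have hodd : Odd p := hp.odd_of_ne_two hp2
    obtain ⟨q, rfl⟩ : ∃ q, p = q + 1 := ⟨p - 1, by omega⟩
    have hqe : Even q := by
      rcases Nat.even_or_odd q with h | h
      · exact h
      · exact absurd hodd (by rw [Nat.not_odd_iff_even]; exact h.add_one)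
    obtain ⟨c, hc, hcz, K, hK, hKs, hKc⟩ := base (p := q + 1) (m := q + 1) (k := 1) (finRotate (q + 1))
      (by rw [sign_finRotate, Nat.add_sub_cancel, hqe.neg_one_pow]) (by
        rw [pow_one]
        obtain ⟨q', rfl⟩ : ∃ q', q = q' + 1 := ⟨q - 1, by omega⟩
        have h3 : orderOf (finRotate (q' + 1 + 1)) = q' + 1 + 1 := by
          rw [Equiv.Perm.IsCycle.orderOf isCycle_finRotate, support_finRotate, Finset.card_univ, Fintype.card_fin]
        have h4 := pow_orderOf_eq_one (finRotate (q' + 1 + 1))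
        rwa [h3] at h4) (by
        obtain ⟨q', rfl⟩ : ∃ q', q = q' + 1 := ⟨q - 1, by omega⟩
        exact isCycle_finRotate.ne_one)
    by_cases h55 : q + 1 = 5
    · obtain rfl : q = 4 := by omega
      exact good_of_involves (n := 10) (by omega) hinv c hc hcz K hK hKs (Or.inl h5)
    · refine good_of_involves (n := q + 1 + 5) (by omega) hinv c hc hcz K hK hKs (Or.inr ?_)
      rw [hKc]
      have h7 : 5 < q + 1 := by omega
      rw [Nat.coprime_comm]
      apply (Nat.Prime.coprime_iff_not_dvd hp).2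
      intro hdvd
      have h60 : (60 : ℕ) = 2 * 2 * 3 * 5 := by norm_num
      rw [h60, hp.dvd_mul, hp.dvd_mul, hp.dvd_mul] at hdvd
      rcases hdvd with ((h | h) | h) | h <;> have := Nat.le_of_dvd (by norm_num) h <;> omega

end H13.S41R
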