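import Mathlib.GroupTheory.Sylow
import Cfsg.Prelude.Def_Local
import Cfsg.Agent.Lib.H13.CoresQuot
import Cfsg.Agent.Lib.H13.Transport
import Cfsg.Agent.Lib.H13.Norm
import Cfsg.Agent.Lib.H59.SylowQ

set_option autoImplicit false

/-!
`N_G(P)/C_G(P)` and quotients by normal `p'`-subgroups; `p`-stability of `G / O_{p'}(G)`.
-/

namespace H13.StableQuot

open Subgroup
open scoped commutatorElement

universe u v

variable {G : Type u} [Group G] {p : ℕ}

theorem mk_mem_pCore_iff {X : Type u} [Group X] {Y : Type v} [Group Y] {K : Subgroup X} [K.Normal]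
    (f : X →* Y) (hf : Function.Surjective f) (hK : f.ker = K) (x : X) :
    (QuotientGroup.mk x : X ⧸ K) ∈ Cfsg.pCore p (X ⧸ K) ↔ f x ∈ Cfsg.pCore p Y := by
  subst hK
  set e := QuotientGroup.quotientKerEquivOfSurjective f hf with he
  have h1 : e (QuotientGroup.mk x) = f x := rfl
  rw [← h1, ← Cores.map_pCore_equiv e]
  constructor
  · intro h
    exact ⟨_, h, rfl⟩
  · rintro ⟨y, hy, hyx⟩
    have h2 : y = QuotientGroup.mk x := e.injective hyx
    rw [← h2]
    exact hy

variable (N : Subgroup G) [N.Normal] (P : Subgroup G)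

theorem map_mem_normalizer {x : G} (hx : x ∈ normalizer (P : Set G)) :
    QuotientGroup.mk' N x ∈ normalizer ((P.map (QuotientGroup.mk' N) : Subgroup (G ⧸ N)) :
      Set (G ⧸ N)) := by
  apply Norm.mem_normalizer_of
  · rintro _ ⟨y, hy, rfl⟩
    exact ⟨x * y * x⁻¹, (mem_normalizer_iff.1 hx y).1 hy, by simp⟩
  · rintro _ ⟨y, hy, rfl⟩
    exact ⟨x⁻¹ * y * x, (mem_normalizer_iff''.1 hx y).1 hy, by simp⟩

/-- The map `N_G(P) → N(P̄)/C(P̄)`. -/
def gmap : normalizer (P : Set G) →*
    ↥(normalizer ((P.map (QuotientGroup.mk' N) : Subgroup (G ⧸ N)) : Set (G ⧸ N))) ⧸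
      (centralizer ((P.map (QuotientGroup.mk' N) : Subgroup (G ⧸ N)) : Set (G ⧸ N))).subgroupOf
        (normalizer ((P.map (QuotientGroup.mk' N) : Subgroup (G ⧸ N)) : Set (G ⧸ N))) :=
  (QuotientGroup.mk' _).comp
    (((QuotientGroup.mk' N).comp (normalizer (P : Set G)).subtype).codRestrict _
      (fun x => map_mem_normalizer N P x.2))

variable {N P}

theorem mem_ker_gmap (hPN : P ⊓ N = ⊥) (x : normalizer (P : Set G)) :
    x ∈ (gmap N P).ker ↔ (x : G) ∈ centralizer (P : Set G) := by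
  unfold gmap
  rw [MonoidHom.mem_ker, MonoidHom.comp_apply, ← MonoidHom.mem_ker, QuotientGroup.ker_mk',
    mem_subgroupOf]
  change QuotientGroup.mk' N (x : G) ∈ _ ↔ _
  constructor
  · intro h
    rw [mem_centralizer_iff] at h ⊢
    intro y hy
    have h1 := h _ ⟨y, hy, rfl⟩
    have h2 : (x : G) * y * (x : G)⁻¹ * y⁻¹ ∈ P ⊓ N := by
      refine mem_inf.2 ⟨P.mul_mem ((mem_normalizer_iff.1 x.2 y).1 hy) (P.inv_mem hy), ?_⟩
      rw [← QuotientGroup.ker_mk' N, MonoidHom.mem_ker, map_mul, map_mul, map_mul, map_inv,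
        map_inv, ← h1]
      group
    rw [hPN, mem_bot] at h2
    calc y * (x : G) = ((x : G) * y * (x : G)⁻¹ * y⁻¹)⁻¹ * x * y := by group
      _ = x * y := by rw [h2]; group
  · intro h
    rw [mem_centralizer_iff] at h ⊢
    rintro _ ⟨y, hy, rfl⟩
    rw [← map_mul, h y hy, map_mul]

theorem ker_gmap (hPN : P ⊓ N = ⊥) :
    (gmap N P).ker = (centralizer (P : Set G)).subgroupOf (normalizer (P : Set G)) := by
  ext x
  rw [mem_ker_gmap hPN, mem_subgroupOf]

theorem gmap_surjective [Finite G] [hp : Fact p.Prime] (hN : (Nat.card N).Coprime p)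
    (hP : IsPGroup p P) (hn : (N ⊔ P).Normal) : Function.Surjective (gmap N P) := by
  intro y
  obtain ⟨⟨y, hy⟩, rfl⟩ := QuotientGroup.mk_surjective y
  obtain ⟨x, rfl⟩ := QuotientGroup.mk'_surjective N y
  obtain ⟨z, hz, n, hn', rfl⟩ := Transport.exists_mul_normalizer (A := P) (N := N) hP hN (x := x)
    (by
      intro a ha
      rw [sup_comm]
      exact hn.conj_mem a (le_sup_right (a := N) ha) x)
  refine ⟨⟨n, hn'⟩, ?_⟩
  unfold gmap
  rw [MonoidHom.comp_apply]
  refine congrArg QuotientGroup.mk (Subtype.ext ?_)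
  change QuotientGroup.mk' N n = QuotientGroup.mk' N (z * n)
  have h3 : QuotientGroup.mk' N z = 1 := by
    rw [← MonoidHom.mem_ker, QuotientGroup.ker_mk']; exact hz
  rw [map_mul, h3, one_mul]

/-- The key comparison. -/
theorem mem_pCore_iff [Finite G] [hp : Fact p.Prime] (hN : (Nat.card N).Coprime p)
    (hP : IsPGroup p P) (hn : (N ⊔ P).Normal) {x : G} (hx : x ∈ normalizer (P : Set G)) :
    (QuotientGroup.mk (⟨x, hx⟩ : normalizer (P : Set G)) :
        ↥(normalizer (P : Set G)) ⧸ (centralizer (P : Set G)).subgroupOf (normalizer (P : Set G))) ∈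
      Cfsg.pCore p _ ↔
    (QuotientGroup.mk (⟨QuotientGroup.mk' N x, map_mem_normalizer N P hx⟩ :
        ↥(normalizer ((P.map (QuotientGroup.mk' N) : Subgroup (G ⧸ N)) : Set (G ⧸ N)))) :
      ↥(normalizer ((P.map (QuotientGroup.mk' N) : Subgroup (G ⧸ N)) : Set (G ⧸ N))) ⧸
      (centralizer ((P.map (QuotientGroup.mk' N) : Subgroup (G ⧸ N)) : Set (G ⧸ N))).subgroupOf
        (normalizer ((P.map (QuotientGroup.mk' N) : Subgroup (G ⧸ N)) : Set (G ⧸ N)))) ∈
      Cfsg.pCore p _ := by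
  have hPN : P ⊓ N = ⊥ := Transport.inf_eq_bot_of_isPGroup_of_coprime hP hN
  exact mk_mem_pCore_iff (gmap N P) (gmap_surjective hN hP hn) (ker_gmap hPN) ⟨x, hx⟩

/-- Lifting `p`-subgroups. -/
theorem exists_lift [Finite G] [hp : Fact p.Prime] {X : Subgroup G} {A' : Subgroup (G ⧸ N)}
    (hX : X.map (QuotientGroup.mk' N) = A') (hA' : IsPGroup p A') :
    ∃ A ≤ X, IsPGroup p A ∧ A.map (QuotientGroup.mk' N) = A' := by
  subst hX
  obtain ⟨S⟩ : Nonempty (Sylow p X) := inferInstance
  refine ⟨(S : Subgroup X).map X.subtype, map_subtype_le _, S.isPGroup'.map _, ?_⟩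
  have h1 := H59.SylowQ.map_eq_top_of_isPGroup ((QuotientGroup.mk' N).subgroupMap X)
    ((QuotientGroup.mk' N).subgroupMap_surjective X) S hA'
  rw [Subgroup.map_map]
  have h2 : ((QuotientGroup.mk' N).comp X.subtype) =
      (X.map (QuotientGroup.mk' N)).subtype.comp ((QuotientGroup.mk' N).subgroupMap X) := rfl
  rw [h2, ← Subgroup.map_map, h1, ← MonoidHom.range_eq_map, Subgroup.range_subtype]

theorem isPStable_quotient [Finite G] [hp : Fact p.Prime] (h : Cfsg.IsPStable p G) :
    Cfsg.IsPStable p (G ⧸ Cfsg.pPrimeCore p G) := by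
  obtain ⟨hodd, hO, hst⟩ := h
  set N := Cfsg.pPrimeCore p G with hNdef
  have hN : (Nat.card N).Coprime p := Cores.coprime_card_pPrimeCore
  refine ⟨hodd, ?_, ?_⟩
  · intro h0
    have h1 : (Cfsg.pCore p G).map (QuotientGroup.mk' N) ≤ Cfsg.pCore p (G ⧸ N) :=
      Cores.map_pCore_le (QuotientGroup.mk'_surjective N)
    rw [h0, le_bot_iff, Subgroup.map_eq_bot_iff, QuotientGroup.ker_mk'] at h1
    apply hO
    rw [← Transport.inf_eq_bot_of_isPGroup_of_coprime (Cores.isPGroup_pCore (p := p) (G := G)) hN]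
    exact (inf_eq_left.2 h1).symm
  · intro A' P' hA' hP' hAP' hPle hPn hquad
    rw [CoresQuot.pPrimeCore_quotient, bot_sup_eq] at hPn
    -- lift `P`
    obtain ⟨P, -, hPp, hPmap⟩ := exists_lift (N := N) (X := P'.comap (QuotientGroup.mk' N))
      (map_comap_eq_self_of_surjective (QuotientGroup.mk'_surjective N) P') hP'
    subst hPmap
    have hNP : (N ⊔ P).Normal := by
      have h1 : N ⊔ P = (P.map (QuotientGroup.mk' N)).comap (QuotientGroup.mk' N) := by
        rw [Subgroup.comap_map_eq, QuotientGroup.ker_mk', sup_comm]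
      rw [h1]
      exact hPn.comap _
    have hPN : P ⊓ N = ⊥ := Transport.inf_eq_bot_of_isPGroup_of_coprime hPp hN
    -- lift `A`
    obtain ⟨A, hAN, hAp, hAmap⟩ := exists_lift (N := N)
      (X := normalizer (P : Set G) ⊓ A'.comap (QuotientGroup.mk' N)) (A' := A') (by
        apply le_antisymm
        · rintro _ ⟨x, hx, rfl⟩
          exact (mem_inf.1 hx).2
        · intro a ha
          obtain ⟨x, rfl⟩ := QuotientGroup.mk'_surjective N a
          obtain ⟨z, hz, n, hn, hzn⟩ := Transport.exists_mul_normalizer (A := P) (N := N) hPp hN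
            (x := x) (by
              intro b hb
              rw [sup_comm]
              exact hNP.conj_mem b (le_sup_right (a := N) hb) x)
          have h3 : QuotientGroup.mk' N z = 1 := by
            rw [← MonoidHom.mem_ker, QuotientGroup.ker_mk']; exact hz
          have h4 : QuotientGroup.mk' N n = QuotientGroup.mk' N x := by
            rw [hzn, map_mul, h3, one_mul]
          refine ⟨n, mem_inf.2 ⟨hn, ?_⟩, h4⟩
          rw [mem_comap, h4]
          exact ha) hA'
    subst hAmap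
    have hAN1 : A ≤ normalizer (P : Set G) := hAN.trans inf_le_left
    have hq : ⁅⁅P, A⁆, A⁆ = ⊥ := by
      rw [eq_bot_iff, ← hPN]
      have h1 : ⁅P, A⁆ ≤ P := le_normalizer_iff_commutator_le_left.1 hAN1
      refine le_inf ((commutator_mono h1 le_rfl).trans h1) ?_
      rw [← map_commutator, ← map_commutator, Subgroup.map_eq_bot_iff,
        QuotientGroup.ker_mk'] at hquad
      exact hquad
    have hPle' : P ≤ Cfsg.pPrimePCore p G := by
      unfold Cfsg.pPrimePCore
      rw [← Subgroup.map_le_iff_le_comap]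
      exact Cores.le_pCore hPn hP'
    have key := hst A P hAp hPp (fun a ha x hx => Norm.conj_mem hAN1 ha hx) hPle' hNP hq
    rintro _ ⟨⟨y, hyN⟩, hyA, rfl⟩
    obtain ⟨a, haA, hay⟩ : y ∈ A.map (QuotientGroup.mk' N) := hyA
    subst hay
    have h5 := key ⟨(⟨a, hAN1 haA⟩ : normalizer (P : Set G)), haA, rfl⟩
    exact (mem_pCore_iff hN hPp hNP (hAN1 haA)).1 h5

theorem isPStable_of_quotient [Finite G] [hp : Fact p.Prime] (hO : Cfsg.pCore p G ≠ ⊥)
    (h : Cfsg.IsPStable p (G ⧸ Cfsg.pPrimeCore p G)) : Cfsg.IsPStable p G := by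
  obtain ⟨hodd, -, hst⟩ := h
  set N := Cfsg.pPrimeCore p G with hNdef
  have hN : (Nat.card N).Coprime p := Cores.coprime_card_pPrimeCore
  refine ⟨hodd, hO, ?_⟩
  intro A P hAp hPp hAP hPle hNP hquad
  have hPN : P ⊓ N = ⊥ := Transport.inf_eq_bot_of_isPGroup_of_coprime hPp hN
  have hAN : A ≤ normalizer (P : Set G) := by
    intro a ha
    apply Norm.mem_normalizer_of (fun x hx => hAP a ha x hx)
    intro x hx
    have := hAP a⁻¹ (inv_mem ha) x hx
    rwa [inv_inv] at this
  have hPmap : (P.map (QuotientGroup.mk' N)).Normal := by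
    have h1 : P.map (QuotientGroup.mk' N) = (N ⊔ P).map (QuotientGroup.mk' N) := by
      rw [Subgroup.map_sup]
      have h2 : N.map (QuotientGroup.mk' N) = ⊥ := by
        rw [Subgroup.map_eq_bot_iff, QuotientGroup.ker_mk']
      rw [h2, bot_sup_eq]
    rw [h1]
    exact hNP.map _ (QuotientGroup.mk'_surjective N)
  have key := hst (A.map (QuotientGroup.mk' N)) (P.map (QuotientGroup.mk' N)) (hAp.map _)
    (hPp.map _) (by
      rintro _ ⟨a, ha, rfl⟩ _ ⟨x, hx, rfl⟩
      exact ⟨a * x * a⁻¹, hAP a ha x hx, by simp⟩) (by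
      unfold Cfsg.pPrimePCore
      rw [← Subgroup.map_le_iff_le_comap]
      apply Cores.le_pCore (hPmap.map _ (QuotientGroup.mk'_surjective _))
      exact (hPp.map _).map _) (by
      rw [CoresQuot.pPrimeCore_quotient, bot_sup_eq]
      exact hPmap) (by
      rw [← map_commutator, ← map_commutator, hquad, Subgroup.map_bot])
  rintro _ ⟨⟨a, haN⟩, haA, rfl⟩
  have haA' : a ∈ A := haA
  rw [QuotientGroup.mk'_apply, mem_pCore_iff hN hPp hNP haN]
  exact key ⟨⟨QuotientGroup.mk' N a, map_mem_normalizer N P haN⟩, ⟨a, haA', rfl⟩, rfl⟩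

end H13.StableQuot
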