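import Mathlib
import Cfsg.Prelude.Def_PLocal
import Cfsg.Agent.Lib.H13.ElemAb
import Cfsg.Agent.Lib.H13.Act
import Cfsg.Agent.Lib.H13.Sn
import Cfsg.Agent.Lib.H13.Norm

set_option autoImplicit false

/-!
Two subnormal subgroups acting irreducibly on incomparable commutator modules.
-/

namespace H13.SubPair

open Subgroup H13.Sn
open scoped commutatorElement

universe u

variable {G : Type u} [Group G] [Finite G] {p : ℕ} [hp : Fact p.Prime] {V : Subgroup G}

/-- the ambient hypotheses -/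
structure Amb (p : ℕ) (V E : Subgroup G) : Prop where
  hV : Cfsg.IsElementaryAbelian p V
  hEV : E ≤ normalizer (V : Set G)
  hf : E ⊓ centralizer (V : Set G) = ⊥
  hO : Cfsg.pCore p E = ⊥

/-- the hypotheses on one subgroup -/
structure Pre (V E A : Subgroup G) : Prop where
  sn : Sn A E
  irr : ∀ U : Subgroup G, U ≤ ⁅V, A⁆ → A ≤ normalizer (U : Set G) → U = ⊥ ∨ U = ⁅V, A⁆
  two : 2 < Nat.card A

theorem Amb.hc {E : Subgroup G} (h : Amb p V E) : V ≤ centralizer (V : Set G) := by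
  intro x hx
  rw [mem_centralizer_iff]
  intro y hy
  exact (ElemAb.iff_mem.1 h.hV).1 y hy x hx

theorem Amb.of_sn {E F : Subgroup G} (h : Amb p V E) (hF : Sn F E) : Amb p V F where
  hV := h.hV
  hEV := hF.1.trans h.hEV
  hf := le_bot_iff.1 ((inf_le_inf_right _ hF.1).trans h.hf.le)
  hO := hF.pCore_eq_bot h.hO

omit [Finite G] hp in
theorem Pre.of_le {E F A : Subgroup G} (h : Pre V E A) (hA : A ≤ F) (hF : F ≤ E) : Pre V F A where
  sn := h.sn.of_le hA hF
  irr := h.irr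
  two := h.two

omit [Finite G] hp in
theorem cj_le_iff {g : G} {A B : Subgroup G} : cj g A ≤ B ↔ A ≤ cj g⁻¹ B := by
  constructor
  · intro h
    have := cj_mono (g := g⁻¹) h
    rwa [cj_cj, inv_mul_cancel, cj_one] at this
  · intro h
    have := cj_mono (g := g) h
    rwa [cj_cj, mul_inv_cancel, cj_one] at this

omit [Finite G] hp in
theorem le_normalizer_iff_cj {A U : Subgroup G} : A ≤ normalizer (U : Set G) ↔ ∀ a ∈ A, cj a U = U :=
  ⟨fun h a ha => cj_eq_of_mem (h ha), fun h a ha => mem_normalizer_of_cj (h a ha)⟩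

omit hp in
theorem Pre.conj {E A : Subgroup G} (hE : E ≤ normalizer (V : Set G)) (h : Pre V E A) {g : G} (hg : g ∈ E) :
    Pre V E (cj g A) where
  sn := h.sn.conj hg
  irr := by
    intro U hU hAU
    have hVg : cj g V = V := cj_eq_of_mem (hE hg)
    have hW : ⁅V, cj g A⁆ = cj g ⁅V, A⁆ := by
      rw [cj_commutator, hVg]
    rw [hW] at hU ⊢
    have h1 : cj g⁻¹ U ≤ ⁅V, A⁆ := by
      have := cj_mono (g := g⁻¹) hU
      rwa [cj_cj, inv_mul_cancel, cj_one] at this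
    have h2 : A ≤ normalizer ((cj g⁻¹ U : Subgroup G) : Set G) := by
      rw [le_normalizer_iff_cj]
      intro a ha
      have h3 := le_normalizer_iff_cj.1 hAU (g * a * g⁻¹) (conj_mem_cj ha)
      have h4 := congrArg (cj g⁻¹) h3
      rw [cj_cj] at h4
      rw [cj_cj, ← h4]
      congr 1
      group
    rcases h.irr _ h1 h2 with h5 | h5
    · left
      have := congrArg (cj g) h5
      rwa [cj_cj, mul_inv_cancel, cj_one, cj, Subgroup.map_bot] at this
    · right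
      have := congrArg (cj g) h5
      rwa [cj_cj, mul_inv_cancel, cj_one] at this
  two := by
    rw [card_cj]
    exact h.two

/-- subnormal subgroups acting quadratically are trivial -/
theorem Amb.eq_bot {E P : Subgroup G} (h : Amb p V E) (hP : Sn P E) (hq : ⁅⁅V, P⁆, P⁆ = ⊥) : P = ⊥ := by
  refine hP.eq_bot ?_ h.hO
  have hc := h.hc
  intro x
  refine ⟨1, ?_⟩
  have hx : (x : G) ∈ E := hP.1 x.2
  have hxV := h.hEV hx
  have h1 : (x : G) ^ p ∈ E ⊓ centralizer (V : Set G) := by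
    refine mem_inf.2 ⟨pow_mem hx p, ?_⟩
    rw [mem_centralizer_iff]
    intro v hv
    have hv1 : ⁅v, (x : G)⁆ ∈ V := Act.comm_mem hxV hv
    have hfix : Commute ⁅v, (x : G)⁆ (x : G) := by
      have h2 : ⁅⁅v, (x : G)⁆, (x : G)⁆ ∈ (⊥ : Subgroup G) := by
        rw [← hq]
        exact commutator_mem_commutator (commutator_mem_commutator hv x.2) x.2
      rw [mem_bot, commutatorElement_eq_one_iff_mul_comm] at h2
      exact h2
    have h3 : ∀ k : ℕ, v * (x : G) ^ k = ⁅v, (x : G)⁆ ^ k * ((x : G) ^ k * v) := by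
      intro k
      induction k with
      | zero => simp
      | succ k ih =>
        rw [pow_succ, ← mul_assoc, ih]
        have h4 : v * (x : G) = ⁅v, (x : G)⁆ * ((x : G) * v) := by
          simp only [commutatorElement_def]
          group
        calc ⁅v, (x : G)⁆ ^ k * ((x : G) ^ k * v) * (x : G)
            = ⁅v, (x : G)⁆ ^ k * (x : G) ^ k * (v * (x : G)) := by group
          _ = ⁅v, (x : G)⁆ ^ k * ((x : G) ^ k * ⁅v, (x : G)⁆) * ((x : G) * v) := by rw [h4]; group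
          _ = ⁅v, (x : G)⁆ ^ (k + 1) * ((x : G) ^ k * (x : G) * v) := by
            rw [(hfix.pow_right k).symm.eq, pow_succ]
            group
    rw [h3 p, (h.hV.2 _ hv1), one_mul]
  rw [h.hf, mem_bot] at h1
  rw [pow_one]
  exact Subtype.ext h1

theorem Amb.ne_of_two {E P : Subgroup G} (h : Amb p V E) (hP : Sn P E) (h2 : 2 < Nat.card P) :
    ⁅⁅V, P⁆, P⁆ ≠ ⊥ := by
  intro h3
  have h4 := h.eq_bot hP h3
  rw [h4, card_bot] at h2
  omega

/-- `C_E(V/W)`. -/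
def cq (V E W : Subgroup G) (hW : W ≤ V) (hEV : E ≤ normalizer (V : Set G))
    (hEW : E ≤ normalizer (W : Set G)) : Subgroup G where
  carrier := {x | x ∈ E ∧ ∀ v ∈ V, ⁅v, x⁆ ∈ W}
  one_mem' := ⟨one_mem _, fun v _ => by rw [commutatorElement_one_right]; exact one_mem _⟩
  mul_mem' := by
    rintro a b ⟨ha, ha'⟩ ⟨hb, hb'⟩
    refine ⟨mul_mem ha hb, fun v hv => ?_⟩
    have h1 : ⁅v, a * b⁆ = ⁅v, a⁆ * (a * ⁅v, b⁆ * a⁻¹) := by
      simp only [commutatorElement_def]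
      group
    rw [h1]
    exact mul_mem (ha' v hv) ((mem_normalizer_iff.1 (hEW ha) _).1 (hb' v hv))
  inv_mem' := by
    rintro a ⟨ha, ha'⟩
    refine ⟨inv_mem ha, fun v hv => ?_⟩
    have h1 : ⁅v, a⁻¹⁆ = a⁻¹ * ⁅v, a⁆⁻¹ * (a⁻¹)⁻¹ := by
      simp only [commutatorElement_def]
      group
    rw [h1]
    exact (mem_normalizer_iff.1 (hEW (inv_mem ha)) _).1 (inv_mem (ha' v hv))

omit [Finite G] hp in
theorem mem_cq {V E W : Subgroup G} {hW : W ≤ V} {hEV : E ≤ normalizer (V : Set G)}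
    {hEW : E ≤ normalizer (W : Set G)} {x : G} : x ∈ cq V E W hW hEV hEW ↔ x ∈ E ∧ ∀ v ∈ V, ⁅v, x⁆ ∈ W :=
  Iff.rfl

/-- case 1: `W_A` is invariant. -/
theorem case_one {E A B : Subgroup G} (h : Amb p V E) (hE : E = A ⊔ B) (hA : Pre V E A) (hB : Pre V E B)
    (hnot : ¬ ⁅V, B⁆ ≤ ⁅V, A⁆) (hBA : B ≤ normalizer ((⁅V, A⁆ : Subgroup G) : Set G)) :
    ⁅A, B⁆ = ⊥ ∧ A ⊓ B = ⊥ ∧ ⁅V, A⁆ ⊓ ⁅V, B⁆ = ⊥ := by
  have hc := h.hc
  have hWV : ⁅V, A⁆ ≤ V := Act.comm_le (hA.sn.1.trans h.hEV) le_rfl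
  have hXV : ⁅V, B⁆ ≤ V := Act.comm_le (hB.sn.1.trans h.hEV) le_rfl
  have hAA : A ≤ normalizer ((⁅V, A⁆ : Subgroup G) : Set G) :=
    Norm.le_normalizer_commutator (hA.sn.1.trans h.hEV) le_normalizer
  have hBB : B ≤ normalizer ((⁅V, B⁆ : Subgroup G) : Set G) :=
    Norm.le_normalizer_commutator (hB.sn.1.trans h.hEV) le_normalizer
  have hEW : E ≤ normalizer ((⁅V, A⁆ : Subgroup G) : Set G) := by
    rw [hE]
    exact sup_le hAA hBA
  have hinf : ⁅V, A⁆ ⊓ ⁅V, B⁆ = ⊥ := by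
    rcases hB.irr (⁅V, A⁆ ⊓ ⁅V, B⁆) inf_le_right (Norm.le_normalizer_inf hBA hBB) with h1 | h1
    · exact h1
    · exact absurd (inf_eq_right.1 h1) hnot
  have hBW : ∀ b ∈ B, ∀ w ∈ ⁅V, A⁆, ⁅w, b⁆ = 1 := by
    intro b hb w hw
    have h1 : ⁅w, b⁆ ∈ ⁅V, A⁆ ⊓ ⁅V, B⁆ := by
      refine mem_inf.2 ⟨?_, commutator_mem_commutator (hWV hw) hb⟩
      have h2 := (mem_normalizer_iff.1 (hBA hb) _).1 (inv_mem hw)
      have h3 : ⁅w, b⁆ = w * (b * w⁻¹ * b⁻¹) := by
        simp only [commutatorElement_def]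
        group
      rw [h3]
      exact mul_mem hw h2
    rw [hinf] at h1
    exact h1
  -- the kernel `D`
  set C₁ : Subgroup G := cq V E ⁅V, A⁆ hWV h.hEV hEW with hC₁
  set C₂ : Subgroup G := E ⊓ centralizer ((⁅V, A⁆ : Subgroup G) : Set G) with hC₂
  have hAC₁ : A ≤ C₁ := fun a ha => ⟨hA.sn.1 ha, fun v hv => commutator_mem_commutator hv ha⟩
  have hBC₂ : B ≤ C₂ := by
    intro b hb
    refine mem_inf.2 ⟨hB.sn.1 hb, ?_⟩
    rw [mem_centralizer_iff]
    intro w hw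
    exact commutatorElement_eq_one_iff_mul_comm.1 (hBW b hb w hw)
  have hC₁n : E ≤ normalizer (C₁ : Set G) := by
    rw [le_normalizer_iff]
    rintro e he x ⟨hx, hx'⟩
    refine ⟨mul_mem (mul_mem he hx) (inv_mem he), fun v hv => ?_⟩
    have h1 := hx' _ (Norm.conj_mem' h.hEV he hv)
    have h2 : ⁅v, e * x * e⁻¹⁆ = e * ⁅e⁻¹ * v * e, x⁆ * e⁻¹ := by
      simp only [commutatorElement_def]
      group
    rw [h2]
    exact Norm.conj_mem hEW he h1
  have hC₂n : E ≤ normalizer (C₂ : Set G) :=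
    Norm.le_normalizer_inf le_normalizer (Norm.le_normalizer_centralizer hEW)
  have hC₁V : ∀ x ∈ C₁, ∀ v ∈ V, ⁅v, x⁆ ∈ ⁅V, A⁆ := fun x hx => hx.2
  have hC₁E : C₁ ≤ E := fun x hx => hx.1
  have hD : C₁ ⊓ C₂ = ⊥ := by
    refine h.eq_bot (Sn.of_normal (inf_le_left.trans hC₁E) (Norm.le_normalizer_inf hC₁n hC₂n)) ?_
    · rw [commutator_eq_bot_iff_le_centralizer]
      refine (commutator_le.2 fun v hv x hx => hC₁V x (mem_inf.1 hx).1 v hv).trans ?_
      intro w hw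
      rw [mem_centralizer_iff]
      intro x hx
      exact (mem_centralizer_iff.1 (mem_inf.1 (mem_inf.1 hx).2).2 w hw).symm
  refine ⟨?_, ?_, hinf⟩
  · rw [← le_bot_iff, ← hD, commutator_le]
    intro a ha b hb
    refine mem_inf.2 ⟨?_, ?_⟩
    · have h1 : ⁅a, b⁆ = a * (b * a⁻¹ * b⁻¹) := by
        simp only [commutatorElement_def]
        group
      rw [h1]
      exact mul_mem (hAC₁ ha) ((mem_normalizer_iff.1 (hC₁n (hB.sn.1 hb)) _).1 (inv_mem (hAC₁ ha)))
    · rw [commutatorElement_def]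
      exact mul_mem ((mem_normalizer_iff.1 (hC₂n (hA.sn.1 ha)) _).1 (hBC₂ hb)) (inv_mem (hBC₂ hb))
  · rw [← le_bot_iff, ← hD]
    exact inf_le_inf hAC₁ hBC₂

omit [Finite G] hp in
theorem comm_decomp {w g : G} : ⁅w, g⁆ = w * (g * w⁻¹ * g⁻¹) := by
  simp only [commutatorElement_def]
  group

/-- one inequality -/
theorem card_le_of {E A B : Subgroup G} (h : Amb p V E) (hA : A ≤ E) (hB : B ≤ E)
    {g : G} (hg : g ∈ B) (hinf : ⁅V, A⁆ ⊓ cj g ⁅V, A⁆ = ⊥) : Nat.card (⁅V, A⁆ : Subgroup G) ≤ Nat.card (⁅V, B⁆ : Subgroup G) := by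
  have hc := h.hc
  have hWV : ⁅V, A⁆ ≤ V := Act.comm_le (hA.trans h.hEV) le_rfl
  refine Nat.card_le_card_of_injective
    (fun w : (⁅V, A⁆ : Subgroup G) => (⟨⁅(w : G), g⁆, commutator_mem_commutator (hWV w.2) hg⟩ : (⁅V, B⁆ : Subgroup G))) ?_
  intro w w' hww
  have h1 : ⁅(w : G), g⁆ = ⁅(w' : G), g⁆ := congrArg Subtype.val hww
  have hgV : g ∈ normalizer (V : Set G) := h.hEV (hB hg)
  have h2 : ⁅(w : G) * (w' : G)⁻¹, g⁆ = 1 := by
    rw [Act.comm_mul hc hgV (hWV w.2) (inv_mem (hWV w'.2)), Act.comm_inv hc hgV (hWV w'.2), h1, mul_inv_cancel]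
  have h3 : (w : G) * (w' : G)⁻¹ ∈ ⁅V, A⁆ ⊓ cj g ⁅V, A⁆ := by
    have h4 : (w : G) * (w' : G)⁻¹ ∈ ⁅V, A⁆ := mul_mem w.2 (inv_mem w'.2)
    refine mem_inf.2 ⟨h4, ?_⟩
    rw [mem_cj]
    have h5 := commutatorElement_eq_one_iff_mul_comm.1 h2
    rw [mul_assoc, h5, ← mul_assoc, inv_mul_cancel, one_mul]
    exact h4
  rw [hinf, mem_bot] at h3
  exact Subtype.ext (mul_inv_eq_one.1 h3)

/-- case 2: impossible. -/
theorem case_two {E A B : Subgroup G} (h : Amb p V E) (hA : Pre V E A) (hB : Pre V E B)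
    (hcard : Nat.card (⁅V, B⁆ : Subgroup G) ≤ Nat.card (⁅V, A⁆ : Subgroup G))
    (horb : ∀ g ∈ B, cj g ⁅V, A⁆ ≠ ⁅V, A⁆ → ⁅A, cj g A⁆ = ⊥ ∧ ⁅V, A⁆ ⊓ cj g ⁅V, A⁆ = ⊥)
    (hnorm : ¬ B ≤ normalizer ((⁅V, A⁆ : Subgroup G) : Set G)) : False := by
  have hc := h.hc
  have hWV : ⁅V, A⁆ ≤ V := Act.comm_le (hA.sn.1.trans h.hEV) le_rfl
  have hXV : ⁅V, B⁆ ≤ V := Act.comm_le (hB.sn.1.trans h.hEV) le_rfl
  obtain ⟨g, hg, hgW⟩ : ∃ g ∈ B, cj g ⁅V, A⁆ ≠ ⁅V, A⁆ := by
    by_contra hcon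
    push Not at hcon
    exact hnorm (le_normalizer_iff_cj.2 hcon)
  obtain ⟨-, hinf⟩ := horb g hg hgW
  have hBV : B ≤ normalizer (V : Set G) := hB.sn.1.trans h.hEV
  have hgV : g ∈ normalizer (V : Set G) := hBV hg
  -- the image of `W` under commutation with `g` is `X`
  have himg : ∀ x ∈ ⁅V, B⁆, ∃ w ∈ ⁅V, A⁆, ⁅w, g⁆ = x := by
    let f : (⁅V, A⁆ : Subgroup G) → (⁅V, B⁆ : Subgroup G) :=
      fun w => ⟨⁅(w : G), g⁆, commutator_mem_commutator (hWV w.2) hg⟩
    have hf : Function.Injective f := by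
      intro w w' hww
      have h1 : ⁅(w : G), g⁆ = ⁅(w' : G), g⁆ := congrArg Subtype.val hww
      have h2 : ⁅(w : G) * (w' : G)⁻¹, g⁆ = 1 := by
        rw [Act.comm_mul hc hgV (hWV w.2) (inv_mem (hWV w'.2)), Act.comm_inv hc hgV (hWV w'.2), h1, mul_inv_cancel]
      have h3 : (w : G) * (w' : G)⁻¹ ∈ ⁅V, A⁆ ⊓ cj g ⁅V, A⁆ := by
        have h4 : (w : G) * (w' : G)⁻¹ ∈ ⁅V, A⁆ := mul_mem w.2 (inv_mem w'.2)
        refine mem_inf.2 ⟨h4, ?_⟩
        rw [mem_cj]
        have h5 := commutatorElement_eq_one_iff_mul_comm.1 h2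
        rw [mul_assoc, h5, ← mul_assoc, inv_mul_cancel, one_mul]
        exact h4
      rw [hinf, mem_bot] at h3
      exact Subtype.ext (mul_inv_eq_one.1 h3)
    have hbij : Function.Bijective f := by
      rw [Nat.bijective_iff_injective_and_card]
      exact ⟨hf, le_antisymm (Nat.card_le_card_of_injective f hf) hcard⟩
    intro x hx
    obtain ⟨w, hw⟩ := hbij.2 ⟨x, hx⟩
    exact ⟨w, w.2, congrArg Subtype.val hw⟩
  set W : Subgroup G := ⁅V, A⁆ with hW
  set X : Subgroup G := ⁅V, B⁆ with hX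
  set K : Subgroup G := W ⊔ cj g W with hK
  have hWgV : ∀ b ∈ B, cj b W ≤ V := by
    intro b hb
    refine (cj_mono hWV).trans ?_
    rw [cj_eq_of_mem (hBV hb)]
  have hKV : K ≤ V := sup_le hWV (hWgV g hg)
  have hXK : X ≤ K := by
    intro x hx
    obtain ⟨w, hw, rfl⟩ := himg x hx
    rw [comm_decomp]
    exact mul_mem (mem_sup_left hw) (mem_sup_right (conj_mem_cj (inv_mem hw)))
  have hWX : W ⊓ X = ⊥ := by
    rw [eq_bot_iff]
    rintro x ⟨hxW, hxX⟩
    obtain ⟨w, hw, rfl⟩ := himg x hxX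
    have h1 : w⁻¹ * ⁅w, g⁆ ∈ W ⊓ cj g W := by
      refine mem_inf.2 ⟨mul_mem (inv_mem hw) hxW, ?_⟩
      rw [comm_decomp, inv_mul_cancel_left]
      exact conj_mem_cj (inv_mem hw)
    rw [hinf, mem_bot, comm_decomp, inv_mul_cancel_left] at h1
    have h2 : w⁻¹ = 1 := by
      have := congrArg (fun z => g⁻¹ * z * g) h1
      simpa [mul_assoc] using this
    rw [mem_bot, inv_eq_one.1 h2, commutatorElement_one_left]
  have hBK : B ≤ normalizer (K : Set G) := by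
    rw [le_normalizer_iff]
    intro b hb k hk
    have h2 : b * k * b⁻¹ = k * ⁅k⁻¹, b⁆ := by
      simp only [commutatorElement_def]
      group
    have h3 : ⁅k⁻¹, b⁆ ∈ K := hXK (commutator_mem_commutator (inv_mem (hKV hk)) hb)
    rw [h2]
    exact mul_mem hk h3
  have hAA : A ≤ normalizer (W : Set G) :=
    Norm.le_normalizer_commutator (hA.sn.1.trans h.hEV) le_normalizer
  -- `A` centralizes the other conjugates
  have hcen : ∀ b ∈ B, cj b W ≠ W → A ≤ centralizer (cj b W : Set G) := by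
    intro b hb hne
    obtain ⟨h1, h2⟩ := horb b hb hne
    have h3 : cj b W = ⁅V, cj b A⁆ := by
      rw [hW, cj_commutator, cj_eq_of_mem (hBV hb)]
    have h4 : A ≤ normalizer ((cj b W : Subgroup G) : Set G) := by
      rw [h3]
      refine Norm.le_normalizer_commutator (hA.sn.1.trans h.hEV) ?_
      have h5 : A ≤ centralizer (cj b A : Set G) := commutator_eq_bot_iff_le_centralizer.1 h1
      exact h5.trans (centralizer_le_normalizer _)
    intro a ha
    rw [mem_centralizer_iff]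
    intro x hx
    have h6 : ⁅x, a⁆ ∈ W ⊓ cj b W := by
      refine mem_inf.2 ⟨commutator_mem_commutator (hWgV b hb hx) ha, ?_⟩
      rw [comm_decomp]
      exact mul_mem hx (Norm.conj_mem h4 ha (inv_mem hx))
    rw [h2, mem_bot, commutatorElement_eq_one_iff_mul_comm] at h6
    exact h6
  -- `C_W(A) = 1`
  have hCW : W ⊓ centralizer (A : Set G) = ⊥ := by
    rcases hA.irr (W ⊓ centralizer (A : Set G)) inf_le_left
      (Norm.le_normalizer_inf hAA (Norm.le_normalizer_centralizer le_normalizer)) with h1 | h1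
    · exact h1
    · exfalso
      refine h.ne_of_two hA.sn hA.two ?_
      rw [commutator_eq_bot_iff_le_centralizer]
      exact inf_eq_left.1 h1
  -- `C_K(A) = W^g`
  have hCK : ∀ k ∈ K, k ∈ centralizer (A : Set G) → k ∈ cj g W := by
    intro k hk hkA
    have hWn : cj g W ≤ normalizer (W : Set G) := by
      refine ((hWgV g hg).trans (hc.trans (centralizer_le ?_))).trans (centralizer_le_normalizer _)
      exact SetLike.coe_subset_coe.2 hWV
    obtain ⟨w, hw, u, hu, rfl⟩ := (Norm.mem_sup_of_le_normalizer' hWn).1 hk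
    have huA : u ∈ centralizer (A : Set G) := (le_centralizer_iff.1 (hcen g hg hgW)) hu
    have hwA : w ∈ centralizer (A : Set G) := by
      have := mul_mem hkA (inv_mem huA)
      rwa [mul_inv_cancel_right] at this
    have h1 : w ∈ W ⊓ centralizer (A : Set G) := ⟨hw, hwA⟩
    rw [hCW, mem_bot] at h1
    rw [h1, one_mul]
    exact hu
  have horb2 : ∀ b ∈ B, cj b W ≠ W → cj b W = cj g W := by
    intro b hb hne
    refine eq_of_le_of_card_ge ?_ (by rw [card_cj, card_cj])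
    intro x hx
    refine hCK x ?_ ?_
    · obtain ⟨y, hy, rfl⟩ := hx
      exact Norm.conj_mem hBK hb (mem_sup_left hy)
    · exact (le_centralizer_iff.1 (hcen b hb hne)) hx
  -- the subgroup `M`
  have hM : B ⊓ centralizer (K : Set G) = ⊥ := by
    refine h.eq_bot (Sn.trans (Sn.of_normal inf_le_left
      (Norm.le_normalizer_inf le_normalizer (Norm.le_normalizer_centralizer hBK))) hB.sn) ?_
    rw [commutator_eq_bot_iff_le_centralizer]
    refine (commutator_mono le_rfl inf_le_left).trans (hXK.trans ?_)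
    rw [le_centralizer_iff]
    exact inf_le_right
  have hN : ∀ b ∈ B, cj b W = W → b = 1 := by
    intro b hb hbW
    have hbg : cj b (cj g W) = cj g W := by
      rw [cj_cj]
      by_cases h1 : cj (b * g) W = W
      · exfalso
        apply hgW
        have h2 := congrArg (cj b⁻¹) h1
        rw [cj_cj, inv_mul_cancel_left] at h2
        rw [h2]
        have h3 := congrArg (cj b⁻¹) hbW
        rw [cj_cj, inv_mul_cancel, cj_one] at h3
        exact h3.symm
      · exact horb2 _ (mul_mem hb hg) h1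
    have hfix : ∀ w ∈ W, ⁅w, b⁆ = 1 := by
      intro w hw
      have h1 : ⁅w, b⁆ ∈ W ⊓ X := by
        refine mem_inf.2 ⟨?_, commutator_mem_commutator (hWV hw) hb⟩
        rw [comm_decomp]
        refine mul_mem hw ?_
        rw [← hbW]
        exact conj_mem_cj (inv_mem hw)
      rw [hWX] at h1
      exact h1
    have hfix2 : ∀ w ∈ cj g W, ⁅w, b⁆ = 1 := by
      intro w hw
      have h1 : ⁅w, b⁆ ∈ cj g W ⊓ X := by
        refine mem_inf.2 ⟨?_, commutator_mem_commutator (hWgV g hg hw) hb⟩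
        rw [comm_decomp]
        refine mul_mem hw ?_
        have := conj_mem_cj (g := b) (inv_mem hw)
        rwa [hbg] at this
      have h2 : cj g W ⊓ X = ⊥ := by
        have h3 : cj g X = X := by
          apply cj_eq_of_mem
          exact (Norm.le_normalizer_commutator hBV le_normalizer) hg
        have h4 : cj g (W ⊓ X) = cj g W ⊓ cj g X := by
          rw [cj, map_inf _ _ _ (MulAut.conj g).injective]
        rw [← h3, ← h4, hWX, cj, Subgroup.map_bot]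
      rw [h2] at h1
      exact h1
    have h1 : b ∈ B ⊓ centralizer (K : Set G) := by
      refine mem_inf.2 ⟨hb, ?_⟩
      rw [hK, Norm.centralizer_sup]
      refine mem_inf.2 ⟨?_, ?_⟩
      · rw [mem_centralizer_iff]
        exact fun w hw => commutatorElement_eq_one_iff_mul_comm.1 (hfix w hw)
      · rw [mem_centralizer_iff]
        exact fun w hw => commutatorElement_eq_one_iff_mul_comm.1 (hfix2 w hw)
    rw [hM] at h1
    exact h1
  -- count
  have hB2 : Nat.card B ≤ 2 := by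
    have h1 : (B : Set G) ⊆ {1, g} := by
      intro b hb
      by_cases h2 : cj b W = W
      · left
        exact hN b hb h2
      · right
        have h3 := congrArg (cj g⁻¹) (horb2 b hb h2)
        rw [cj_cj, cj_cj, inv_mul_cancel, cj_one] at h3
        exact (inv_mul_eq_one.1 (hN _ (mul_mem (inv_mem hg) hb) h3)).symm
    have h2 := Set.ncard_le_ncard h1 (Set.toFinite _)
    have h3 : (B : Set G).ncard = Nat.card B := rfl
    rw [h3] at h2
    exact h2.trans ((Set.ncard_insert_le _ _).trans (by rw [Set.ncard_singleton]))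
  have := hB.two
  omega

theorem orbit {n : ℕ} (ih : ∀ E A B : Subgroup G, Nat.card E ≤ n → Amb p V E → E = A ⊔ B → Pre V E A →
      Pre V E B → ¬ ⁅V, A⁆ ≤ ⁅V, B⁆ → ¬ ⁅V, B⁆ ≤ ⁅V, A⁆ →
      (⁅A, B⁆ = ⊥ ∧ A ⊓ B = ⊥ ∧ ⁅V, A⁆ ⊓ ⁅V, B⁆ = ⊥)) {E A : Subgroup G} (hn : Nat.card E ≤ n + 1)
    (h : Amb p V E) (hA : Pre V E A) (hne : A ≠ E) {g : G} (hg : g ∈ E) (hgW : cj g ⁅V, A⁆ ≠ ⁅V, A⁆) :
    ⁅A, cj g A⁆ = ⊥ ∧ ⁅V, A⁆ ⊓ cj g ⁅V, A⁆ = ⊥ := by
  obtain ⟨N, hAN, hNE, hEN⟩ := hA.sn.exists_normal hne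
  have hAg : cj g A ≤ N := by
    rintro _ ⟨x, hx, rfl⟩
    exact Norm.conj_mem hEN hg (hAN hx)
  have hF : A ⊔ cj g A ≤ N := sup_le hAN hAg
  have hcard : Nat.card (A ⊔ cj g A : Subgroup G) ≤ n := by
    have h1 := card_le_of_le hF
    have h2 : Nat.card N < Nat.card E := by
      by_contra hc
      exact hNE.ne (eq_of_le_of_card_ge hNE.le (not_lt.1 hc))
    omega
  have hAg' := Pre.conj h.hEV hA hg
  have hFs : Sn (A ⊔ cj g A) E := hA.sn.sup hAg'.sn
  have hW : ⁅V, cj g A⁆ = cj g ⁅V, A⁆ := by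
    rw [cj_commutator, cj_eq_of_mem (h.hEV hg)]
  have k1 : ¬ ⁅V, A⁆ ≤ ⁅V, cj g A⁆ := by
    rw [hW]
    intro h4
    exact hgW (eq_of_le_of_card_ge h4 (by rw [card_cj])).symm
  have k2 : ¬ ⁅V, cj g A⁆ ≤ ⁅V, A⁆ := by
    rw [hW]
    intro h4
    exact hgW (eq_of_le_of_card_ge h4 (by rw [card_cj]))
  obtain ⟨h1, -, h3⟩ := ih _ A (cj g A) hcard (h.of_sn hFs) rfl (hA.of_le le_sup_left hFs.1)
    (hAg'.of_le le_sup_right hFs.1) k1 k2
  rw [hW] at h3
  exact ⟨h1, h3⟩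

theorem main : ∀ (n : ℕ) (E A B : Subgroup G), Nat.card E ≤ n → Amb p V E → E = A ⊔ B → Pre V E A →
      Pre V E B → ¬ ⁅V, A⁆ ≤ ⁅V, B⁆ → ¬ ⁅V, B⁆ ≤ ⁅V, A⁆ →
      (⁅A, B⁆ = ⊥ ∧ A ⊓ B = ⊥ ∧ ⁅V, A⁆ ⊓ ⁅V, B⁆ = ⊥) := by
  intro n
  induction n with
  | zero =>
    intro E A B hn
    exact absurd (Nat.card_pos (α := E)) (by omega)
  | succ n ih =>
    intro E A B hn h hE hA hB h12 h21
    have hAE : A ≠ E := by
      intro h1
      exact h21 (commutator_mono le_rfl (hB.sn.1.trans h1.ge))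
    have hBE : B ≠ E := by
      intro h1
      exact h12 (commutator_mono le_rfl (hA.sn.1.trans h1.ge))
    by_cases hBA : B ≤ normalizer ((⁅V, A⁆ : Subgroup G) : Set G)
    · exact case_one h hE hA hB h21 hBA
    by_cases hAB : A ≤ normalizer ((⁅V, B⁆ : Subgroup G) : Set G)
    · obtain ⟨h1, h2, h3⟩ := case_one h (hE.trans (sup_comm A B)) hB hA h12 hAB
      refine ⟨?_, ?_, ?_⟩
      · rw [commutator_comm]
        exact h1
      · rw [inf_comm]
        exact h2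
      · rw [inf_comm]
        exact h3
    exfalso
    have oA : ∀ g ∈ B, cj g ⁅V, A⁆ ≠ ⁅V, A⁆ → ⁅A, cj g A⁆ = ⊥ ∧ ⁅V, A⁆ ⊓ cj g ⁅V, A⁆ = ⊥ :=
      fun g hg hgW => orbit ih hn h hA hAE (hB.sn.1 hg) hgW
    have oB : ∀ g ∈ A, cj g ⁅V, B⁆ ≠ ⁅V, B⁆ → ⁅B, cj g B⁆ = ⊥ ∧ ⁅V, B⁆ ⊓ cj g ⁅V, B⁆ = ⊥ :=
      fun g hg hgW => orbit ih hn h hB hBE (hA.sn.1 hg) hgW
    rcases le_total (Nat.card (⁅V, B⁆ : Subgroup G)) (Nat.card (⁅V, A⁆ : Subgroup G)) with hc | hc
    · exact case_two h hA hB hc oA hBA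
    · exact case_two h hB hA hc oB hAB

omit [Finite G] hp in
theorem comm_sup_eq {E A B : Subgroup G} (hEV : E ≤ normalizer (V : Set G)) (hE : E = A ⊔ B) :
    ⁅V, E⁆ = ⁅V, A⁆ ⊔ ⁅V, B⁆ := by
  apply le_antisymm
  · have hA : A ≤ E := hE ▸ le_sup_left
    have hB : B ≤ E := hE ▸ le_sup_right
    have hAV : ⁅V, A⁆ ≤ V := Act.comm_le (hA.trans hEV) le_rfl
    have hBV : ⁅V, B⁆ ≤ V := Act.comm_le (hB.trans hEV) le_rfl
    set K := ⁅V, A⁆ ⊔ ⁅V, B⁆ with hK
    have hKV : K ≤ V := sup_le hAV hBV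
    have key : ∀ C : Subgroup G, ⁅V, C⁆ ≤ K → C ≤ normalizer (K : Set G) := by
      intro C hC
      rw [le_normalizer_iff]
      intro b hb k hk
      have h2 : b * k * b⁻¹ = k * ⁅k⁻¹, b⁆ := by
        simp only [commutatorElement_def]
        group
      rw [h2]
      exact mul_mem hk (hC (commutator_mem_commutator (inv_mem (hKV hk)) hb))
    have hEK : E ≤ normalizer (K : Set G) := by
      rw [hE]
      exact sup_le (key A le_sup_left) (key B le_sup_right)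
    have hcq : E ≤ cq V E K hKV hEV hEK := by
      conv_lhs => rw [hE]
      refine sup_le ?_ ?_
      · exact fun a ha => ⟨hA ha, fun v hv => mem_sup_left (commutator_mem_commutator hv ha)⟩
      · exact fun a ha => ⟨hB ha, fun v hv => mem_sup_right (commutator_mem_commutator hv ha)⟩
    rw [commutator_le]
    intro v hv x hx
    exact (hcq hx).2 v hv
  · rw [hE]
    exact sup_le (commutator_mono le_rfl le_sup_left) (commutator_mono le_rfl le_sup_right)

end H13.SubPair
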