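import Mathlib
import Cfsg.Prelude.Def_PLocal
import Cfsg.Agent.Lib.H13.Cores
import Cfsg.Agent.Lib.H13.Norm
import Cfsg.Agent.Lib.H13.Sn
import Cfsg.Agent.Lib.H13.PRank
import Cfsg.Agent.Lib.H26.PxQ

set_option autoImplicit false

/-!
TI maximal abelian normal subgroups `V` of `N(V)` having a conjugate inside `O₂(N(V))`.
-/

namespace H13.TI1

open Subgroup H13.Sn
open scoped commutatorElement

universe u

variable {G : Type u} [Group G]

/-- `O₂(N(V))` -/
def QQ (V : Subgroup G) : Subgroup G :=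
  (Cfsg.pCore 2 (normalizer (V : Set G))).map (normalizer (V : Set G)).subtype

/-- `C_{O₂(N(V))}(V)` -/
def PP (V : Subgroup G) : Subgroup G := QQ V ⊓ centralizer (V : Set G)

/-- hypotheses on `V` -/
structure Gd (V : Subgroup G) : Prop where
  sq : ∀ v ∈ V, v * v = 1
  cm : ∀ v ∈ V, ∀ w ∈ V, v * w = w * v
  hc : normalizer (V : Set G) ⊓ centralizer (QQ V : Set G) ≤ QQ V
  mx : ∀ A : Subgroup G, V ≤ A → A ≤ normalizer (V : Set G) → (∀ a ∈ A, ∀ b ∈ A, a * b = b * a) →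
    normalizer (V : Set G) ≤ normalizer (A : Set G) → A = V
  ti : ∀ x : G, cj x V = V ∨ cj x V ⊓ V = ⊥

variable {V : Subgroup G}

theorem QQ_le (V : Subgroup G) : QQ V ≤ normalizer (V : Set G) := map_subtype_le _

theorem isPGroup_QQ (V : Subgroup G) : IsPGroup 2 (QQ V) := Cores.isPGroup_map_subtype_pCore _

theorem le_normalizer_QQ (V : Subgroup G) : normalizer (V : Set G) ≤ normalizer (QQ V : Set G) :=
  le_normalizer.trans (Cores.normalizer_le_normalizer_map_pCore _)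

theorem le_QQ {K : Subgroup G} (hK : K ≤ normalizer (V : Set G))
    (hn : normalizer (V : Set G) ≤ normalizer (K : Set G)) (hp : IsPGroup 2 K) : K ≤ QQ V :=
  Cores.le_map_pCore hK hn hp

theorem cj_normalizer (g : G) (V : Subgroup G) :
    normalizer ((cj g V : Subgroup G) : Set G) = cj g (normalizer (V : Set G)) := by
  ext x
  rw [mem_cj]
  constructor
  · intro hx
    have h1 := cj_eq_of_mem hx
    apply mem_normalizer_of_cj
    rw [← cj_cj, ← cj_cj, h1, cj_cj, inv_mul_cancel, cj_one]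
  · intro hx
    have h1 := cj_eq_of_mem hx
    apply mem_normalizer_of_cj
    have h2 := congrArg (cj g) h1
    rw [cj_cj] at h2
    rw [cj_cj, ← h2]
    congr 1
    group

theorem cj_centralizer (g : G) (V : Subgroup G) :
    centralizer ((cj g V : Subgroup G) : Set G) = cj g (centralizer (V : Set G)) := by
  ext x
  rw [mem_cj, mem_centralizer_iff, mem_centralizer_iff]
  constructor
  · intro h v hv
    have h1 := h _ (conj_mem_cj (g := g) hv)
    calc v * (g⁻¹ * x * g) = g⁻¹ * (g * v * g⁻¹ * x) * g := by group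
      _ = g⁻¹ * x * g * v := by rw [h1]; group
  · rintro h _ ⟨v, hv, rfl⟩
    have h1 := h v hv
    change g * v * g⁻¹ * x = x * (g * v * g⁻¹)
    calc g * v * g⁻¹ * x = g * (v * (g⁻¹ * x * g)) * g⁻¹ := by group
      _ = x * (g * v * g⁻¹) := by rw [h1]; group

theorem cj_isPGroup {g : G} {K : Subgroup G} {p : ℕ} (h : IsPGroup p K) : IsPGroup p (cj g K) := h.map _

theorem cj_QQ (g : G) (V : Subgroup G) : QQ (cj g V) = cj g (QQ V) := by
  have key : ∀ (g : G) (V : Subgroup G), cj g (QQ V) ≤ QQ (cj g V) := by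
    intro g V
    refine le_QQ ?_ ?_ (cj_isPGroup (isPGroup_QQ V))
    · rw [cj_normalizer]
      exact cj_mono (QQ_le V)
    · rw [cj_normalizer, cj_normalizer]
      exact cj_mono (le_normalizer_QQ V)
  apply le_antisymm
  · have h1 := cj_mono (g := g) (key g⁻¹ (cj g V))
    rwa [cj_cj, cj_cj, mul_inv_cancel, inv_mul_cancel, cj_one, cj_one] at h1
  · exact key g V

theorem cj_inf (g : G) (A B : Subgroup G) : cj g (A ⊓ B) = cj g A ⊓ cj g B :=
  map_inf _ _ _ (MulAut.conj g).injective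

theorem cj_bot (g : G) : cj g (⊥ : Subgroup G) = ⊥ := Subgroup.map_bot _

theorem cj_PP (g : G) (V : Subgroup G) : PP (cj g V) = cj g (PP V) := by
  rw [PP, PP, cj_QQ, cj_centralizer, cj_inf]

theorem cj_le_iff {g : G} {A B : Subgroup G} : cj g A ≤ B ↔ A ≤ cj g⁻¹ B := by
  constructor
  · intro h
    have := cj_mono (g := g⁻¹) h
    rwa [cj_cj, inv_mul_cancel, cj_one] at this
  · intro h
    have := cj_mono (g := g) h
    rwa [cj_cj, mul_inv_cancel, cj_one] at this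

theorem Gd.conj (h : Gd V) (g : G) : Gd (cj g V) where
  sq := by
    rintro _ ⟨v, hv, rfl⟩
    change g * v * g⁻¹ * (g * v * g⁻¹) = 1
    calc g * v * g⁻¹ * (g * v * g⁻¹) = g * (v * v) * g⁻¹ := by group
      _ = 1 := by rw [h.sq v hv]; group
  cm := by
    rintro _ ⟨v, hv, rfl⟩ _ ⟨w, hw, rfl⟩
    rw [← map_mul, ← map_mul, h.cm v hv w hw]
  hc := by
    rw [cj_QQ, cj_normalizer, cj_centralizer, ← cj_inf]
    exact cj_mono h.hc
  mx := by
    intro A hVA hAN hAc hNA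
    have h1 : cj g⁻¹ A = V := by
      refine h.mx _ ?_ ?_ ?_ ?_
      · exact cj_le_iff.1 hVA
      · rw [cj_normalizer] at hAN
        rw [cj_le_iff, inv_inv]
        exact hAN
      · rintro _ ⟨v, hv, rfl⟩ _ ⟨w, hw, rfl⟩
        rw [← map_mul, ← map_mul, hAc v hv w hw]
      · rw [cj_normalizer, ← cj_le_iff, ← cj_normalizer]
        exact hNA
    rw [← h1, cj_cj, mul_inv_cancel, cj_one]
  ti := by
    intro x
    rcases h.ti (g⁻¹ * x * g) with h1 | h1
    · left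
      have h2 := congrArg (cj g) h1
      rw [cj_cj] at h2
      rw [cj_cj, ← h2]
      congr 1
      group
    · right
      have h2 := congrArg (cj g) h1
      rw [cj_inf, cj_cj, cj_bot] at h2
      rw [cj_cj, ← h2]
      congr 2
      group

/-- conjugates meeting nontrivially are equal -/
theorem Gd.eq_of_mem (h : Gd V) {x y a : G} (h1 : a ∈ cj x V) (h2 : a ∈ cj y V) (ha : a ≠ 1) : cj x V = cj y V := by
  rcases h.ti (y⁻¹ * x) with h3 | h3
  · have h4 := congrArg (cj y) h3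
    rwa [cj_cj, mul_inv_cancel_left] at h4
  · exfalso
    have h4 := congrArg (cj y) h3
    rw [cj_inf, cj_cj, mul_inv_cancel_left, cj_bot] at h4
    have h5 : a ∈ cj x V ⊓ cj y V := ⟨h1, h2⟩
    rw [h4] at h5
    exact ha h5

theorem Gd.isPGroup (h : Gd V) : IsPGroup 2 V := by
  intro v
  refine ⟨1, ?_⟩
  rw [pow_one, pow_two]
  exact Subtype.ext (h.sq v v.2)

theorem Gd.le_QQ (h : Gd V) : V ≤ QQ V := TI1.le_QQ le_normalizer le_rfl h.isPGroup

theorem Gd.le_centralizer (h : Gd V) : V ≤ centralizer (V : Set G) := by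
  intro v hv
  rw [mem_centralizer_iff]
  exact fun w hw => h.cm w hw v hv

theorem Gd.le_PP (h : Gd V) : V ≤ PP V := le_inf h.le_QQ h.le_centralizer

theorem PP_le_QQ (V : Subgroup G) : PP V ≤ QQ V := inf_le_left

theorem PP_le_centralizer (V : Subgroup G) : PP V ≤ centralizer (V : Set G) := inf_le_right

theorem PP_le_normalizer (V : Subgroup G) : PP V ≤ normalizer (V : Set G) := (PP_le_QQ V).trans (QQ_le V)

theorem le_normalizer_PP (V : Subgroup G) : normalizer (V : Set G) ≤ normalizer (PP V : Set G) :=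
  Norm.le_normalizer_inf (le_normalizer_QQ V) (Norm.normalizer_le_normalizer_centralizer V)

theorem isPGroup_PP (V : Subgroup G) : IsPGroup 2 (PP V) := (isPGroup_QQ V).to_le (PP_le_QQ V)

/-- TI: an element commuting with a nontrivial element of a conjugate normalizes the conjugate. -/
theorem Gd.mem_normalizer (h : Gd V) {x a c : G} (ha : a ∈ cj x V) (ha1 : a ≠ 1) (hc : c * a = a * c) :
    c ∈ normalizer ((cj x V : Subgroup G) : Set G) := by
  apply mem_normalizer_of_cj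
  rw [cj_cj]
  refine h.eq_of_mem (a := a) ?_ ha ha1
  rw [← cj_cj, mem_cj]
  have : c⁻¹ * a * c = a := by rw [mul_assoc, ← hc, inv_mul_cancel_left]
  rwa [this]

/-- Step 1: a conjugate normalizing `V` and meeting it trivially centralizes it. -/
theorem Gd.comm_of_normalizes [Finite G] (h : Gd V) {x y : G} (hne : cj x V ≠ cj y V)
    (hyx : cj y V ≤ normalizer ((cj x V : Subgroup G) : Set G)) :
    ∀ a ∈ cj x V, ∀ b ∈ cj y V, a * b = b * a := by
  set X := cj x V with hX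
  set Y := cj y V with hY
  have hinf : ∀ a, a ∈ X → a ∈ Y → a = 1 := by
    intro a h1 h2
    by_contra ha
    exact hne (h.eq_of_mem h1 h2 ha)
  have gX := h.conj x
  have gY := h.conj y
  rw [← hX] at gX
  rw [← hY] at gY
  -- centralizers
  have key : ∀ b ∈ Y, b ≠ 1 → ∀ a ∈ X, a * b = b * a → ∀ b' ∈ Y, a * b' = b' * a := by
    intro b hb hb1 a ha hab b' hb'
    have h1 : a ∈ normalizer (Y : Set G) := h.mem_normalizer hb hb1 hab
    have h2 : a * b' * a⁻¹ * b'⁻¹ ∈ Y := mul_mem ((mem_normalizer_iff.1 h1 b').1 hb') (inv_mem hb')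
    have h3 : a * b' * a⁻¹ * b'⁻¹ ∈ X := by
      have h4 : b' * a⁻¹ * b'⁻¹ ∈ X := (mem_normalizer_iff.1 (hyx hb') _).1 (inv_mem ha)
      have h5 := mul_mem ha h4
      rwa [← mul_assoc, ← mul_assoc] at h5
    have h6 := hinf _ h3 h2
    have h7 : a * b' * a⁻¹ = b' := mul_inv_eq_one.1 h6
    rw [mul_inv_eq_iff_eq_mul] at h7
    exact h7
  by_contra hcon
  push Not at hcon
  obtain ⟨a, ha, b₀, hb₀, hab⟩ := hcon
  -- the injection `Y → C_X(Y)`
  set X₀ : Subgroup G := X ⊓ centralizer (Y : Set G) with hX₀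
  have hmem : ∀ b ∈ Y, a * (b * a * b⁻¹) ∈ X₀ := by
    intro b hb
    have h1 : b * a * b⁻¹ ∈ X := (mem_normalizer_iff.1 (hyx hb) _).1 ha
    have h2 : a * (b * a * b⁻¹) ∈ X := mul_mem ha h1
    refine mem_inf.2 ⟨h2, ?_⟩
    rw [mem_centralizer_iff]
    intro b' hb'
    by_cases hb1 : b = 1
    · rw [hb1, one_mul, inv_one, mul_one, gX.sq a ha, mul_one, one_mul]
    · refine (key b hb hb1 _ h2 ?_ b' hb').symm
      have hbb : b⁻¹ = b := inv_eq_of_mul_eq_one_left (gY.sq b hb)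
      rw [hbb] at h1 ⊢
      have h3 : a * (b * a * b) = b * a * b * a := gX.cm a ha _ h1
      calc a * (b * a * b) * b = (b * a * b * a) * b := by rw [h3]
        _ = b * (a * (b * a * b)) := by group
  have hinj : Function.Injective (fun b : Y => (⟨a * (b * a * (b : G)⁻¹), hmem b b.2⟩ : X₀)) := by
    intro b b' hbb
    have h1 : a * (b * a * (b : G)⁻¹) = a * (b' * a * (b' : G)⁻¹) := congrArg Subtype.val hbb
    have h2 := mul_left_cancel h1
    by_contra hne'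
    have h3 : (b' : G)⁻¹ * b ≠ 1 := by
      intro h4
      exact hne' (Subtype.ext (inv_mul_eq_one.1 h4).symm)
    have h4 : a * ((b' : G)⁻¹ * b) = (b' : G)⁻¹ * b * a := by
      calc a * ((b' : G)⁻¹ * b) = (b' : G)⁻¹ * (b' * a * (b' : G)⁻¹) * b := by group
        _ = (b' : G)⁻¹ * (b * a * (b : G)⁻¹) * b := by rw [h2]
        _ = (b' : G)⁻¹ * b * a := by group
    exact hab (key _ (mul_mem (inv_mem b'.2) b.2) h3 a ha h4 b₀ hb₀)
  have hle := Nat.card_le_card_of_injective _ hinj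
  have hlt : Nat.card X₀ < Nat.card X := by
    by_contra hc
    have h1 : X₀ = X := eq_of_le_of_card_ge inf_le_left (not_lt.1 hc)
    have h2 : a ∈ X₀ := by rw [h1]; exact ha
    exact hab ((mem_centralizer_iff.1 (mem_inf.1 h2).2 b₀ hb₀).symm)
  have hXY : Nat.card X = Nat.card Y := by rw [hX, hY, card_cj, card_cj]
  omega

/-! ### the structure of `P` -/

theorem Gd.center_PP (h : Gd V) : PP V ⊓ centralizer (PP V : Set G) = V := by
  refine h.mx _ (le_inf h.le_PP ?_) (inf_le_left.trans (PP_le_normalizer V)) ?_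
    (Norm.le_normalizer_inf (le_normalizer_PP V) (Norm.le_normalizer_centralizer (le_normalizer_PP V)))
  · rw [Subgroup.le_centralizer_iff]
    exact PP_le_centralizer V
  · intro a ha b hb
    exact mem_centralizer_iff.1 (mem_inf.1 hb).2 a (mem_inf.1 ha).1

theorem Gd.comm_PP (_h : Gd V) {x v : G} (hx : x ∈ PP V) (hv : v ∈ V) : x * v = v * x :=
  (mem_centralizer_iff.1 (PP_le_centralizer V hx) v hv).symm

/-- the preimage of `Ω₁(Z(P/V))` -/
def DD (h : Gd V) : Subgroup G where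
  carrier := {x | x ∈ PP V ∧ x * x ∈ V ∧ ∀ y ∈ PP V, ⁅x, y⁆ ∈ V}
  one_mem' := ⟨one_mem _, by rw [one_mul]; exact one_mem _, fun y _ => by
    rw [commutatorElement_one_left]; exact one_mem _⟩
  mul_mem' := by
    rintro a b ⟨ha, ha2, ha3⟩ ⟨hb, hb2, hb3⟩
    refine ⟨mul_mem ha hb, ?_, fun y hy => ?_⟩
    · have h1 : b * a = ⁅b, a⁆ * (a * b) := by
        simp only [commutatorElement_def]
        group
      have h2 : a * b * (a * b) = ⁅b, a⁆ * (a * a) * (b * b) := by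
        calc a * b * (a * b) = a * (b * a) * b := by group
          _ = (a * ⁅b, a⁆) * a * b * b := by rw [h1]; group
          _ = ⁅b, a⁆ * (a * a) * (b * b) := by rw [h.comm_PP ha (hb3 a ha)]; group
      rw [h2]
      exact mul_mem (mul_mem (hb3 a ha) ha2) hb2
    · have h1 : ⁅a * b, y⁆ = a * ⁅b, y⁆ * a⁻¹ * ⁅a, y⁆ := by
        simp only [commutatorElement_def]
        group
      rw [h1, h.comm_PP ha (hb3 y hy), mul_inv_cancel_right]
      exact mul_mem (hb3 y hy) (ha3 y hy)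
  inv_mem' := by
    rintro a ⟨ha, ha2, ha3⟩
    refine ⟨inv_mem ha, ?_, fun y hy => ?_⟩
    · rw [← mul_inv_rev]
      exact inv_mem ha2
    · have h1 : ⁅a⁻¹, y⁆ = a⁻¹ * ⁅a, y⁆⁻¹ * a := by
        simp only [commutatorElement_def]
        group
      rw [h1, h.comm_PP (inv_mem ha) (inv_mem (ha3 y hy)), inv_mul_cancel_right]
      exact inv_mem (ha3 y hy)

theorem mem_DD {h : Gd V} {x : G} : x ∈ DD h ↔ x ∈ PP V ∧ x * x ∈ V ∧ ∀ y ∈ PP V, ⁅x, y⁆ ∈ V := Iff.rfl

theorem DD_le (h : Gd V) : DD h ≤ PP V := fun _ hx => hx.1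

theorem le_DD (h : Gd V) : V ≤ DD h := by
  intro v hv
  refine ⟨h.le_PP hv, by rw [h.sq v hv]; exact one_mem _, fun y hy => ?_⟩
  rw [commutatorElement_eq_one_iff_mul_comm.2 (h.comm_PP hy hv).symm]
  exact one_mem _

theorem le_normalizer_DD (h : Gd V) : normalizer (V : Set G) ≤ normalizer (DD h : Set G) := by
  rw [le_normalizer_iff]
  rintro m hm x ⟨hx, hx2, hx3⟩
  refine ⟨Norm.conj_mem (le_normalizer_PP V) hm hx, ?_, fun y hy => ?_⟩
  · have h1 : m * x * m⁻¹ * (m * x * m⁻¹) = m * (x * x) * m⁻¹ := by group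
    rw [h1]
    exact Norm.conj_mem le_rfl hm hx2
  · have h1 : ⁅m * x * m⁻¹, y⁆ = m * ⁅x, m⁻¹ * y * m⁆ * m⁻¹ := by
      simp only [commutatorElement_def]
      group
    rw [h1]
    exact Norm.conj_mem le_rfl hm (hx3 _ (Norm.conj_mem' (le_normalizer_PP V) hm hy))

theorem Gd.center_DD (h : Gd V) : DD h ⊓ centralizer (DD h : Set G) = V := by
  refine h.mx _ (le_inf (le_DD h) ?_) (inf_le_left.trans ((DD_le h).trans (PP_le_normalizer V))) ?_
    (Norm.le_normalizer_inf (le_normalizer_DD h) (Norm.le_normalizer_centralizer (le_normalizer_DD h)))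
  · rw [Subgroup.le_centralizer_iff]
    exact (DD_le h).trans (PP_le_centralizer V)
  · intro a ha b hb
    exact mem_centralizer_iff.1 (mem_inf.1 hb).2 a (mem_inf.1 ha).1

theorem Gd.cent_DD [Finite G] (h : Gd V) : PP V ⊓ centralizer (DD h : Set G) = V := by
  set C : Subgroup G := PP V ⊓ centralizer (DD h : Set G) with hC
  have hVC : V ≤ C := by
    refine le_inf h.le_PP ?_
    rw [Subgroup.le_centralizer_iff]
    exact (DD_le h).trans (PP_le_centralizer V)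
  by_contra hne
  have hPC : PP V ≤ normalizer (C : Set G) :=
    Norm.le_normalizer_inf le_normalizer (Norm.le_normalizer_centralizer ((PP_le_normalizer V).trans (le_normalizer_DD h)))
  have hCP : C ≤ PP V := inf_le_left
  have hPp : IsPGroup 2 (PP V) := isPGroup_PP V
  have : Fact (Nat.Prime 2) := ⟨Nat.prime_two⟩
  have n1 : (C.subgroupOf (PP V)).Normal := normal_subgroupOf_of_le_normalizer hPC
  have n2 : (V.subgroupOf (PP V)).Normal := normal_subgroupOf_of_le_normalizer (PP_le_normalizer V)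
  obtain ⟨k, hk⟩ := (hPp.to_subgroup (C.subgroupOf (PP V))).exists_card_eq
  obtain ⟨i, hi⟩ := (hPp.to_subgroup (V.subgroupOf (PP V))).exists_card_eq
  have hle : V.subgroupOf (PP V) ≤ C.subgroupOf (PP V) := fun x hx => hVC hx
  have hik : i < k := by
    have h1 : Nat.card (V.subgroupOf (PP V)) < Nat.card (C.subgroupOf (PP V)) := by
      by_contra hc
      have h2 := eq_of_le_of_card_ge hle (not_lt.1 hc)
      apply hne
      apply le_antisymm _ hVC
      intro x hx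
      have h3 : (⟨x, hCP hx⟩ : PP V) ∈ C.subgroupOf (PP V) := hx
      rw [← h2] at h3
      exact h3
    rw [hk, hi] at h1
    exact (Nat.pow_lt_pow_iff_right (by norm_num)).1 h1
  obtain ⟨M₁, hM₁n, hVM, hMC, hMc⟩ := H3.RankTwo.exists_normal_card_ge hPp (C.subgroupOf (PP V)) hk
    (V.subgroupOf (PP V)) hle hi (i + 1) (by omega) (by omega)
  have hidx : (V.subgroupOf (PP V)).relIndex M₁ = 2 := by
    have h1 := H3.PBasic.card_mul_relIndex hVM
    rw [hi, hMc, pow_succ] at h1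
    exact Nat.eq_of_mul_eq_mul_left (by positivity) h1
  have hidx' : ((V.subgroupOf (PP V)).subgroupOf M₁).index = 2 := hidx
  obtain ⟨x, hxM, hxV⟩ : ∃ x : PP V, x ∈ M₁ ∧ x ∉ V.subgroupOf (PP V) := by
    by_contra hcon
    push Not at hcon
    have h1 : M₁ ≤ V.subgroupOf (PP V) := hcon
    have h2 : (V.subgroupOf (PP V)).relIndex M₁ = 1 := relIndex_eq_one.2 h1
    omega
  have key : ∀ a b : PP V, a ∈ M₁ → b ∈ M₁ → a ∉ V.subgroupOf (PP V) → b ∉ V.subgroupOf (PP V) →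
      a * b ∈ V.subgroupOf (PP V) := by
    intro a b ha hb ha' hb'
    have h1 := mul_mem_iff_of_index_two hidx' (a := ⟨a, ha⟩) (b := ⟨b, hb⟩)
    have h2 : (⟨a, ha⟩ : M₁) ∉ (V.subgroupOf (PP V)).subgroupOf M₁ := ha'
    have h3 : (⟨b, hb⟩ : M₁) ∉ (V.subgroupOf (PP V)).subgroupOf M₁ := hb'
    have h4 : (⟨a, ha⟩ : M₁) * ⟨b, hb⟩ ∈ (V.subgroupOf (PP V)).subgroupOf M₁ :=
      h1.2 ⟨fun h => absurd h h2, fun h => absurd h h3⟩
    exact h4
  have hx2 : (x : G) * x ∈ V := key x x hxM hxM hxV hxV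
  have hx3 : ∀ y ∈ PP V, ⁅(x : G), y⁆ ∈ V := by
    intro y hy
    have h1 : (⟨y, hy⟩ : PP V) * x⁻¹ * (⟨y, hy⟩ : PP V)⁻¹ ∈ M₁ := hM₁n.conj_mem _ (inv_mem hxM) _
    have h2 : (⟨y, hy⟩ : PP V) * x⁻¹ * (⟨y, hy⟩ : PP V)⁻¹ ∉ V.subgroupOf (PP V) := by
      intro h3
      have h4 := n2.conj_mem _ h3 (⟨y, hy⟩ : PP V)⁻¹
      have h5 : (⟨y, hy⟩ : PP V)⁻¹ * ((⟨y, hy⟩ : PP V) * x⁻¹ * (⟨y, hy⟩ : PP V)⁻¹) * (⟨y, hy⟩ : PP V)⁻¹⁻¹ = x⁻¹ := by
        group
      rw [h5] at h4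
      exact hxV ((inv_mem_iff).1 h4)
    have h3 := key x _ hxM h1 hxV h2
    have h4 : ⁅(x : G), y⁆ = x * (y * (x : G)⁻¹ * y⁻¹) := by
      simp only [commutatorElement_def]
      group
    rw [h4]
    exact h3
  have hxD : (x : G) ∈ DD h := ⟨x.2, hx2, hx3⟩
  have hxC : (x : G) ∈ C := hMC hxM
  have hxZ : (x : G) ∈ DD h ⊓ centralizer (DD h : Set G) := mem_inf.2 ⟨hxD, (mem_inf.1 hxC).2⟩
  rw [h.center_DD] at hxZ
  exact hxV hxZ

theorem Gd.commutator_mem [Finite G] (h : Gd V) {x y : G} (hx : x ∈ PP V) (hy : y ∈ PP V) : ⁅x, y⁆ ∈ V := by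
  have h1 : ⁅⁅PP V, PP V⁆, DD h⁆ = ⊥ := by
    have e1 : ⁅PP V, DD h⁆ ≤ V := by
      rw [commutator_le]
      intro y hy d hd
      have h2 := inv_mem (hd.2.2 y hy)
      rwa [commutatorElement_inv] at h2
    have e2 : ⁅⁅PP V, DD h⁆, PP V⁆ = ⊥ := by
      rw [commutator_eq_bot_iff_le_centralizer]
      refine e1.trans ?_
      rw [Subgroup.le_centralizer_iff]
      exact PP_le_centralizer V
    refine commutator_commutator_eq_bot_of_rotate e2 ?_
    rw [commutator_comm (DD h) (PP V)]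
    exact e2
  have h2 : ⁅x, y⁆ ∈ PP V ⊓ centralizer (DD h : Set G) := by
    refine mem_inf.2 ⟨?_, ?_⟩
    · rw [commutatorElement_def]
      exact mul_mem (mul_mem (mul_mem hx hy) (inv_mem hx)) (inv_mem hy)
    exact (commutator_eq_bot_iff_le_centralizer.1 h1) (commutator_mem_commutator hx hy)
  rwa [h.cent_DD] at h2

section bilin

variable [Finite G]

theorem Gd.mul_left (h : Gd V) {x y z : G} (hx : x ∈ PP V) (hy : y ∈ PP V) (hz : z ∈ PP V) :
    ⁅x * y, z⁆ = ⁅x, z⁆ * ⁅y, z⁆ := by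
  have h1 : ⁅x * y, z⁆ = x * ⁅y, z⁆ * x⁻¹ * ⁅x, z⁆ := by
    simp only [commutatorElement_def]
    group
  rw [h1, h.comm_PP hx (h.commutator_mem hy hz), mul_inv_cancel_right,
    h.cm _ (h.commutator_mem hy hz) _ (h.commutator_mem hx hz)]

theorem Gd.mul_right (h : Gd V) {x y z : G} (hx : x ∈ PP V) (hy : y ∈ PP V) (hz : z ∈ PP V) :
    ⁅x, y * z⁆ = ⁅x, y⁆ * ⁅x, z⁆ := by
  have h1 : ⁅x, y * z⁆ = ⁅x, y⁆ * (y * ⁅x, z⁆ * y⁻¹) := by
    simp only [commutatorElement_def]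
    group
  rw [h1, h.comm_PP hy (h.commutator_mem hx hz), mul_inv_cancel_right]

theorem Gd.sq_mem (h : Gd V) {x : G} (hx : x ∈ PP V) : x * x ∈ V := by
  have h2 : x * x ∈ PP V ⊓ centralizer (DD h : Set G) := by
    refine mem_inf.2 ⟨mul_mem hx hx, ?_⟩
    rw [mem_centralizer_iff]
    intro d hd
    have h3 : ⁅x * x, d⁆ = 1 := by
      rw [h.mul_left hx hx hd.1, h.sq _ (h.commutator_mem hx hd.1)]
    exact (commutatorElement_eq_one_iff_mul_comm.1 h3).symm
  rwa [h.cent_DD] at h2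

end bilin

/-! ### pairs -/

/-- `X` is a conjugate of `V` inside `O₂(N(V))`, different from `V`. -/
structure Pr (V X : Subgroup G) : Prop where
  gd : Gd V
  cj : ∃ g : G, X = cj g V
  ne : X ≠ V
  le : X ≤ QQ V

theorem Pr.inf {X : Subgroup G} (h : Pr V X) : X ⊓ V = ⊥ := by
  obtain ⟨g, rfl⟩ := h.cj
  rcases h.gd.ti g with h1 | h1
  · exact absurd h1 h.ne
  · exact h1

theorem Pr.gd' {X : Subgroup G} (h : Pr V X) : Gd X := by
  obtain ⟨g, rfl⟩ := h.cj
  exact h.gd.conj g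

theorem Pr.card {X : Subgroup G} (h : Pr V X) : Nat.card X = Nat.card V := by
  obtain ⟨g, rfl⟩ := h.cj
  exact card_cj g V

theorem Pr.mem_normalizer {X : Subgroup G} (h : Pr V X) {a c : G} (ha : a ∈ X) (ha1 : a ≠ 1) (hc : c * a = a * c) :
    c ∈ normalizer (X : Set G) := by
  obtain ⟨g, rfl⟩ := h.cj
  exact h.gd.mem_normalizer ha ha1 hc

theorem Pr.conj {X : Subgroup G} (h : Pr V X) {m : G} (hm : m ∈ normalizer (V : Set G)) : Pr V (Sn.cj m X) where
  gd := h.gd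
  cj := by
    obtain ⟨g, rfl⟩ := h.cj
    exact ⟨m * g, cj_cj m g V⟩
  ne := by
    intro h1
    apply h.ne
    have h2 := congrArg (Sn.cj m⁻¹) h1
    rw [cj_cj, inv_mul_cancel, cj_one, cj_eq_of_mem (inv_mem hm)] at h2
    exact h2
  le := by
    have h1 := cj_mono (g := m) h.le
    rwa [cj_eq_of_mem (le_normalizer_QQ V hm)] at h1

theorem Pr.le_PP [Finite G] {X : Subgroup G} (h : Pr V X) : X ≤ PP V := by
  refine le_inf h.le ?_
  obtain ⟨g, rfl⟩ := h.cj
  intro a ha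
  rw [mem_centralizer_iff]
  have h1 : Sn.cj (1 : G) V = V := cj_one V
  have h2 := h.gd.comm_of_normalizes (x := 1) (y := g) (by rw [h1]; exact h.ne.symm)
    (by rw [h1]; exact h.le.trans (QQ_le V))
  rw [h1] at h2
  exact fun v hv => h2 v hv a ha

/-- an element of `P` normalizing `X` centralizes it -/
theorem Pr.comm_of_normalizes [Finite G] {X : Subgroup G} (h : Pr V X) {c : G} (hc : c ∈ PP V)
    (hn : c ∈ normalizer (X : Set G)) : ∀ a ∈ X, c * a = a * c := by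
  intro a ha
  have h1 : ⁅c, a⁆ ∈ X ⊓ V := by
    refine mem_inf.2 ⟨?_, h.gd.commutator_mem hc (h.le_PP ha)⟩
    rw [commutatorElement_def]
    exact mul_mem ((mem_normalizer_iff.1 hn a).1 ha) (inv_mem ha)
  rw [h.inf, mem_bot] at h1
  exact commutatorElement_eq_one_iff_mul_comm.1 h1

theorem Pr.comm_of_comm [Finite G] {X : Subgroup G} (h : Pr V X) {c a : G} (hc : c ∈ PP V) (ha : a ∈ X)
    (ha1 : a ≠ 1) (hca : c * a = a * c) : ∀ b ∈ X, c * b = b * c :=
  h.comm_of_normalizes hc (h.mem_normalizer ha ha1 hca)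

/-- there is a conjugate of `X` under `N(V)` not commuting with `X`. -/
theorem Pr.exists_noncomm [Finite G] {X : Subgroup G} (h : Pr V X) :
    ∃ m ∈ normalizer (V : Set G), ∃ a ∈ X, ∃ b ∈ Sn.cj m X, a * b ≠ b * a := by
  by_contra hcon
  push Not at hcon
  set N := normalizer (V : Set G) with hN
  let S : Set G := {y | y ∈ V ∨ ∃ m ∈ N, y ∈ Sn.cj m X}
  have hSP : ∀ y ∈ S, y ∈ PP V := by
    rintro y (hy | ⟨m, hm, hy⟩)
    · exact h.gd.le_PP hy
    · exact (h.conj hm).le_PP hy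
  have hSc : ∀ y ∈ S, ∀ z ∈ S, y * z = z * y := by
    rintro y (hy | ⟨m, hm, hy⟩) z (hz | ⟨m', hm', hz⟩)
    · exact h.gd.cm y hy z hz
    · exact (h.gd.comm_PP ((h.conj hm').le_PP hz) hy).symm
    · exact h.gd.comm_PP ((h.conj hm).le_PP hy) hz
    · have h1 : m⁻¹ * y * m ∈ X := mem_cj.1 hy
      have h2 : m⁻¹ * z * m ∈ Sn.cj (m⁻¹ * m') X := by
        rw [← cj_cj, mem_cj, inv_inv]
        have : m * (m⁻¹ * z * m) * m⁻¹ = z := by group
        rwa [this]
      have h3 := hcon (m⁻¹ * m') (mul_mem (inv_mem hm) hm') _ h1 _ h2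
      calc y * z = m * (m⁻¹ * y * m * (m⁻¹ * z * m)) * m⁻¹ := by group
        _ = z * y := by rw [h3]; group
  have hSn : ∀ m ∈ N, ∀ y ∈ S, m * y * m⁻¹ ∈ S := by
    rintro m hm y (hy | ⟨m', hm', hy⟩)
    · left
      exact Norm.conj_mem le_rfl hm hy
    · right
      refine ⟨m * m', mul_mem hm hm', ?_⟩
      rw [← cj_cj]
      exact conj_mem_cj hy
  set A : Subgroup G := closure S with hA
  have h1 : A ≤ centralizer S := by
    rw [hA, closure_le]
    intro y hy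
    rw [SetLike.mem_coe, mem_centralizer_iff]
    exact fun z hz => hSc z hz y hy
  have h2 : A ≤ centralizer (A : Set G) := by
    conv_lhs => rw [hA]
    rw [closure_le]
    intro y hy
    rw [SetLike.mem_coe, mem_centralizer_iff]
    intro a ha
    exact ((mem_centralizer_iff.1 (h1 ha)) y hy).symm
  have h3 : A = V := by
    refine h.gd.mx A ?_ ?_ ?_ ?_
    · intro v hv
      exact subset_closure (Or.inl hv)
    · rw [hA, closure_le]
      exact fun y hy => PP_le_normalizer V (hSP y hy)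
    · intro a ha b hb
      exact (mem_centralizer_iff.1 (h2 hb) a ha)
    · rw [le_normalizer_iff]
      intro m hm
      have h4 : A ≤ A.comap (MulAut.conj m).toMonoidHom := by
        conv_lhs => rw [hA]
        rw [closure_le]
        intro y hy
        exact subset_closure (hSn m hm y hy)
      exact fun x hx => h4 hx
  have h4 : X ≤ V := by
    rw [← h3]
    intro x hx
    exact subset_closure (Or.inr ⟨1, one_mem _, by rwa [cj_one]⟩)
  exact h.ne (eq_of_le_of_card_ge h4 h.card.ge)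

/-- noncommuting partners -/
structure Opp (V X Y : Subgroup G) : Prop where
  hX : Pr V X
  hY : Pr V Y
  nc : ∃ a ∈ X, ∃ b ∈ Y, a * b ≠ b * a

theorem Pr.exists_opp [Finite G] {X : Subgroup G} (h : Pr V X) :
    ∃ m ∈ normalizer (V : Set G), Opp V X (Sn.cj m X) := by
  obtain ⟨m, hm, hnc⟩ := h.exists_noncomm
  exact ⟨m, hm, h, h.conj hm, hnc⟩

theorem Opp.symm {X Y : Subgroup G} (h : Opp V X Y) : Opp V Y X := by
  obtain ⟨a, ha, b, hb, hab⟩ := h.nc
  exact ⟨h.hY, h.hX, b, hb, a, ha, fun h1 => hab h1.symm⟩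

theorem Opp.ne_comm [Finite G] {X Y : Subgroup G} (h : Opp V X Y) {x y : G} (hx : x ∈ X) (hx1 : x ≠ 1)
    (hy : y ∈ Y) (hy1 : y ≠ 1) : y * x ≠ x * y := by
  intro hc
  have h1 := h.hX.comm_of_comm (h.hY.le_PP hy) hx hx1 hc
  obtain ⟨a, ha, b, hb, hab⟩ := h.nc
  have h2 := h.hY.comm_of_comm (h.hX.le_PP ha) hy hy1 (h1 a ha).symm
  exact hab (h2 b hb)

theorem Opp.exists_eq [Finite G] {X Y : Subgroup G} (h : Opp V X Y) {x v : G} (hx : x ∈ X) (hx1 : x ≠ 1)
    (hv : v ∈ V) : ∃ y ∈ Y, ⁅x, y⁆ = v := by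
  have hxP := h.hX.le_PP hx
  let f : Y → V := fun y => ⟨⁅x, (y : G)⁆, h.hX.gd.commutator_mem hxP (h.hY.le_PP y.2)⟩
  have hf : Function.Injective f := by
    intro y y' hyy
    have h1 : ⁅x, (y : G)⁆ = ⁅x, (y' : G)⁆ := congrArg Subtype.val hyy
    by_contra hne
    have h2 : (y : G) * (y' : G)⁻¹ ≠ 1 := fun h3 => hne (Subtype.ext (mul_inv_eq_one.1 h3))
    have h3 : ⁅x, (y : G) * (y' : G)⁻¹⁆ = 1 := by
      have h4 := h.hX.gd.mul_right hxP (mul_mem (h.hY.le_PP y.2) (inv_mem (h.hY.le_PP y'.2))) (h.hY.le_PP y'.2)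
      rw [inv_mul_cancel_right, h1] at h4
      exact (mul_eq_right.1 h4.symm)
    exact h.ne_comm hx hx1 (mul_mem y.2 (inv_mem y'.2)) h2 (commutatorElement_eq_one_iff_mul_comm.1 h3).symm
  have hbij : Function.Bijective f := by
    rw [Nat.bijective_iff_injective_and_card]
    exact ⟨hf, h.hY.card⟩
  obtain ⟨y, hy⟩ := hbij.2 ⟨v, hv⟩
  exact ⟨y, y.2, congrArg Subtype.val hy⟩

/-! ### the spread of `W = V X` -/

theorem Pr.le_normalizer_sup [Finite G] {X : Subgroup G} (h : Pr V X) : PP V ≤ normalizer ((V ⊔ X : Subgroup G) : Set G) := by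
  rw [le_normalizer_iff]
  intro p hp w hw
  obtain ⟨v, hv, x, hx, rfl⟩ := (Norm.mem_sup_of_le_normalizer' (h.le_PP.trans (PP_le_normalizer V))).1 hw
  have h1 : p * (v * x) * p⁻¹ = v * ⁅p, x⁆ * x := by
    calc p * (v * x) * p⁻¹ = (p * v) * x * p⁻¹ := by group
      _ = v * (p * x * p⁻¹ * x⁻¹) * x := by rw [h.gd.comm_PP hp hv]; group
      _ = v * ⁅p, x⁆ * x := by rw [commutatorElement_def]
  rw [h1]
  exact mul_mem_sup (mul_mem hv (h.gd.commutator_mem hp (h.le_PP hx))) hx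

/-- decomposition of elements of `W` -/
theorem Pr.mem_sup [Finite G] {X : Subgroup G} (h : Pr V X) {w : G} :
    w ∈ V ⊔ X ↔ ∃ v ∈ V, ∃ x ∈ X, v * x = w :=
  Norm.mem_sup_of_le_normalizer' (h.le_PP.trans (PP_le_normalizer V))

theorem Pr.conj_le_sup [Finite G] {X : Subgroup G} (h : Pr V X) {p : G} (hp : p ∈ PP V) : Sn.cj p X ≤ V ⊔ X := by
  rintro _ ⟨x, hx, rfl⟩
  exact Norm.conj_mem h.le_normalizer_sup hp (mem_sup_right hx)

theorem Opp.conj_eq [Finite G] {X Y : Subgroup G} (h : Opp V X Y) {x v : G} (hx : x ∈ X) (hx1 : x ≠ 1)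
    (hv : v ∈ V) : ∃ y ∈ Y, y * x * y⁻¹ = v * x := by
  obtain ⟨y, hy, hxy⟩ := h.exists_eq hx hx1 (inv_mem hv)
  refine ⟨y, hy, ?_⟩
  have h1 : ⁅y, x⁆ = v := by
    rw [← commutatorElement_inv, hxy, inv_inv]
  rw [← h1, commutatorElement_def]
  group

/-- every nonidentity element of `W` lies in a conjugate of `V` inside `W`: either `V` or a `Y`-conjugate of `X`. -/
theorem Opp.exists_conj [Finite G] {X Y : Subgroup G} (h : Opp V X Y) {w : G} (hw : w ∈ V ⊔ X) (hwV : w ∉ V) :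
    ∃ y ∈ Y, w ∈ Sn.cj y X := by
  obtain ⟨v, hv, x, hx, rfl⟩ := h.hX.mem_sup.1 hw
  have hx1 : x ≠ 1 := by
    rintro rfl
    rw [mul_one] at hwV
    exact hwV hv
  obtain ⟨y, hy, hyx⟩ := h.conj_eq hx hx1 hv
  exact ⟨y, hy, x, hx, hyx⟩

theorem Opp.spread [Finite G] {X Y : Subgroup G} (h : Opp V X Y) {w : G} (hw : w ∈ V ⊔ X) (hw1 : w ≠ 1) :
    ∃! U : Subgroup G, (∃ x : G, U = Sn.cj x V) ∧ U ≤ V ⊔ X ∧ w ∈ U := by
  have hex : ∃ U : Subgroup G, (∃ x : G, U = Sn.cj x V) ∧ U ≤ V ⊔ X ∧ w ∈ U := by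
    by_cases hwV : w ∈ V
    · exact ⟨V, ⟨1, (cj_one V).symm⟩, le_sup_left, hwV⟩
    · obtain ⟨y, hy, hwy⟩ := h.exists_conj hw hwV
      obtain ⟨g, hg⟩ := h.hX.cj
      refine ⟨Sn.cj y X, ⟨y * g, ?_⟩, h.hX.conj_le_sup (h.hY.le_PP hy), hwy⟩
      rw [hg, cj_cj]
  obtain ⟨U, ⟨x, hU⟩, hUW, hwU⟩ := hex
  refine ⟨U, ⟨⟨x, hU⟩, hUW, hwU⟩, ?_⟩
  rintro U' ⟨⟨x', hU'⟩, -, hwU'⟩
  rw [hU', hU]
  rw [hU'] at hwU'
  rw [hU] at hwU
  exact h.hX.gd.eq_of_mem hwU' hwU hw1

/-- `P = C_P(X) Y` -/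
theorem Opp.decomp [Finite G] {X Y : Subgroup G} (h : Opp V X Y) {p : G} (hp : p ∈ PP V) :
    ∃ y ∈ Y, ∃ c ∈ PP V, (∀ a ∈ X, c * a = a * c) ∧ p = c * y := by
  obtain ⟨x, hx, hx1⟩ : ∃ x ∈ X, x ≠ 1 := by
    obtain ⟨a, ha, b, hb, hab⟩ := h.nc
    refine ⟨a, ha, ?_⟩
    rintro rfl
    rw [one_mul, mul_one] at hab
    exact hab rfl
  have hxP := h.hX.le_PP hx
  obtain ⟨y, hy, hxy⟩ := h.exists_eq hx hx1 (h.hX.gd.commutator_mem hxP hp)
  have hyP := h.hY.le_PP hy
  have hcP : p * y⁻¹ ∈ PP V := mul_mem hp (inv_mem hyP)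
  refine ⟨y, hy, p * y⁻¹, hcP, ?_, by group⟩
  refine h.hX.comm_of_comm hcP hx hx1 ?_
  have h3 : ⁅x, p * y⁻¹⁆ = 1 := by
    have h4 := h.hX.gd.mul_right hxP hcP hyP
    rw [inv_mul_cancel_right, hxy] at h4
    exact mul_eq_right.1 h4.symm
  exact (commutatorElement_eq_one_iff_mul_comm.1 h3).symm

/-- `C_P(C_P(X)) ≤ V X` -/
theorem Opp.cent_cent [Finite G] {X Y : Subgroup G} (h : Opp V X Y) {z : G} (hz : z ∈ PP V)
    (hzc : ∀ c ∈ PP V, (∀ a ∈ X, c * a = a * c) → z * c = c * z) : z ∈ V ⊔ X := by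
  -- first the case where `z` commutes with an element of `Y`
  have key : ∀ z ∈ PP V, (∀ c ∈ PP V, (∀ a ∈ X, c * a = a * c) → z * c = c * z) →
      ∀ y ∈ Y, y ≠ 1 → z * y = y * z → z ∈ V := by
    intro z hz hzc y hy hy1 hzy
    have h1 := h.hY.comm_of_comm hz hy hy1 hzy
    have h2 : z ∈ PP V ⊓ centralizer (PP V : Set G) := by
      refine mem_inf.2 ⟨hz, ?_⟩
      rw [mem_centralizer_iff]
      intro p hp
      obtain ⟨y', hy', c, hc, hca, rfl⟩ := h.decomp hp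
      rw [mul_assoc, ← h1 y' hy', ← mul_assoc, ← hzc c hc hca, mul_assoc]
    rwa [h.hX.gd.center_PP] at h2
  obtain ⟨y, hy, hy1⟩ : ∃ y ∈ Y, y ≠ 1 := by
    obtain ⟨a, ha, b, hb, hab⟩ := h.nc
    refine ⟨b, hb, ?_⟩
    rintro rfl
    rw [one_mul, mul_one] at hab
    exact hab rfl
  have hyP := h.hY.le_PP hy
  obtain ⟨x, hx, hxy⟩ := h.symm.exists_eq hy hy1 (h.hX.gd.commutator_mem hyP hz)
  have hxP := h.hX.le_PP hx
  have hcP : x⁻¹ * z ∈ PP V := mul_mem (inv_mem hxP) hz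
  have h3 : ⁅y, x⁻¹ * z⁆ = 1 := by
    have h4 := h.hX.gd.mul_right hyP hxP hcP
    rw [mul_inv_cancel_left, hxy] at h4
    exact mul_eq_left.1 h4.symm
  have h5 := key _ hcP ?_ y hy hy1 (commutatorElement_eq_one_iff_mul_comm.1 h3).symm
  · have h6 : z = x * (x⁻¹ * z) := by group
    rw [h6]
    exact mul_mem (mem_sup_right hx) (mem_sup_left h5)
  · intro c hc hca
    have h7 := hca _ (inv_mem hx)
    rw [mul_assoc, hzc c hc hca, ← mul_assoc, ← mul_assoc, h7]

end H13.TI1
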