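import Mathlib
import Cfsg.Agent.Lib.H13.TI1
import Cfsg.Agent.Lib.H13.Thompson

set_option autoImplicit false

/-!
TI maximal abelian normal subgroups: `V ≤ O₂(N(X))`.
-/

namespace H13.TI1

open Subgroup H13.Sn
open scoped commutatorElement

universe u

variable {G : Type u} [Group G] {V : Subgroup G}

/-- the kernel `C_{N(V)}(V) ∩ C(P/V)`. -/
def KK (V : Subgroup G) : Subgroup G where
  carrier := {k | k ∈ centralizer (V : Set G) ∧ ∀ p ∈ PP V, ⁅p, k⁆ ∈ V}
  one_mem' := ⟨one_mem _, fun p _ => by rw [commutatorElement_one_right]; exact one_mem _⟩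
  mul_mem' := by
    rintro a b ⟨ha, ha'⟩ ⟨hb, hb'⟩
    refine ⟨mul_mem ha hb, fun p hp => ?_⟩
    have h1 : ⁅p, a * b⁆ = ⁅p, a⁆ * (a * ⁅p, b⁆ * a⁻¹) := by
      simp only [commutatorElement_def]
      group
    have h2 : a * ⁅p, b⁆ * a⁻¹ = ⁅p, b⁆ := by
      rw [← mem_centralizer_iff.1 ha _ (hb' p hp), mul_inv_cancel_right]
    rw [h1, h2]
    exact mul_mem (ha' p hp) (hb' p hp)
  inv_mem' := by
    rintro a ⟨ha, ha'⟩
    refine ⟨inv_mem ha, fun p hp => ?_⟩
    have h1 : ⁅p, a⁻¹⁆ = a⁻¹ * ⁅p, a⁆⁻¹ * a := by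
      simp only [commutatorElement_def]
      group
    have h2 : a⁻¹ * ⁅p, a⁆⁻¹ * a = ⁅p, a⁆⁻¹ := by
      rw [← mem_centralizer_iff.1 (inv_mem ha) _ (inv_mem (ha' p hp)), inv_mul_cancel_right]
    rw [h1, h2]
    exact inv_mem (ha' p hp)

theorem mem_KK {k : G} : k ∈ KK V ↔ k ∈ centralizer (V : Set G) ∧ ∀ p ∈ PP V, ⁅p, k⁆ ∈ V := Iff.rfl

theorem Gd.KK_le [Finite G] (h : Gd V) : KK V ≤ QQ V := by
  have hKN : KK V ≤ normalizer (V : Set G) := fun k hk => centralizer_le_normalizer _ hk.1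
  refine TI1.le_QQ hKN ?_ ?_
  · rw [le_normalizer_iff]
    rintro m hm k ⟨hk, hk'⟩
    refine ⟨Norm.conj_mem (Norm.normalizer_le_normalizer_centralizer V) hm hk, fun p hp => ?_⟩
    have h1 : ⁅p, m * k * m⁻¹⁆ = m * ⁅m⁻¹ * p * m, k⁆ * m⁻¹ := by
      simp only [commutatorElement_def]
      group
    rw [h1]
    exact Norm.conj_mem le_rfl hm (hk' _ (Norm.conj_mem' (le_normalizer_PP V) hm hp))
  · -- `K` is a 2-group
    have : Fact (Nat.Prime 2) := ⟨Nat.prime_two⟩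
    have hodd : ∀ k ∈ KK V, (orderOf k).Coprime 2 → k = 1 := by
      intro k hk hk2
      have hkP : ∀ p ∈ PP V, k * p = p * k := by
        intro p hp
        have h1 : k * p * k⁻¹ * p⁻¹ = ⁅p, k⁆⁻¹ := by
          simp only [commutatorElement_def]
          group
        have h2 : k * p * k⁻¹ * p⁻¹ ∈ V := by
          rw [h1]
          exact inv_mem (hk.2 p hp)
        refine H26.PxQ.commute_of_commute_commutator h.isPGroup hk2 h2 ?_
        exact (mem_centralizer_iff.1 hk.1 _ h2).symm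
      have hzN : zpowers k ≤ normalizer (V : Set G) := by
        rw [zpowers_le]
        exact hKN hk
      have h3 : ⁅QQ V, zpowers k⁆ = ⊥ := by
        refine H26.PxQ.pxq (p := 2) (P := PP V) (isPGroup_PP V) ?_ ?_ _ (QQ V) rfl (isPGroup_QQ V)
          ((PP_le_normalizer V).trans (le_normalizer_QQ V)) (hzN.trans (le_normalizer_QQ V)) ?_
        · intro q hq
          exact Nat.Coprime.coprime_dvd_left (orderOf_dvd_of_mem_zpowers hq) hk2
        · rw [commutator_eq_bot_iff_le_centralizer, Subgroup.le_centralizer_iff, zpowers_le, mem_centralizer_iff]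
          exact fun p hp => (hkP p hp).symm
        · rw [commutator_eq_bot_iff_le_centralizer, Subgroup.le_centralizer_iff, zpowers_le, mem_centralizer_iff]
          rintro u ⟨hu, hu'⟩
          refine (hkP u (mem_inf.2 ⟨hu, ?_⟩)).symm
          exact centralizer_le (SetLike.coe_subset_coe.2 h.le_PP) hu'
      have h4 : k ∈ QQ V := by
        refine h.hc (mem_inf.2 ⟨hKN hk, ?_⟩)
        rw [commutator_eq_bot_iff_le_centralizer, Subgroup.le_centralizer_iff, zpowers_le] at h3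
        exact h3
      obtain ⟨n, hn⟩ := isPGroup_QQ V ⟨k, h4⟩
      have h5 : k ^ 2 ^ n = 1 := congrArg Subtype.val hn
      have h6 := orderOf_dvd_of_pow_eq_one h5
      have h7 : orderOf k = 1 := by
        have h8 := Nat.Coprime.pow_right n hk2
        exact Nat.Coprime.eq_one_of_dvd h8 h6
      exact orderOf_eq_one_iff.1 h7
    intro k
    -- the odd part of `k` is trivial
    obtain ⟨a, m, hm, ham⟩ : ∃ a m : ℕ, ¬ 2 ∣ m ∧ orderOf (k : G) = 2 ^ a * m :=
      Nat.exists_eq_pow_mul_and_not_dvd (orderOf_pos (k : G)).ne' 2 (by norm_num)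
    refine ⟨a, Subtype.ext ?_⟩
    have h1 : orderOf ((k : G) ^ 2 ^ a) = m := by
      rw [orderOf_pow_of_dvd (by positivity) (by rw [ham]; exact dvd_mul_right _ _), ham,
        Nat.mul_div_cancel_left _ (by positivity)]
    refine hodd _ (pow_mem k.2 _) ?_
    change (orderOf ((k : G) ^ 2 ^ a)).Coprime 2
    rw [h1]
    exact ((Nat.Prime.coprime_iff_not_dvd Nat.prime_two).2 hm).symm

section main

variable {X Y : Subgroup G}

/-- the hypotheses for the contradiction -/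
structure Bad (V X Y : Subgroup G) : Prop extends Opp V X Y where
  m : ∃ m ∈ normalizer (V : Set G), Y = Sn.cj m X
  not : ¬ V ≤ QQ X

variable [Finite G]

theorem Bad.V_le_centralizer (h : Bad V X Y) : V ≤ centralizer (X : Set G) := by
  rw [Subgroup.le_centralizer_iff]
  exact h.hX.le_PP.trans (PP_le_centralizer V)

theorem Bad.V_le_normalizer (h : Bad V X Y) : V ≤ normalizer (X : Set G) :=
  h.V_le_centralizer.trans (centralizer_le_normalizer _)

theorem Bad.step_a (h : Bad V X Y) {x v : G} (hx : x ∈ PP X) (hv : v ∈ V) (hxv : ⁅x, v⁆ ∈ X) : x * v = v * x := by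
  by_contra hne
  have hc1 : ⁅x, v⁆ ≠ 1 := fun h1 => hne (commutatorElement_eq_one_iff_mul_comm.1 h1)
  have hv1 : v ≠ 1 := by
    rintro rfl
    exact hc1 (commutatorElement_one_right x)
  have hw : x * v * x⁻¹ = v * ⁅x, v⁆ := by
    have h1 : ⁅x, v⁆ * v = v * ⁅x, v⁆ :=
      h.hX.gd.comm_PP (h.hX.le_PP hxv) hv
    rw [← h1, commutatorElement_def]
    group
  have hwW : x * v * x⁻¹ ∈ V ⊔ X := by
    rw [hw]
    exact mul_mem_sup hv hxv
  have hwV : x * v * x⁻¹ ∉ V := by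
    rw [hw]
    intro h1
    have h2 : ⁅x, v⁆ ∈ V := (mul_mem_cancel_left hv).1 h1
    have h3 : ⁅x, v⁆ ∈ X ⊓ V := ⟨hxv, h2⟩
    rw [h.hX.inf] at h3
    exact hc1 h3
  obtain ⟨y, hy, hwy⟩ := h.exists_conj hwW hwV
  obtain ⟨g, hg⟩ := h.hX.cj
  have hw1 : x * v * x⁻¹ ≠ 1 := by
    intro h1
    apply hv1
    have := congrArg (fun z => x⁻¹ * z * x) h1
    simpa [mul_assoc] using this
  have heq : Sn.cj x V = Sn.cj y X := by
    rw [hg, cj_cj]
    refine h.hX.gd.eq_of_mem (conj_mem_cj hv) ?_ hw1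
    rw [← cj_cj, ← hg]
    exact hwy
  have h1 : Sn.cj y⁻¹ X ≤ QQ X := by
    have h2 : Sn.cj x X ≤ Sn.cj x (QQ V) := cj_mono h.hX.le
    rw [cj_eq_of_mem (PP_le_normalizer X hx), ← cj_QQ, heq, cj_QQ] at h2
    rw [cj_le_iff, inv_inv]
    exact h2
  have hy1 : y ≠ 1 := by
    rintro rfl
    rw [cj_one] at heq
    have h2 : Sn.cj x X = X := cj_eq_of_mem (PP_le_normalizer X hx)
    have h3 : Sn.cj x V = Sn.cj x X := heq.trans h2.symm
    have h4 := congrArg (Sn.cj x⁻¹) h3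
    rw [cj_cj, cj_cj, inv_mul_cancel, cj_one, cj_one] at h4
    exact h.hX.ne h4.symm
  apply h.not
  intro w hw
  obtain ⟨x', hx', hxw⟩ := h.symm.exists_eq (inv_mem hy) (inv_ne_one.2 hy1) hw
  rw [← hxw, commutatorElement_def]
  refine mul_mem (h1 (conj_mem_cj hx')) (inv_mem (h.hX.gd'.le_QQ hx'))

theorem Bad.inf_PP (h : Bad V X Y) : V ⊓ PP X = ⊥ := by
  rw [eq_bot_iff]
  rintro v ⟨hv, hvP⟩
  have h1 : v ∈ PP X ⊓ centralizer (PP X : Set G) := by
    refine mem_inf.2 ⟨hvP, ?_⟩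
    rw [mem_centralizer_iff]
    intro p hp
    exact h.step_a hp hv (h.hX.gd'.commutator_mem hp hvP)
  rw [h.hX.gd'.center_PP] at h1
  rw [← h.hX.inf]
  exact ⟨h1, hv⟩

theorem Bad.conj_mem (h : Bad V X Y) {c p : G} (hc : c ∈ centralizer (X : Set G)) (hp : p ∈ PP X) :
    c * p * c⁻¹ ∈ PP X :=
  Norm.conj_mem (le_normalizer_PP X) (centralizer_le_normalizer _ hc) hp

theorem Bad.comm_all (h : Bad V X Y) {c v w : G} (hc : c ∈ PP X) (hv : v ∈ V) (hv1 : v ≠ 1) (hcv : c * v = v * c)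
    (hw : w ∈ V) : c * w = w * c := by
  have h1 : c ∈ normalizer (V : Set G) := by
    have h2 := h.hX.gd.mem_normalizer (x := 1) (a := v) (by rwa [cj_one]) hv1 hcv
    rwa [cj_one] at h2
  have h3 : ⁅c, w⁆ ∈ V ⊓ PP X := by
    refine mem_inf.2 ⟨?_, ?_⟩
    · rw [commutatorElement_def]
      exact mul_mem ((mem_normalizer_iff.1 h1 w).1 hw) (inv_mem hw)
    · have h4 : ⁅c, w⁆ = c * (w * c⁻¹ * w⁻¹) := by
        simp only [commutatorElement_def]
        group
      rw [h4]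
      exact mul_mem hc (h.conj_mem (h.V_le_centralizer hw) (inv_mem hc))
  rw [h.inf_PP] at h3
  exact commutatorElement_eq_one_iff_mul_comm.1 h3

/-- `V` does not centralize `P_X`. -/
theorem Bad.not_comm (h : Bad V X Y) : ¬ ∀ p ∈ PP X, ∀ v ∈ V, p * v = v * p := by
  intro hcon
  apply h.not
  intro v hv
  refine h.hX.gd'.KK_le ⟨h.V_le_centralizer hv, fun p hp => ?_⟩
  rw [commutatorElement_eq_one_iff_mul_comm.2 (hcon p hp v hv)]
  exact one_mem _

theorem Bad.exists_ne (h : Bad V X Y) : ∃ v ∈ V, v ≠ 1 := by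
  by_contra hcon
  push Not at hcon
  apply h.not
  intro v hv
  rw [hcon v hv]
  exact one_mem _

/-- `P ∩ P_X ≤ X` (and a bit more) -/
theorem Bad.inf_le (h : Bad V X Y) {r : G} (hr : r ∈ PP V) (hr' : r ∈ PP X) : r ∈ X := by
  have hrX : ∀ a ∈ X, r * a = a * r := fun a ha => (h.hX.gd'.comm_PP hr' ha)
  have h1 : r ∈ V ⊔ X := by
    refine h.cent_cent hr ?_
    intro c hc hca
    have h2 : ⁅r, c⁆ ∈ V ⊓ PP X := by
      refine mem_inf.2 ⟨h.hX.gd.commutator_mem hr hc, ?_⟩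
      have h4 : ⁅r, c⁆ = r * (c * r⁻¹ * c⁻¹) := by
        simp only [commutatorElement_def]
        group
      rw [h4]
      refine mul_mem hr' (h.conj_mem ?_ (inv_mem hr'))
      rw [mem_centralizer_iff]
      exact fun a ha => (hca a ha).symm
    rw [h.inf_PP] at h2
    exact commutatorElement_eq_one_iff_mul_comm.1 h2
  obtain ⟨v, hv, x, hx, rfl⟩ := h.hX.mem_sup.1 h1
  have h2 : v ∈ V ⊓ PP X := ⟨hv, (mul_mem_cancel_right (h.hX.gd'.le_PP hx)).1 hr'⟩
  rw [h.inf_PP, mem_bot] at h2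
  rw [h2, one_mul]
  exact hx

theorem Bad.delta (h : Bad V X Y) {p v w : G} (hp : p ∈ PP X) (hv : v ∈ V) (hw : w ∈ V) :
    ⁅p, v⁆ ∈ PP X ∧ ⁅p, v⁆ * w = w * ⁅p, v⁆ := by
  have hmem : ⁅p, v⁆ ∈ PP X := by
    have h4 : ⁅p, v⁆ = p * (v * p⁻¹ * v⁻¹) := by
      simp only [commutatorElement_def]
      group
    rw [h4]
    exact mul_mem hp (h.conj_mem (h.V_le_centralizer hv) (inv_mem hp))
  refine ⟨hmem, ?_⟩
  by_cases hv1 : v = 1
  · rw [hv1, commutatorElement_one_right, one_mul, mul_one]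
  refine h.comm_all hmem hv hv1 ?_ hw
  refine h.step_a hmem hv ?_
  have hvv : v⁻¹ = v := inv_eq_of_mul_eq_one_left (h.hX.gd.sq v hv)
  have h5 : ⁅⁅p, v⁆, v⁆ = ⁅p, v⁆ * ⁅p, v⁆ := by
    have h6 : v * ⁅p, v⁆⁻¹ * v⁻¹ = ⁅p, v⁆ := by
      rw [commutatorElement_inv, commutatorElement_def, commutatorElement_def]
      calc v * (v * p * v⁻¹ * p⁻¹) * v⁻¹ = (v * v) * p * v⁻¹ * p⁻¹ * v⁻¹ := by group
        _ = p * v * p⁻¹ * v⁻¹ := by rw [h.hX.gd.sq v hv, one_mul, hvv]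
    calc ⁅⁅p, v⁆, v⁆ = ⁅p, v⁆ * (v * ⁅p, v⁆⁻¹ * v⁻¹) := by
          rw [commutatorElement_def]
          group
      _ = _ := by rw [h6]
  rw [h5]
  exact h.hX.gd'.sq_mem hmem

/-- `C_{P_X}(F) ≤ F` where `F = C_{P_X}(V)`. -/
theorem Bad.cent_F (h : Bad V X Y) {x : G} (hx : x ∈ PP X)
    (hxF : ∀ f ∈ PP X, (∀ v ∈ V, f * v = v * f) → x * f = f * x) : ∀ v ∈ V, x * v = v * x := by
  obtain ⟨v, hv, hv1⟩ := h.exists_ne
  intro w hw
  refine h.comm_all hx hv hv1 ?_ hw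
  refine h.step_a hx hv ?_
  -- `a = ⁅x, v⁆⁻¹`
  have hgX := h.hX.gd'
  obtain ⟨hδx, -⟩ := h.delta hx hv hv
  have key : ∀ q ∈ PP X, ⁅⁅x, v⁆⁻¹, q⁆ = 1 := by
    intro q hq
    set p := v⁻¹ * q * v with hp
    have hpP : p ∈ PP X := by
      have := h.conj_mem (h.V_le_centralizer (inv_mem hv)) hq
      rwa [inv_inv] at this
    obtain ⟨hδp, -⟩ := h.delta hpP hv hv
    have e1 : v * x * v⁻¹ = ⁅x, v⁆⁻¹ * x := by
      rw [commutatorElement_inv, commutatorElement_def]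
      group
    have e2 : v * p * v⁻¹ = ⁅p, v⁆⁻¹ * p := by
      rw [commutatorElement_inv, commutatorElement_def]
      group
    have e3 : v * p * v⁻¹ = q := by
      rw [hp]
      group
    have hxp : ⁅x, p⁆ ∈ X := hgX.commutator_mem hx hpP
    have e4 : ⁅v * x * v⁻¹, v * p * v⁻¹⁆ = ⁅x, p⁆ := by
      have h1 : ⁅v * x * v⁻¹, v * p * v⁻¹⁆ = v * ⁅x, p⁆ * v⁻¹ := by
        simp only [commutatorElement_def]
        group
      rw [h1, ← mem_centralizer_iff.1 (h.V_le_centralizer hv) _ hxp, mul_inv_cancel_right]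
    have ha : ⁅x, v⁆⁻¹ ∈ PP X := inv_mem hδx
    have hb : ⁅p, v⁆⁻¹ ∈ PP X := inv_mem hδp
    have e5 : ⁅⁅x, v⁆⁻¹ * x, ⁅p, v⁆⁻¹ * p⁆ = ⁅x, p⁆ := by rw [← e1, ← e2, e4]
    have e6 : ⁅x, ⁅p, v⁆⁻¹ * p⁆ = ⁅x, p⁆ := by
      rw [hgX.mul_right hx hb hpP]
      have h2 : ⁅x, ⁅p, v⁆⁻¹⁆ = 1 := by
        rw [commutatorElement_eq_one_iff_mul_comm]
        refine hxF _ hb ?_
        intro u hu
        have h3 := (h.delta hpP hv hu).2
        have h4 : Commute ⁅p, v⁆ u := h3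
        exact h4.inv_left.eq
      rw [h2, one_mul]
    rw [hgX.mul_left ha hx (mul_mem hb hpP), e6] at e5
    have e7 := mul_eq_right.1 e5
    rw [← e2, e3] at e7
    exact e7
  have h7 : ⁅x, v⁆⁻¹ ∈ PP X ⊓ centralizer (PP X : Set G) := by
    refine mem_inf.2 ⟨inv_mem hδx, ?_⟩
    rw [mem_centralizer_iff]
    intro q hq
    exact (commutatorElement_eq_one_iff_mul_comm.1 (key q hq)).symm
  rw [hgX.center_PP] at h7
  exact (inv_mem_iff).1 h7

/-- `c ∈ C_P(X)` acts on `P_X` as `p ↦ p u` with `u ∈ F`. -/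
theorem Bad.act (h : Bad V X Y) {c p : G} (hc : c ∈ PP V) (hcX : ∀ a ∈ X, c * a = a * c) (hp : p ∈ PP X) :
    p⁻¹ * (c * p * c⁻¹) ∈ PP X ∧ ∀ v ∈ V, p⁻¹ * (c * p * c⁻¹) * v = v * (p⁻¹ * (c * p * c⁻¹)) := by
  have hgX := h.hX.gd'
  have hcX' : c ∈ centralizer (X : Set G) := by
    rw [mem_centralizer_iff]
    exact fun a ha => (hcX a ha).symm
  have hcp : c * p * c⁻¹ ∈ PP X := h.conj_mem hcX' hp
  have hmem : p⁻¹ * (c * p * c⁻¹) ∈ PP X := mul_mem (inv_mem hp) hcp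
  refine ⟨hmem, h.cent_F hmem ?_⟩
  intro f hf hfV
  -- `⁅c, f⁆ ∈ X`
  have hcf : c * f * c⁻¹ ∈ PP X := h.conj_mem hcX' hf
  have h1 : ⁅c, f⁆ ∈ X := by
    refine h.inf_le ?_ ?_
    · have h2 : ⁅c, f⁆ = c * (f * c⁻¹ * f⁻¹) := by
        simp only [commutatorElement_def]
        group
      rw [h2]
      refine mul_mem hc (Norm.conj_mem (le_normalizer_PP V) (centralizer_le_normalizer _ ?_) (inv_mem hc))
      rw [mem_centralizer_iff]
      exact fun v hv => (hfV v hv).symm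
    · rw [commutatorElement_def]
      exact mul_mem hcf (inv_mem hf)
  have h2 : c * f * c⁻¹ = ⁅c, f⁆ * f := by
    rw [commutatorElement_def]
    group
  have hpf : ⁅p, f⁆ ∈ X := hgX.commutator_mem hp hf
  have h3 : ⁅c * p * c⁻¹, c * f * c⁻¹⁆ = ⁅p, f⁆ := by
    have h4 : ⁅c * p * c⁻¹, c * f * c⁻¹⁆ = c * ⁅p, f⁆ * c⁻¹ := by
      simp only [commutatorElement_def]
      group
    rw [h4, hcX _ hpf, mul_inv_cancel_right]
  have h4 : ⁅c * p * c⁻¹, f⁆ = ⁅p, f⁆ := by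
    rw [h2, hgX.mul_right hcp (hgX.le_PP h1) hf] at h3
    have h5 : ⁅c * p * c⁻¹, ⁅c, f⁆⁆ = 1 :=
      commutatorElement_eq_one_iff_mul_comm.2 (hgX.comm_PP hcp h1)
    rwa [h5, one_mul] at h3
  have h5 : ⁅p⁻¹ * (c * p * c⁻¹), f⁆ = 1 := by
    have h6 := hgX.mul_left hp hmem hf
    rw [mul_inv_cancel_left, h4] at h6
    exact mul_eq_left.1 h6.symm
  exact commutatorElement_eq_one_iff_mul_comm.1 h5

/-- `C_P(X)` is abelian. -/
theorem Bad.comm_cent (h : Bad V X Y) {a b : G} (ha : a ∈ PP V) (haX : ∀ x ∈ X, a * x = x * a)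
    (hb : b ∈ PP V) (hbX : ∀ x ∈ X, b * x = x * b) : a * b = b * a := by
  have hgX := h.hX.gd'
  by_contra hne
  set v := ⁅a, b⁆ with hv
  have hvV : v ∈ V := h.hX.gd.commutator_mem ha hb
  have hv1 : v ≠ 1 := fun h1 => hne (commutatorElement_eq_one_iff_mul_comm.1 h1)
  apply h.not_comm
  have haX' : a ∈ centralizer (X : Set G) := by
    rw [mem_centralizer_iff]
    exact fun x hx => (haX x hx).symm
  have hbX' : b ∈ centralizer (X : Set G) := by
    rw [mem_centralizer_iff]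
    exact fun x hx => (hbX x hx).symm
  intro p hp w hw
  refine h.comm_all hp hvV hv1 (h.step_a hp hvV ?_) hw
  set q := (b * a)⁻¹ * p * (b * a) with hq
  have hqP : q ∈ PP X := by
    have := h.conj_mem (inv_mem (mul_mem hbX' haX')) hp
    rwa [inv_inv] at this
  obtain ⟨ua, ua'⟩ := h.act ha haX hqP
  obtain ⟨ub, ub'⟩ := h.act hb hbX hqP
  set u := q⁻¹ * (a * q * a⁻¹) with hu
  set s := q⁻¹ * (b * q * b⁻¹) with hs
  have e1 : a * q * a⁻¹ = q * u := by rw [hu]; group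
  have e2 : b * q * b⁻¹ = q * s := by rw [hs]; group
  obtain ⟨z, hz, hz'⟩ : ∃ z ∈ X, a * s * a⁻¹ = s * z := by
    refine ⟨s⁻¹ * (a * s * a⁻¹), ?_, by group⟩
    refine h.inf_le ?_ (h.act ha haX ub).1
    have h1 : s⁻¹ * (a * s * a⁻¹) = (s⁻¹ * a * s) * a⁻¹ := by group
    rw [h1]
    refine mul_mem ?_ (inv_mem ha)
    refine Norm.conj_mem' (le_normalizer_PP V) (centralizer_le_normalizer _ ?_) ha
    rw [mem_centralizer_iff]
    exact fun v hv => (ub' v hv).symm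
  obtain ⟨z', hz1, hz1'⟩ : ∃ z ∈ X, b * u * b⁻¹ = u * z := by
    refine ⟨u⁻¹ * (b * u * b⁻¹), ?_, by group⟩
    refine h.inf_le ?_ (h.act hb hbX ua).1
    have h1 : u⁻¹ * (b * u * b⁻¹) = (u⁻¹ * b * u) * b⁻¹ := by group
    rw [h1]
    refine mul_mem ?_ (inv_mem hb)
    refine Norm.conj_mem' (le_normalizer_PP V) (centralizer_le_normalizer _ ?_) hb
    rw [mem_centralizer_iff]
    exact fun v hv => (ua' v hv).symm
  have f1 : (a * b) * q * (a * b)⁻¹ = q * u * (s * z) := by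
    calc (a * b) * q * (a * b)⁻¹ = a * (b * q * b⁻¹) * a⁻¹ := by group
      _ = (a * q * a⁻¹) * (a * s * a⁻¹) := by rw [e2]; group
      _ = q * u * (s * z) := by rw [e1, hz']
  have f2 : (b * a) * q * (b * a)⁻¹ = q * s * (u * z') := by
    calc (b * a) * q * (b * a)⁻¹ = b * (a * q * a⁻¹) * b⁻¹ := by group
      _ = (b * q * b⁻¹) * (b * u * b⁻¹) := by rw [e1]; group
      _ = q * s * (u * z') := by rw [e2, hz1']
  have f3 : (b * a) * q * (b * a)⁻¹ = p := by rw [hq]; group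
  have f4 : (a * b) * q * (a * b)⁻¹ = v * p * v⁻¹ := by
    rw [hq, hv, commutatorElement_def]
    group
  -- `⁅v, p⁆ ∈ X`
  have hζ : z * z'⁻¹ ∈ X := mul_mem hz (inv_mem hz1)
  have hus : ⁅u, s⁆ ∈ X := hgX.commutator_mem ua ub
  have f5 : ⁅v, p⁆ = z * z'⁻¹ * ⁅u, s⁆ := by
    have g1 : ⁅v, p⁆ = (v * p * v⁻¹) * p⁻¹ := by rw [commutatorElement_def]
    rw [g1, ← f4, f1]
    conv_lhs => rw [← f3, f2]
    calc q * u * (s * z) * (q * s * (u * z'))⁻¹
        = q * u * s * (z * z'⁻¹) * (u⁻¹ * s⁻¹ * q⁻¹) := by group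
      _ = (z * z'⁻¹) * (q * u * s) * (u⁻¹ * s⁻¹ * q⁻¹) := by
          rw [hgX.comm_PP (mul_mem (mul_mem hqP ua) ub) hζ]
      _ = (z * z'⁻¹) * (q * ⁅u, s⁆ * q⁻¹) := by
          rw [commutatorElement_def]
          group
      _ = z * z'⁻¹ * ⁅u, s⁆ := by
          rw [hgX.comm_PP hqP hus, mul_inv_cancel_right]
  have f6 : ⁅p, v⁆ = ⁅v, p⁆⁻¹ := by rw [commutatorElement_inv]
  rw [f6, f5]
  exact inv_mem (mul_mem hζ hus)

/-- `C_P(X) = V X`. -/
theorem Bad.mem_sup (h : Bad V X Y) {a : G} (ha : a ∈ PP V) (haX : ∀ x ∈ X, a * x = x * a) : a ∈ V ⊔ X :=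
  h.cent_cent ha fun _ hc hcX => h.comm_cent ha haX hc hcX

end main

/-! ### the pair of maximal elementary abelian subgroups -/

/-- `P` has exactly two maximal elementary abelian subgroups `A` and `B`. -/
structure Two (V A B : Subgroup G) : Prop where
  sqA : ∀ a ∈ A, a * a = 1
  sqB : ∀ a ∈ B, a * a = 1
  leA : A ≤ PP V
  leB : B ≤ PP V
  VA : V ≤ A
  VB : V ≤ B
  cA : ∀ w ∈ A, w ∉ V → ∀ p ∈ PP V, p * w = w * p → p ∈ A
  cB : ∀ w ∈ B, w ∉ V → ∀ p ∈ PP V, p * w = w * p → p ∈ B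
  cover : ∀ t ∈ PP V, t * t = 1 → t ∈ A ∨ t ∈ B
  dec : ∀ p ∈ PP V, ∃ a ∈ A, ∃ b ∈ B, p = a * b
  inf : A ⊓ B ≤ V
  neA : ∃ a ∈ A, a ∉ V
  neB : ∃ a ∈ B, a ∉ V
  card : Nat.card A = Nat.card B
  cardA : Nat.card A = Nat.card V * Nat.card V

theorem Two.symm {V A B : Subgroup G} (h : Two V A B) : Two V B A where
  sqA := h.sqB
  sqB := h.sqA
  leA := h.leB
  leB := h.leA
  VA := h.VB
  VB := h.VA
  cA := h.cB
  cB := h.cA
  cover := fun t ht h2 => (h.cover t ht h2).symm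
  dec := by
    intro p hp
    obtain ⟨a, ha, b, hb, hab⟩ := h.dec p⁻¹ (inv_mem hp)
    refine ⟨b⁻¹, inv_mem hb, a⁻¹, inv_mem ha, ?_⟩
    rw [← mul_inv_rev, ← hab, inv_inv]
  inf := by
    rw [inf_comm]
    exact h.inf
  neA := h.neB
  neB := h.neA
  card := h.card.symm
  cardA := h.card.symm.trans h.cardA

theorem Two.conj {V A B : Subgroup G} (h : Two V A B) (g : G) : Two (cj g V) (cj g A) (cj g B) where
  sqA := by
    rintro _ ⟨a, ha, rfl⟩
    rw [← map_mul, h.sqA a ha, map_one]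
  sqB := by
    rintro _ ⟨a, ha, rfl⟩
    rw [← map_mul, h.sqB a ha, map_one]
  leA := by
    rw [cj_PP]
    exact cj_mono h.leA
  leB := by
    rw [cj_PP]
    exact cj_mono h.leB
  VA := cj_mono h.VA
  VB := cj_mono h.VB
  cA := by
    rintro _ ⟨w, hw, rfl⟩ hwV p hp hpw
    rw [cj_PP, mem_cj] at hp
    rw [mem_cj]
    refine h.cA w hw (fun h1 => hwV ⟨w, h1, rfl⟩) _ hp ?_
    change p * (g * w * g⁻¹) = g * w * g⁻¹ * p at hpw
    calc g⁻¹ * p * g * w = g⁻¹ * (p * (g * w * g⁻¹)) * g := by group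
      _ = w * (g⁻¹ * p * g) := by rw [hpw]; group
  cB := by
    rintro _ ⟨w, hw, rfl⟩ hwV p hp hpw
    rw [cj_PP, mem_cj] at hp
    rw [mem_cj]
    refine h.cB w hw (fun h1 => hwV ⟨w, h1, rfl⟩) _ hp ?_
    change p * (g * w * g⁻¹) = g * w * g⁻¹ * p at hpw
    calc g⁻¹ * p * g * w = g⁻¹ * (p * (g * w * g⁻¹)) * g := by group
      _ = w * (g⁻¹ * p * g) := by rw [hpw]; group
  cover := by
    intro t ht ht2
    rw [cj_PP, mem_cj] at ht
    have h1 : g⁻¹ * t * g * (g⁻¹ * t * g) = 1 := by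
      calc g⁻¹ * t * g * (g⁻¹ * t * g) = g⁻¹ * (t * t) * g := by group
        _ = 1 := by rw [ht2]; group
    rw [mem_cj, mem_cj]
    exact h.cover _ ht h1
  dec := by
    intro p hp
    rw [cj_PP, mem_cj] at hp
    obtain ⟨a, ha, b, hb, hab⟩ := h.dec _ hp
    refine ⟨_, conj_mem_cj ha, _, conj_mem_cj hb, ?_⟩
    calc p = g * (g⁻¹ * p * g) * g⁻¹ := by group
      _ = g * a * g⁻¹ * (g * b * g⁻¹) := by rw [hab]; group
  inf := by
    rw [← cj_inf]
    exact cj_mono h.inf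
  neA := by
    obtain ⟨a, ha, ha'⟩ := h.neA
    refine ⟨_, conj_mem_cj ha, ?_⟩
    rw [mem_cj]
    have : g⁻¹ * (g * a * g⁻¹) * g = a := by group
    rwa [this]
  neB := by
    obtain ⟨a, ha, ha'⟩ := h.neB
    refine ⟨_, conj_mem_cj ha, ?_⟩
    rw [mem_cj]
    have : g⁻¹ * (g * a * g⁻¹) * g = a := by group
    rwa [this]
  card := by rw [card_cj, card_cj, h.card]
  cardA := by rw [card_cj, card_cj, h.cardA]

/-- automorphisms preserve the pair -/
theorem Two.swap [Finite G] {V A B : Subgroup G} (h : Two V A B) {k : G} (hk : k ∈ normalizer (PP V : Set G)) :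
    (cj k A = A ∧ cj k B = B) ∨ (cj k A = B ∧ cj k B = A) := by
  have key : ∀ C : Subgroup G, C ≤ PP V → (∀ a ∈ C, a * a = 1) → C ≤ A ∨ C ≤ B := by
    intro C hC hC2
    rw [← SubgroupClass.subset_union]
    intro c hc
    exact h.cover c (hC hc) (hC2 c hc)
  have k1 : ∀ C : Subgroup G, C ≤ PP V → (∀ a ∈ C, a * a = 1) → cj k C ≤ A ∨ cj k C ≤ B := by
    intro C hC hC2
    refine key _ ?_ ?_
    · have h1 := cj_mono (g := k) hC
      rwa [cj_eq_of_mem hk] at h1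
    · rintro _ ⟨a, ha, rfl⟩
      rw [← map_mul, hC2 a ha, map_one]
  have hAB : A ≠ B := by
    intro h1
    obtain ⟨a, ha, ha'⟩ := h.neA
    exact ha' (h.inf ⟨ha, h1 ▸ ha⟩)
  have e1 : cj k A = A ∨ cj k A = B := by
    rcases k1 A h.leA h.sqA with h1 | h1
    · left
      exact eq_of_le_of_card_ge h1 (by rw [card_cj])
    · right
      exact eq_of_le_of_card_ge h1 (by rw [card_cj, h.card])
  have e2 : cj k B = A ∨ cj k B = B := by
    rcases k1 B h.leB h.sqB with h1 | h1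
    · left
      exact eq_of_le_of_card_ge h1 (by rw [card_cj, h.card])
    · right
      exact eq_of_le_of_card_ge h1 (by rw [card_cj])
  have inj : ∀ C D : Subgroup G, cj k C = cj k D → C = D := by
    intro C D hCD
    have := congrArg (cj k⁻¹) hCD
    rwa [cj_cj, cj_cj, inv_mul_cancel, cj_one, cj_one] at this
  rcases e1 with h1 | h1
  · rcases e2 with h2 | h2
    · exact absurd (inj _ _ (h1.trans h2.symm)) hAB
    · exact Or.inl ⟨h1, h2⟩
  · rcases e2 with h2 | h2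
    · exact Or.inr ⟨h1, h2⟩
    · exact absurd (inj _ _ (h1.trans h2.symm)) hAB

section main2

variable {X Y : Subgroup G} [Finite G]

/-- `C_P(w) = V X` for `w ∈ V X` outside `V`. -/
theorem Bad.cent_w (h : Bad V X Y) {w p : G} (hw : w ∈ V ⊔ X) (hwV : w ∉ V) (hp : p ∈ PP V) (hpw : p * w = w * p) :
    p ∈ V ⊔ X := by
  obtain ⟨y, hy, hwy⟩ := h.exists_conj hw hwV
  have hyP := h.hY.le_PP hy
  rw [mem_cj] at hwy
  have hp' : y⁻¹ * p * y ∈ PP V := mul_mem (mul_mem (inv_mem hyP) hp) hyP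
  have h1 : y⁻¹ * w * y ≠ 1 := by
    intro h2
    apply hwV
    have h3 : w = 1 := by
      have := congrArg (fun z => y * z * y⁻¹) h2
      simpa [mul_assoc] using this
    rw [h3]
    exact one_mem _
  have h2 : y⁻¹ * p * y * (y⁻¹ * w * y) = y⁻¹ * w * y * (y⁻¹ * p * y) := by
    calc y⁻¹ * p * y * (y⁻¹ * w * y) = y⁻¹ * (p * w) * y := by group
      _ = _ := by rw [hpw]; group
  have h3 := h.hX.comm_of_comm hp' hwy h1 h2
  have h4 := h.mem_sup hp' h3
  have h5 := Norm.conj_mem h.hX.le_normalizer_sup hyP h4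
  have h6 : y * (y⁻¹ * p * y) * y⁻¹ = p := by group
  rwa [h6] at h5

theorem Bad.two (h : Bad V X Y) : Two V (V ⊔ X) (V ⊔ Y) := by
  have hgV := h.hX.gd
  obtain ⟨m, hm, hYm⟩ := h.m
  have hmV : cj m V = V := cj_eq_of_mem hm
  have hVY : V ⊔ Y = cj m (V ⊔ X) := by
    rw [cj, Subgroup.map_sup, ← cj, ← cj, hmV, hYm]
  have leA : V ⊔ X ≤ PP V := sup_le hgV.le_PP h.hX.le_PP
  have leB : V ⊔ Y ≤ PP V := sup_le hgV.le_PP h.hY.le_PP
  have sqA : ∀ a ∈ V ⊔ X, a * a = 1 := by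
    intro a ha
    obtain ⟨v, hv, x, hx, rfl⟩ := h.hX.mem_sup.1 ha
    calc v * x * (v * x) = v * (x * v) * x := by group
      _ = (v * v) * (x * x) := by rw [hgV.comm_PP (h.hX.le_PP hx) hv]; group
      _ = 1 := by rw [hgV.sq v hv, h.hX.gd'.sq x hx, one_mul]
  have cmA : ∀ a ∈ V ⊔ X, ∀ b ∈ V ⊔ X, a * b = b * a := by
    intro a ha b hb
    have h1 := sqA _ (mul_mem ha hb)
    have h2 := sqA a ha
    have h3 := sqA b hb
    have ea : a⁻¹ = a := inv_eq_of_mul_eq_one_left h2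
    have eb : b⁻¹ = b := inv_eq_of_mul_eq_one_left h3
    calc a * b = (a * b)⁻¹ := (inv_eq_of_mul_eq_one_left h1).symm
      _ = b * a := by rw [mul_inv_rev, ea, eb]
  have sqB : ∀ a ∈ V ⊔ Y, a * a = 1 := by
    intro a ha
    rw [hVY, mem_cj] at ha
    have h1 := sqA _ ha
    have h2 : m⁻¹ * (a * a) * m = 1 := by
      rw [← h1]
      group
    have := congrArg (fun z => m * z * m⁻¹) h2
    simpa [mul_assoc] using this
  have cA : ∀ w ∈ V ⊔ X, w ∉ V → ∀ p ∈ PP V, p * w = w * p → p ∈ V ⊔ X :=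
    fun w hw hwV p hp hpw => h.cent_w hw hwV hp hpw
  have cB : ∀ w ∈ V ⊔ Y, w ∉ V → ∀ p ∈ PP V, p * w = w * p → p ∈ V ⊔ Y := by
    intro w hw hwV p hp hpw
    rw [hVY, mem_cj] at hw ⊢
    refine h.cent_w hw ?_ ?_ ?_
    · intro h1
      apply hwV
      have h2 := Norm.conj_mem le_rfl hm h1
      have h3 : m * (m⁻¹ * w * m) * m⁻¹ = w := by group
      rwa [h3] at h2
    · exact Norm.conj_mem' (le_normalizer_PP V) hm hp
    · calc m⁻¹ * p * m * (m⁻¹ * w * m) = m⁻¹ * (p * w) * m := by group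
        _ = _ := by rw [hpw]; group
  have inf : (V ⊔ X) ⊓ (V ⊔ Y) ≤ V := by
    rintro w ⟨hwA, hwB⟩
    by_contra hwV
    obtain ⟨a, ha, b, hb, hab⟩ := h.nc
    have h1 : b ∈ V ⊔ X := by
      refine cA w hwA hwV b (h.hY.le_PP hb) ?_
      have h2 := sqB _ (mul_mem (mem_sup_right (S := V) hb) hwB)
      have eb : b⁻¹ = b := inv_eq_of_mul_eq_one_left (h.hY.gd'.sq b hb)
      have ew : w⁻¹ = w := inv_eq_of_mul_eq_one_left (sqA w hwA)
      calc b * w = (b * w)⁻¹ := (inv_eq_of_mul_eq_one_left h2).symm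
        _ = w * b := by rw [mul_inv_rev, eb, ew]
    exact hab (cmA a (mem_sup_right ha) b h1)
  have neA : ∃ a ∈ V ⊔ X, a ∉ V := by
    by_contra hcon
    push Not at hcon
    have h1 : X ≤ V := fun x hx => hcon x (mem_sup_right hx)
    exact h.hX.ne (eq_of_le_of_card_ge h1 h.hX.card.ge)
  have neB : ∃ a ∈ V ⊔ Y, a ∉ V := by
    by_contra hcon
    push Not at hcon
    have h1 : Y ≤ V := fun x hx => hcon x (mem_sup_right hx)
    exact h.hY.ne (eq_of_le_of_card_ge h1 h.hY.card.ge)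
  have dec : ∀ p ∈ PP V, ∃ a ∈ V ⊔ X, ∃ b ∈ V ⊔ Y, p = a * b := by
    intro p hp
    obtain ⟨y, hy, c, hc, hcX, rfl⟩ := h.decomp hp
    exact ⟨c, h.mem_sup hc hcX, y, mem_sup_right hy, rfl⟩
  refine ⟨sqA, sqB, leA, leB, le_sup_left, le_sup_left, cA, cB, ?_, dec, inf, neA, neB, ?_, ?_⟩
  · intro t ht ht2
    obtain ⟨c, hc, b, hb, rfl⟩ := dec t ht
    have ec : c⁻¹ = c := inv_eq_of_mul_eq_one_left (sqA c hc)
    have eb : b⁻¹ = b := inv_eq_of_mul_eq_one_left (sqB b hb)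
    have hcb : b * c = c * b := by
      calc b * c = (c * b)⁻¹ := by rw [mul_inv_rev, ec, eb]
        _ = c * b := inv_eq_of_mul_eq_one_left ht2
    by_cases hcV : c ∈ V
    · right
      exact mul_mem (mem_sup_left hcV) hb
    · left
      exact mul_mem hc (cA c hc hcV b (leB hb) hcb)
  · rw [hVY, card_cj]
  · have h1 : X ≤ normalizer (V : Set G) := h.hX.le_PP.trans (PP_le_normalizer V)
    have h2 := Thompson.card_sup_mul_card_inf (A := X) (B := V) h1
    rw [h.hX.inf, card_bot, mul_one, h.hX.card, sup_comm] at h2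
    exact h2

/-- one side of the fixed point argument -/
theorem Bad.stab_side (h : Bad V X Y) {A B : Subgroup G} (hT : Two X A B) {v : G} (hv : v ∈ V)
    (hA : cj v A = A) (hB : cj v B = B) : ∀ z ∈ B, z * v = v * z := by
  have hgX := h.hX.gd'
  have hvv : v⁻¹ = v := inv_eq_of_mul_eq_one_left (h.hX.gd.sq v hv)
  have cmA : ∀ a ∈ A, ∀ b ∈ A, a * b = b * a := by
    intro a ha b hb
    have ea : a⁻¹ = a := inv_eq_of_mul_eq_one_left (hT.sqA a ha)
    have eb : b⁻¹ = b := inv_eq_of_mul_eq_one_left (hT.sqA b hb)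
    calc a * b = (a * b)⁻¹ := (inv_eq_of_mul_eq_one_left (hT.sqA _ (mul_mem ha hb))).symm
      _ = b * a := by rw [mul_inv_rev, ea, eb]
  -- a fixed point
  obtain ⟨w, hw, hwX, hwv⟩ : ∃ w ∈ A, w ∉ X ∧ w * v = v * w := by
    obtain ⟨a, ha, haX⟩ := hT.neA
    have hva : v * a * v⁻¹ ∈ A := by
      have h1 := conj_mem_cj (g := v) ha
      rwa [hA] at h1
    set b := a * (v * a * v⁻¹) with hb
    have hbA : b ∈ A := mul_mem ha hva
    have hbv : v * b * v⁻¹ = b := by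
      calc v * b * v⁻¹ = (v * a * v⁻¹) * ((v * v) * a * (v * v)⁻¹) := by rw [hb]; group
        _ = (v * a * v⁻¹) * a := by rw [h.hX.gd.sq v hv]; group
        _ = b := by rw [hb, cmA _ hva a ha]
    by_cases hbX : b ∈ X
    · refine ⟨a, ha, haX, ?_⟩
      refine h.step_a (hT.leA ha) hv ?_
      have h1 : ⁅a, v⁆ = b⁻¹ := by
        have ea : a⁻¹ = a := inv_eq_of_mul_eq_one_left (hT.sqA a ha)
        have h2 : (v * a * v⁻¹)⁻¹ = v * a * v⁻¹ := inv_eq_of_mul_eq_one_left (hT.sqA _ hva)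
        calc ⁅a, v⁆ = a * (v * a * v⁻¹)⁻¹ := by rw [commutatorElement_def]; group
          _ = b := by rw [h2, hb]
          _ = b⁻¹ := (inv_eq_of_mul_eq_one_left (hT.sqA _ hbA)).symm
      rw [h1]
      exact inv_mem hbX
    · refine ⟨b, hbA, hbX, ?_⟩
      rw [mul_inv_eq_iff_eq_mul] at hbv
      exact hbv.symm
  have hwP := hT.leA hw
  intro z hz
  have hzP := hT.leB hz
  have hvz : v * z * v⁻¹ ∈ B := by
    have h1 := conj_mem_cj (g := v) hz
    rwa [hB] at h1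
  have hvzP := hT.leB hvz
  have h1 : ⁅w, v * z * v⁻¹⁆ = ⁅w, z⁆ := by
    have h2 : ⁅w, v * z * v⁻¹⁆ = v * ⁅v⁻¹ * w * v, z⁆ * v⁻¹ := by
      simp only [commutatorElement_def]
      group
    have h3 : v⁻¹ * w * v = w := by
      rw [mul_assoc, hwv, inv_mul_cancel_left]
    rw [h2, h3, ← mem_centralizer_iff.1 (h.V_le_centralizer hv) _ (hgX.commutator_mem hwP hzP),
      mul_inv_cancel_right]
  have h2 : ⁅w, z⁻¹ * (v * z * v⁻¹)⁆ = 1 := by
    have h3 := hgX.mul_right hwP hzP (mul_mem (inv_mem hzP) hvzP)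
    rw [mul_inv_cancel_left, h1] at h3
    exact mul_eq_left.1 h3.symm
  have h3 : z⁻¹ * (v * z * v⁻¹) ∈ X := by
    refine hT.inf (mem_inf.2 ⟨?_, mul_mem (inv_mem hz) hvz⟩)
    exact hT.cA w hw hwX _ (mul_mem (inv_mem hzP) hvzP) (commutatorElement_eq_one_iff_mul_comm.1 h2).symm
  refine h.step_a hzP hv ?_
  have h4 : ⁅z, v⁆ = z * (z⁻¹ * (v * z * v⁻¹))⁻¹ * z⁻¹ := by
    rw [commutatorElement_def]
    group
  rw [h4, hgX.comm_PP hzP (inv_mem h3), mul_inv_cancel_right]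
  exact inv_mem h3

theorem Bad.stab (h : Bad V X Y) {A B : Subgroup G} (hT : Two X A B) {v : G} (hv : v ∈ V) (hv1 : v ≠ 1)
    (hA : cj v A = A) (hB : cj v B = B) : False := by
  have h1 := h.stab_side hT hv hA hB
  have h2 := h.stab_side hT.symm hv hB hA
  apply h.not_comm
  intro p hp w hw
  refine h.comm_all hp hv hv1 ?_ hw
  obtain ⟨a, ha, b, hb, rfl⟩ := hT.dec p hp
  rw [mul_assoc, h1 b hb, ← mul_assoc, h2 a ha, mul_assoc]

theorem Bad.false (h : Bad V X Y) : False := by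
  obtain ⟨g, hg⟩ := h.hX.cj
  have hT := h.two.conj g
  rw [← hg] at hT
  set A := cj g (V ⊔ X) with hAdef
  set B := cj g (V ⊔ Y) with hBdef
  have hgX := h.hX.gd'
  have hnP : normalizer (X : Set G) ≤ normalizer (PP X : Set G) := le_normalizer_PP X
  have hsw : ∀ v ∈ V, v ≠ 1 → cj v A = B ∧ cj v B = A := by
    intro v hv hv1
    rcases hT.swap (hnP (h.V_le_normalizer hv)) with h1 | h1
    · exact absurd (h.stab hT hv hv1 h1.1 h1.2) id
    · exact h1
  obtain ⟨v, hv, hv1⟩ := h.exists_ne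
  -- `V = {1, v}`
  have hV : ∀ w ∈ V, w ≠ 1 → w = v := by
    intro w hw hw1
    by_contra hne
    have h1 : v * w ≠ 1 := by
      intro h2
      apply hne
      have h3 : v⁻¹ = v := inv_eq_of_mul_eq_one_left (h.hX.gd.sq v hv)
      rw [← h3]
      exact (inv_eq_of_mul_eq_one_right h2).symm
    obtain ⟨e1, e2⟩ := hsw v hv hv1
    obtain ⟨e3, e4⟩ := hsw w hw hw1
    refine h.stab hT (mul_mem hv hw) h1 ?_ ?_
    · rw [← cj_cj, e3, e2]
    · rw [← cj_cj, e4, e1]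
  have hVc : Nat.card V = 2 := by
    have h1 : (V : Set G) = {1, v} := by
      ext w
      constructor
      · intro hw
        by_cases hw1 : w = 1
        · left
          exact hw1
        · right
          exact hV w hw hw1
      · rintro (rfl | rfl)
        · exact one_mem _
        · exact hv
    have h2 : Nat.card V = (V : Set G).ncard := rfl
    rw [h2, h1, Set.ncard_pair hv1.symm]
  have hXc : Nat.card X = 2 := h.hX.card.trans hVc
  have hAc : Nat.card A = 4 := by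
    rw [hT.cardA, hXc]
  have hBc : Nat.card B = 4 := hT.card ▸ hAc
  -- products in `A` outside `X`
  have key : ∀ C : Subgroup G, X ≤ C → Nat.card C = 4 → (∀ a ∈ C, a * a = 1) → ∀ a ∈ C, ∀ b ∈ C,
      a ∉ X → b ∉ X → a * b ∈ X := by
    intro C hXC hC hC2 a ha b hb haX hbX
    have h1 : (X.subgroupOf C).index = 2 := by
      have h2 := H3.PBasic.card_mul_relIndex hXC
      rw [hXc, hC] at h2
      have h3 : X.relIndex C = (X.subgroupOf C).index := rfl
      omega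
    have h2 := mul_mem_iff_of_index_two h1 (a := ⟨a, ha⟩) (b := ⟨b, hb⟩)
    exact h2.2 ⟨fun h => absurd h haX, fun h => absurd h hbX⟩
  -- elements of `N(X)` fixing `A` and `B` are in `O₂(N(X))`
  have hfix : ∀ k ∈ normalizer (X : Set G), cj k A = A → cj k B = B → k ∈ QQ X := by
    intro k hk hkA hkB
    have side : ∀ C : Subgroup G, X ≤ C → Nat.card C = 4 → (∀ a ∈ C, a * a = 1) → cj k C = C → C ≤ PP X →
        ∀ a ∈ C, ⁅a, k⁆ ∈ X := by
      intro C hXC hC hC2 hkC hCP a ha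
      have h1 : ⁅a, k⁆ = a * (k * a⁻¹ * k⁻¹) := by
        rw [commutatorElement_def]
        group
      rw [h1]
      have h2 : k * a⁻¹ * k⁻¹ ∈ C := by
        have h3 := conj_mem_cj (g := k) (inv_mem ha)
        rwa [hkC] at h3
      by_cases haX : a ∈ X
      · exact mul_mem haX (Norm.conj_mem le_rfl hk (inv_mem haX))
      · refine key C hXC hC hC2 a ha _ h2 haX ?_
        intro h3
        have h4 := Norm.conj_mem' le_rfl hk h3
        have h5 : k⁻¹ * (k * a⁻¹ * k⁻¹) * k = a⁻¹ := by group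
        rw [h5] at h4
        exact haX (inv_mem_iff.1 h4)
    refine hgX.KK_le ⟨?_, ?_⟩
    · rw [mem_centralizer_iff]
      intro x hx
      by_cases hx1 : x = 1
      · rw [hx1, one_mul, mul_one]
      · have h1 : k * x * k⁻¹ ∈ X := Norm.conj_mem le_rfl hk hx
        have h2 : k * x * k⁻¹ ≠ 1 := by
          intro h3
          apply hx1
          have := congrArg (fun z => k⁻¹ * z * k) h3
          simpa [mul_assoc] using this
        have h3 : k * x * k⁻¹ = x := by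
          by_contra h4
          have h5 : ({1, x, k * x * k⁻¹} : Set G) ⊆ X := by
            rintro y (rfl | rfl | rfl)
            · exact one_mem _
            · exact hx
            · exact h1
          have h6 := Set.ncard_le_ncard h5 (Set.toFinite _)
          have h7 : (X : Set G).ncard = 2 := hXc
          have h8 : ({1, x, k * x * k⁻¹} : Set G).ncard = 3 := by
            rw [Set.ncard_insert_of_notMem, Set.ncard_pair (fun h => h4 h.symm)]
            rintro (h9 | h9)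
            · exact hx1 h9.symm
            · exact h2 h9.symm
          omega
        rw [mul_inv_eq_iff_eq_mul] at h3
        exact h3.symm
    · intro p hp
      obtain ⟨a, ha, b, hb, rfl⟩ := hT.dec p hp
      have h1 := side A hT.VA hAc hT.sqA hkA hT.leA a ha
      have h2 := side B hT.VB hBc hT.sqB hkB hT.leB b hb
      have h3 : ⁅a * b, k⁆ = a * ⁅b, k⁆ * a⁻¹ * ⁅a, k⁆ := by
        simp only [commutatorElement_def]
        group
      rw [h3, hgX.comm_PP (hT.leA ha) h2, mul_inv_cancel_right]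
      exact mul_mem h2 h1
  have hvA := hsw v hv hv1
  have hvN := h.V_le_normalizer hv
  -- every element of `N(X)` is in `O₂ ∪ O₂ v`
  have hdich : ∀ k ∈ normalizer (X : Set G), k ∈ QQ X ∨ k * v ∈ QQ X := by
    intro k hk
    rcases hT.swap (hnP hk) with h1 | h1
    · left
      exact hfix k hk h1.1 h1.2
    · right
      refine hfix _ (mul_mem hk hvN) ?_ ?_
      · rw [← cj_cj, hvA.1, h1.2]
      · rw [← cj_cj, hvA.2, h1.1]
  have h2 : IsPGroup 2 (normalizer (X : Set G)) := by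
    intro k
    have h3 : (k : G) * k ∈ QQ X := by
      rcases hdich k k.2 with h4 | h4
      · exact mul_mem h4 h4
      · have h5 : (k : G) * k = ((k : G) * v) * (v⁻¹ * ((k : G) * v) * v) * (v * v)⁻¹ := by group
        rw [h5, h.hX.gd.sq v hv, inv_one, mul_one]
        exact mul_mem h4 (Norm.conj_mem' (le_normalizer_QQ X) hvN h4)
    obtain ⟨n, hn⟩ := isPGroup_QQ X ⟨_, h3⟩
    refine ⟨n + 1, Subtype.ext ?_⟩
    have h4 : ((k : G) * k) ^ 2 ^ n = 1 := congrArg Subtype.val hn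
    change (k : G) ^ 2 ^ (n + 1) = 1
    rw [pow_succ', pow_mul, pow_two]
    exact h4
  apply h.not
  exact h.V_le_normalizer.trans (TI1.le_QQ le_rfl le_normalizer h2)

/-- part (a) -/
theorem Pr.le_QQ' (h : Pr V X) : V ≤ QQ X := by
  by_contra hcon
  obtain ⟨m, hm, ho⟩ := h.exists_opp
  exact Bad.false (Y := Sn.cj m X) ⟨ho, ⟨m, hm, rfl⟩, hcon⟩

/-- symmetry -/
theorem Pr.symm (h : Pr V X) : Pr X V where
  gd := h.gd'
  cj := by
    obtain ⟨g, hg⟩ := h.cj
    exact ⟨g⁻¹, by rw [hg, cj_cj, inv_mul_cancel, cj_one]⟩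
  ne := h.ne.symm
  le := h.le_QQ'

end main2

end H13.TI1
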