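import Mathlib
import Cfsg.Prelude.Def_PLocal
import Cfsg.Agent.Lib.H13.TI2
import Cfsg.Agent.Lib.H13.JField3
import Cfsg.Agent.Lib.H13.Transport
import Cfsg.Agent.Lib.H3.PBasic
import Cfsg.Agent.Lib.H52.Sub

set_option autoImplicit false

/-!
TI maximal abelian normal subgroups `V` of `N(V)` having a conjugate inside `O₂(N(V))`: the final statements.
-/

namespace H13.TI1

open Subgroup H13.Sn
open scoped commutatorElement

universe u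

variable {G : Type u} [Group G] [Finite G] {V X : Subgroup G}

theorem Pr.exists_opp' (h : Pr V X) : ∃ Y, Opp V X Y := by
  obtain ⟨m, -, hm⟩ := h.exists_opp
  exact ⟨_, hm⟩

omit [Finite G] in
theorem Pr.exists_ne (h : Pr V X) : ∃ v ∈ V, v ≠ 1 := by
  by_contra hcon
  push Not at hcon
  apply h.ne
  have h1 : V = ⊥ := by
    rw [eq_bot_iff]
    intro v hv
    exact Subgroup.mem_bot.2 (hcon v hv)
  obtain ⟨g, rfl⟩ := h.cj
  rw [h1, cj_bot]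

theorem Pr.trans (h : Pr V X) {v₁ v₂ : G} (hv₁ : v₁ ∈ V) (hv₁' : v₁ ≠ 1) (hv₂ : v₂ ∈ V) (hv₂' : v₂ ≠ 1) :
    ∃ n ∈ normalizer (V : Set G), n * v₁ * n⁻¹ = v₂ := by
  obtain ⟨Y, hY⟩ := h.exists_opp'
  obtain ⟨Z, hZ⟩ := h.symm.exists_opp'
  obtain ⟨x, hx, hx1⟩ := h.symm.exists_ne
  obtain ⟨y₁, hy₁, e₁⟩ := hY.conj_eq hx hx1 hv₁
  obtain ⟨y₂, hy₂, e₂⟩ := hY.conj_eq hx hx1 hv₂
  obtain ⟨z₁, hz₁, f₁⟩ := hZ.conj_eq hv₁ hv₁' hx
  obtain ⟨z₂, hz₂, f₂⟩ := hZ.conj_eq hv₂ hv₂' hx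
  have hc₁ : x * v₁ = v₁ * x := h.gd.comm_PP (h.le_PP hx) hv₁
  have hc₂ : x * v₂ = v₂ * x := h.gd.comm_PP (h.le_PP hx) hv₂
  have key : (z₂⁻¹ * y₂ * y₁⁻¹ * z₁) * v₁ * (z₂⁻¹ * y₂ * y₁⁻¹ * z₁)⁻¹ = v₂ := by
    have e1 : (z₂⁻¹ * y₂ * y₁⁻¹ * z₁) * v₁ * (z₂⁻¹ * y₂ * y₁⁻¹ * z₁)⁻¹ =
        z₂⁻¹ * (y₂ * (y₁⁻¹ * (z₁ * v₁ * z₁⁻¹) * y₁) * y₂⁻¹) * z₂ := by group
    rw [e1, f₁, hc₁, ← e₁]
    have e2 : y₁⁻¹ * (y₁ * x * y₁⁻¹) * y₁ = x := by group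
    rw [e2, e₂, ← hc₂, ← f₂]
    group
  refine ⟨_, ?_, key⟩
  apply mem_normalizer_of_cj
  have h1 : v₂ ∈ Sn.cj (z₂⁻¹ * y₂ * y₁⁻¹ * z₁) V := by
    rw [← key]
    exact conj_mem_cj hv₁
  have h2 : v₂ ∈ Sn.cj 1 V := by
    rw [cj_one]
    exact hv₂
  have h3 := h.gd.eq_of_mem h1 h2 hv₂'
  rwa [cj_one] at h3

theorem Pr.QQ_le_centralizer (h : Pr V X) : QQ V ≤ centralizer (V : Set G) := by
  obtain ⟨v, hv, hv1⟩ := h.exists_ne
  have hfin : Finite (QQ V) := inferInstance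
  have : Nontrivial (V.subgroupOf (QQ V)) := by
    refine ⟨⟨⟨v, h.gd.le_QQ hv⟩, hv⟩, 1, ?_⟩
    intro h1
    apply hv1
    exact congrArg (fun z : V.subgroupOf (QQ V) => ((z : QQ V) : G)) h1
  have hn : (V.subgroupOf (QQ V)).Normal := by
    rw [normal_subgroupOf_iff h.gd.le_QQ]
    intro a q ha hq
    exact (mem_normalizer_iff.1 (QQ_le V hq) a).1 ha
  have hp : Fact (Nat.Prime 2) := ⟨Nat.prime_two⟩
  have hnil : Group.IsNilpotent (QQ V) := (isPGroup_QQ V).isNilpotent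
  have h1 := H3.PBasic.normal_inf_center_ne_bot (V.subgroupOf (QQ V)) ((nontrivial_iff_ne_bot _).1 this)
  obtain ⟨z, hz, hz1⟩ := (nontrivial_iff_exists_ne_one _).1 ((nontrivial_iff_ne_bot _).2 h1)
  have hzV : (z : G) ∈ V := hz.1
  have hzc := mem_center_iff.1 hz.2
  have hz1' : (z : G) ≠ 1 := fun h1 => hz1 (Subtype.ext h1)
  intro q hq
  rw [mem_centralizer_iff]
  intro w hw
  by_cases hw1 : w = 1
  · rw [hw1, one_mul, mul_one]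
  obtain ⟨n, hn, rfl⟩ := h.trans hzV hz1' hw hw1
  have hq' : n⁻¹ * q * n ∈ QQ V := by
    have h2 := (mem_normalizer_iff.1 (inv_mem (le_normalizer_QQ V hn)) q).1 hq
    rwa [inv_inv] at h2
  have h3 := congrArg (Subtype.val) (hzc ⟨_, hq'⟩)
  change n⁻¹ * q * n * z = z * (n⁻¹ * q * n) at h3
  have h4 : n * (n⁻¹ * q * n * z) * n⁻¹ = n * (z * (n⁻¹ * q * n)) * n⁻¹ := by rw [h3]
  have e1 : n * (n⁻¹ * q * n * z) * n⁻¹ = q * (n * z * n⁻¹) := by group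
  have e2 : n * (z * (n⁻¹ * q * n)) * n⁻¹ = n * z * n⁻¹ * q := by group
  rw [e1, e2] at h4
  exact h4.symm

theorem Pr.PP_eq (h : Pr V X) : PP V = QQ V := inf_eq_left.2 h.QQ_le_centralizer

theorem Pr.center_QQ (h : Pr V X) : (center (QQ V)).map (QQ V).subtype = V := by
  rw [Transport.map_center_subtype, ← h.PP_eq]
  exact h.gd.center_PP

theorem Pr.commutator_QQ (h : Pr V X) : (commutator (QQ V)).map (QQ V).subtype = V := by
  rw [← h.PP_eq, Subgroup.map_subtype_commutator]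
  apply le_antisymm
  · rw [Subgroup.commutator_le]
    intro a ha b hb
    exact h.gd.commutator_mem ha hb
  · intro v hv
    obtain ⟨Y, hY⟩ := h.exists_opp'
    obtain ⟨x, hx, hx1⟩ := h.symm.exists_ne
    obtain ⟨y, hy, rfl⟩ := hY.exists_eq hx hx1 hv
    exact Subgroup.commutator_mem_commutator (h.le_PP hx) (hY.hY.le_PP hy)

theorem Pr.frattini_QQ (h : Pr V X) : (frattini (QQ V)).map (QQ V).subtype = V := by
  have hp : Fact (Nat.Prime 2) := ⟨Nat.prime_two⟩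
  apply le_antisymm
  · apply H52.Sub.map_frattini_le (p := 2)
    · intro a ha b hb
      rw [← h.PP_eq] at ha hb
      exact h.gd.commutator_mem ha hb
    · intro a ha
      rw [← h.PP_eq] at ha
      rw [pow_two]
      exact h.gd.sq_mem ha
  · refine le_trans (le_of_eq h.commutator_QQ.symm) ?_
    exact Subgroup.map_mono (H3.PBasic.commutator_le_frattini (isPGroup_QQ V))

/-- uniqueness of decompositions -/
theorem Pr.decomp_unique (h : Pr V X) {v v' x x' : G} (hv : v ∈ V) (hv' : v' ∈ V) (hx : x ∈ X) (hx' : x' ∈ X)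
    (he : v * x = v' * x') : v = v' ∧ x = x' := by
  have h1 : v'⁻¹ * v = x' * x⁻¹ := by
    have h2 : v'⁻¹ * (v * x) * x⁻¹ = v'⁻¹ * (v' * x') * x⁻¹ := by rw [he]
    have e1 : v'⁻¹ * (v * x) * x⁻¹ = v'⁻¹ * v := by group
    have e2 : v'⁻¹ * (v' * x') * x⁻¹ = x' * x⁻¹ := by group
    rw [← e1, h2, e2]
  have h2 : v'⁻¹ * v ∈ X ⊓ V :=
    Subgroup.mem_inf.2 ⟨h1 ▸ X.mul_mem hx' (X.inv_mem hx), V.mul_mem (V.inv_mem hv') hv⟩
  rw [h.inf, Subgroup.mem_bot] at h2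
  have h3 : v = v' := (inv_mul_eq_one.1 h2).symm
  refine ⟨h3, ?_⟩
  rw [h3] at he
  exact mul_left_cancel he

theorem Pr.inv (h : Pr V X) {p : G} (hp : p ∈ PP V) (hpX : ¬ ∀ x ∈ X, p * x = x * p) :
    ∃ r ∈ PP X, ∀ x ∈ X, ⁅r, ⁅p, x⁆⁆ = x := by
  obtain ⟨Z, hZ⟩ := h.symm.exists_opp'
  obtain ⟨x₀, hx₀, hx₀'⟩ : ∃ x ∈ X, p * x ≠ x * p := by
    by_contra hcon
    push Not at hcon
    exact hpX hcon
  have hx₀1 : x₀ ≠ 1 := by
    rintro rfl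
    exact hx₀' (by rw [mul_one, one_mul])
  have hpc : ∀ x : G, p * x * p⁻¹ = ⁅p, x⁆ * x := by
    intro x
    rw [commutatorElement_def]
    group
  have hmem : ∀ x ∈ X, ⁅p, x⁆ ∈ V := fun x hx => h.gd.commutator_mem hp (h.le_PP hx)
  set w := p * x₀ * p⁻¹ with hw
  have hwW : w ∈ X ⊔ V := by
    rw [hw, hpc, sup_comm]
    exact mul_mem (Subgroup.mem_sup_left (hmem _ hx₀)) (Subgroup.mem_sup_right hx₀)
  have hwX : w ∉ X := by
    intro h1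
    rw [hw, hpc] at h1
    have h2 : ⁅p, x₀⁆ ∈ X ⊓ V := ⟨by
      have h3 := mul_mem h1 (inv_mem hx₀)
      rwa [mul_inv_cancel_right] at h3, hmem _ hx₀⟩
    rw [h.inf, Subgroup.mem_bot, commutatorElement_eq_one_iff_mul_comm] at h2
    exact hx₀' h2
  have hw1 : w ≠ 1 := by
    intro h1
    rw [h1] at hwX
    exact hwX (one_mem X)
  obtain ⟨z, hz, hzw⟩ := hZ.exists_conj hwW hwX
  obtain ⟨g, hg⟩ := h.cj
  have heq : Sn.cj p X = Sn.cj z V := by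
    rw [hg, cj_cj]
    refine h.gd.eq_of_mem (a := w) ?_ hzw hw1
    rw [← cj_cj, ← hg]
    exact conj_mem_cj hx₀
  have hzX : z ∈ PP X := hZ.hY.le_PP hz
  refine ⟨z, hzX, fun x hx => ?_⟩
  have h1 : p * x * p⁻¹ ∈ Sn.cj z V := by
    rw [← heq]
    exact conj_mem_cj hx
  rw [mem_cj] at h1
  set v := z⁻¹ * (p * x * p⁻¹) * z with hvdef
  have h2 : z * v * z⁻¹ = p * x * p⁻¹ := by
    rw [hvdef]
    group
  have h3 : z * v * z⁻¹ = ⁅z, v⁆ * v := by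
    rw [commutatorElement_def]
    group
  have h4 : ⁅z, v⁆ ∈ X := h.symm.gd.commutator_mem hzX (h.symm.le_PP h1)
  have h5 : ⁅z, v⁆ * v = v * ⁅z, v⁆ := h.gd.comm_PP (h.le_PP h4) h1
  have h6 : v * ⁅z, v⁆ = ⁅p, x⁆ * x := by
    rw [← h5, ← h3, h2, hpc]
  obtain ⟨h7, h8⟩ := h.decomp_unique h1 (hmem x hx) h4 hx h6
  rw [← h7, h8]

end H13.TI1
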