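import Mathlib
import Cfsg.Prelude.Def_PLocal
import Cfsg.Agent.Lib.H13.TI3

set_option autoImplicit false

/-!
TI maximal abelian normal subgroups `V` of `N(V)` having a conjugate inside `O₂(N(V))`: the group
`⟨P, P^g⟩` induces `SL₂` on `V × V^g`.
-/

namespace H13.TI1

open Subgroup H13.Sn H13
open scoped commutatorElement

universe u

variable {G : Type u} [Group G] {V X : Subgroup G}

/-- the commutative group structure -/
abbrev Gd.commGroup (h : Gd V) : CommGroup V :=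
  { (inferInstance : Group V) with
    mul_comm := fun a b => Subtype.ext (h.cm a a.2 b b.2) }

/-- coordinates -/
structure Coord (V X : Subgroup G) (K : Type) [Field K] (ev ex : K → G) : Prop where
  ev_mem : ∀ a, ev a ∈ V
  ex_mem : ∀ a, ex a ∈ X
  ev_add : ∀ a b, ev (a + b) = ev a * ev b
  ex_add : ∀ a b, ex (a + b) = ex a * ex b
  ev_inj : Function.Injective ev
  ex_inj : Function.Injective ex
  ev_surj : ∀ v ∈ V, ∃ a, ev a = v
  ex_surj : ∀ x ∈ X, ∃ a, ex a = x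
  pp : ∀ p ∈ PP V, ∃ a : K, ∀ b : K, ⁅p, ex b⁆ = ev (a * b)
  pp' : ∀ a : K, ∃ p ∈ PP V, ∀ b : K, ⁅p, ex b⁆ = ev (a * b)

variable [Finite G]

theorem Pr.exists_coord (h : Pr V X) :
    ∃ (K : Type) (_ : Field K) (_ : Fintype K) (ev ex : K → G), Coord V X K ev ex ∧ Fintype.card K = Nat.card V := by
  classical
  let _ : CommGroup V := h.gd.commGroup
  let _ : CommGroup X := h.symm.gd.commGroup
  have hmem : ∀ p ∈ PP V, ∀ x ∈ X, ⁅p, x⁆ ∈ V := fun p hp x hx => h.gd.commutator_mem hp (h.le_PP hx)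
  -- the maps
  let f : ∀ p : PP V, Additive X →+ Additive V := fun p =>
    { toFun := fun x => Additive.ofMul ⟨⁅(p : G), ((x.toMul : X) : G)⁆, hmem p p.2 _ (x.toMul).2⟩
      map_zero' := by
        apply Additive.toMul.injective
        apply Subtype.ext
        exact commutatorElement_one_right (p : G)
      map_add' := fun x y => by
        apply Additive.toMul.injective
        apply Subtype.ext
        exact h.gd.mul_right p.2 (h.le_PP (x.toMul).2) (h.le_PP (y.toMul).2) }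
  have hf : ∀ (p : PP V) (x : Additive X), (((f p x).toMul : V) : G) = ⁅(p : G), ((x.toMul : X) : G)⁆ := fun p x => rfl
  have hfm : ∀ p q : PP V, f (p * q) = f p + f q := by
    intro p q
    refine AddMonoidHom.ext fun x => Additive.toMul.injective (Subtype.ext ?_)
    exact h.gd.mul_left p.2 q.2 (h.le_PP (x.toMul).2)
  have hf1 : f 1 = 0 := by
    have h1 := hfm 1 1
    rw [one_mul] at h1
    exact left_eq_add.1 h1
  let Φ : AddSubgroup (Additive X →+ Additive V) :=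
    { carrier := Set.range f
      zero_mem' := ⟨1, hf1⟩
      add_mem' := by
        rintro _ _ ⟨p, rfl⟩ ⟨q, rfl⟩
        exact ⟨p * q, hfm p q⟩
      neg_mem' := by
        rintro _ ⟨p, rfl⟩
        refine ⟨p⁻¹, ?_⟩
        rw [eq_neg_iff_add_eq_zero, ← hfm, inv_mul_cancel, hf1] }
  have hinj : ∀ (p : PP V) (x : X), x ≠ 1 → f p (Additive.ofMul x) = 0 → f p = 0 := by
    intro p x hx h0
    have h1 : (p : G) * x = x * p := by
      rw [← commutatorElement_eq_one_iff_mul_comm]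
      exact congrArg (fun z : Additive V => ((z.toMul : V) : G)) h0
    have h2 := h.comm_of_comm p.2 x.2 (fun h3 => hx (Subtype.ext h3)) h1
    refine AddMonoidHom.ext fun y => Additive.toMul.injective (Subtype.ext ?_)
    exact commutatorElement_eq_one_iff_mul_comm.2 (h2 _ (y.toMul).2)
  have hbij : ∀ φ ∈ Φ, φ ≠ 0 → Function.Bijective φ := by
    rintro _ ⟨p, rfl⟩ h0
    rw [Nat.bijective_iff_injective_and_card]
    refine ⟨?_, h.card⟩
    rw [injective_iff_map_eq_zero]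
    intro x hx
    by_contra hx0
    exact h0 (hinj p x.toMul (fun h3 => hx0 (Additive.toMul.injective h3)) hx)
  obtain ⟨Y, hY⟩ := h.exists_opp'
  obtain ⟨x₀, hx₀, hx₀1⟩ := h.symm.exists_ne
  have hx₀' : (⟨x₀, hx₀⟩ : X) ≠ 1 := fun h3 => hx₀1 (congrArg Subtype.val h3)
  have hcard : Nat.card Φ = Nat.card (Additive V) := by
    apply Nat.card_congr
    refine Equiv.ofBijective (fun φ : Φ => (φ : Additive X →+ Additive V) (Additive.ofMul ⟨x₀, hx₀⟩)) ⟨?_, ?_⟩
    · rintro ⟨_, p, rfl⟩ ⟨_, q, rfl⟩ hpq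
      apply Subtype.ext
      change f p = f q
      change f p (Additive.ofMul ⟨x₀, hx₀⟩) = f q (Additive.ofMul ⟨x₀, hx₀⟩) at hpq
      have h1 : f (p * q⁻¹) = f p - f q := by
        rw [eq_sub_iff_add_eq, ← hfm, inv_mul_cancel_right]
      have h2 : f (p * q⁻¹) = 0 := by
        apply hinj _ _ hx₀'
        rw [h1, AddMonoidHom.sub_apply, hpq, sub_self]
      rw [h1] at h2
      exact sub_eq_zero.1 h2
    · intro v
      obtain ⟨y, hy, hyv⟩ := hY.exists_eq hx₀ hx₀1 (inv_mem (v.toMul).2)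
      refine ⟨⟨f ⟨y, hY.hY.le_PP hy⟩, _, rfl⟩, ?_⟩
      apply Additive.toMul.injective
      apply Subtype.ext
      change ⁅y, x₀⁆ = ((v.toMul : V) : G)
      rw [← commutatorElement_inv, hyv, inv_inv]
  have hne : ∃ φ₀ ∈ Φ, φ₀ ≠ 0 := by
    obtain ⟨v, hv, hv1⟩ := h.exists_ne
    obtain ⟨y, hy, hyv⟩ := hY.exists_eq hx₀ hx₀1 hv
    refine ⟨f ⟨y, hY.hY.le_PP hy⟩, ⟨_, rfl⟩, ?_⟩
    intro h0
    have h1' : f ⟨y, hY.hY.le_PP hy⟩ (Additive.ofMul (⟨x₀, hx₀⟩ : X)) = 0 := by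
      rw [h0]
      rfl
    have h1 : ⁅y, x₀⁆ = 1 := congrArg (fun z : Additive V => ((z.toMul : V) : G)) h1'
    rw [← commutatorElement_inv, hyv, inv_eq_one] at h1
    exact hv1 h1
  have hnc : ∀ p : PP V, f p ≠ 0 → ¬ ∀ x ∈ X, (p : G) * x = x * p := by
    intro p hp hcon
    apply hp
    refine AddMonoidHom.ext fun x => Additive.toMul.injective (Subtype.ext ?_)
    exact commutatorElement_eq_one_iff_mul_comm.2 (hcon _ (x.toMul).2)
  have hinv : ∀ φ₀ ∈ Φ, φ₀ ≠ 0 → ∀ φ ∈ Φ, φ ≠ 0 → ∃ ψ ∈ Φ, ∀ x y : Additive X, φ y = φ₀ x → ψ x = φ₀ y := by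
    rintro _ ⟨p₀, rfl⟩ h0 _ ⟨p, rfl⟩ h1
    obtain ⟨r₀, hr₀, e₀⟩ := h.inv p₀.2 (hnc p₀ h0)
    obtain ⟨r, hr, e⟩ := h.inv p.2 (hnc p h1)
    -- the element swapping `V` and `X`
    have hpv : ∀ v ∈ V, (p₀ : G) * v * (p₀ : G)⁻¹ = v := by
      intro v hv
      rw [h.gd.comm_PP p₀.2 hv, mul_inv_cancel_right]
    have hrx : ∀ x ∈ X, r₀ * x * r₀⁻¹ = x := by
      intro x hx
      rw [h.symm.gd.comm_PP hr₀ hx, mul_inv_cancel_right]
    have hcj : ∀ a b : G, a * b * a⁻¹ = ⁅a, b⁆ * b := by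
      intro a b
      rw [commutatorElement_def]
      group
    have hcj2 : ∀ a b c : G, a * (b * c) * a⁻¹ = (a * b * a⁻¹) * (a * c * a⁻¹) := by
      intro a b c
      group
    have hvx : ∀ v ∈ V, ∀ x ∈ X, x * v = v * x := fun v hv x hx => h.gd.comm_PP (h.le_PP hx) hv
    have hnX : ∀ x ∈ X, (p₀ * r₀ * p₀ : G) * x * (p₀ * r₀ * p₀ : G)⁻¹ = ⁅(p₀ : G), x⁆ := by
      intro x hx
      have hm := hmem p₀ p₀.2 x hx
      have e1 : (p₀ * r₀ * p₀ : G) * x * (p₀ * r₀ * p₀ : G)⁻¹ = p₀ * (r₀ * (p₀ * x * (p₀ : G)⁻¹) * r₀⁻¹) * (p₀ : G)⁻¹ := by group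
      rw [e1, hcj (p₀ : G) x, hcj2 r₀, hrx x hx, hcj r₀, e₀ x hx]
      have e2 : x * ⁅(p₀ : G), x⁆ * x = ⁅(p₀ : G), x⁆ := by
        rw [hvx _ hm x hx, mul_assoc, h.symm.gd.sq x hx, mul_one]
      rw [e2, hpv _ hm]
    have hbij0 := hbij _ ⟨p₀, rfl⟩ h0
    have hnV : ∀ x ∈ X, (p₀ * r₀ * p₀ : G) * ⁅(p₀ : G), x⁆ * (p₀ * r₀ * p₀ : G)⁻¹ = x := by
      intro x hx
      have hm := hmem p₀ p₀.2 x hx
      have e1 : (p₀ * r₀ * p₀ : G) * ⁅(p₀ : G), x⁆ * (p₀ * r₀ * p₀ : G)⁻¹ =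
        p₀ * (r₀ * (p₀ * ⁅(p₀ : G), x⁆ * (p₀ : G)⁻¹) * r₀⁻¹) * (p₀ : G)⁻¹ := by group
      rw [e1, hpv _ hm, hcj r₀, e₀ x hx, hcj2 (p₀ : G) x, hpv _ hm, hcj (p₀ : G) x, mul_assoc, hvx _ hm x hx, ← mul_assoc,
        h.gd.sq _ hm, one_mul]
    set n : G := p₀ * r₀ * p₀ with hn
    have hXV : Sn.cj n X = V := by
      apply Subgroup.eq_of_le_of_card_ge
      · rintro _ ⟨x, hx, rfl⟩
        change n * x * n⁻¹ ∈ V
        rw [hnX x hx]
        exact hmem p₀ p₀.2 x hx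
      · rw [card_cj, h.card]
    have hp' : n * r * n⁻¹ ∈ PP V := by
      rw [← hXV, cj_PP]
      exact conj_mem_cj hr
    refine ⟨f ⟨_, hp'⟩, ⟨_, rfl⟩, ?_⟩
    intro x y hxy
    have h5 : ⁅(p : G), ((y.toMul : X) : G)⁆ = ⁅(p₀ : G), ((x.toMul : X) : G)⁆ :=
      congrArg (fun z : Additive V => ((z.toMul : V) : G)) hxy
    apply Additive.toMul.injective
    apply Subtype.ext
    change ⁅n * r * n⁻¹, ((x.toMul : X) : G)⁆ = ⁅(p₀ : G), ((y.toMul : X) : G)⁆
    have h6 : ⁅n * r * n⁻¹, ((x.toMul : X) : G)⁆ = n * ⁅r, n⁻¹ * ((x.toMul : X) : G) * n⁆ * n⁻¹ := by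
      simp only [commutatorElement_def]
      group
    have h7 : n⁻¹ * ((x.toMul : X) : G) * n = ⁅(p₀ : G), ((x.toMul : X) : G)⁆ := by
      have h8 := hnV _ (x.toMul).2
      calc n⁻¹ * ((x.toMul : X) : G) * n = n⁻¹ * (n * ⁅(p₀ : G), ((x.toMul : X) : G)⁆ * n⁻¹) * n := by rw [h8]
        _ = _ := by group
    rw [h6, h7, ← h5, e _ (y.toMul).2, hnX _ (y.toMul).2]
  have hsq : ∀ m : Additive V, m + m = 0 := by
    intro m
    apply Additive.toMul.injective
    apply Subtype.ext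
    exact h.gd.sq _ (m.toMul).2
  obtain ⟨K, _, _, eM, eN, hK⟩ := JField.exists_field hsq Φ hbij hcard hne hinv
  refine ⟨K, inferInstance, inferInstance, fun a => (((eM a).toMul : V) : G), fun a => (((eN a).toMul : X) : G), ?_, ?_⟩
  · refine ⟨fun a => ((eM a).toMul).2, fun a => ((eN a).toMul).2, ?_, ?_, ?_, ?_, ?_, ?_, ?_, ?_⟩
    · intro a b
      change (((eM (a + b)).toMul : V) : G) = _
      rw [map_add eM]
      rfl
    · intro a b
      change (((eN (a + b)).toMul : X) : G) = _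
      rw [map_add eN]
      rfl
    · intro a b hab
      exact eM.injective (Additive.toMul.injective (Subtype.ext hab))
    · intro a b hab
      exact eN.injective (Additive.toMul.injective (Subtype.ext hab))
    · intro v hv
      refine ⟨eM.symm (Additive.ofMul ⟨v, hv⟩), ?_⟩
      change (((eM (eM.symm (Additive.ofMul ⟨v, hv⟩))).toMul : V) : G) = v
      rw [eM.apply_symm_apply]
      rfl
    · intro v hv
      refine ⟨eN.symm (Additive.ofMul ⟨v, hv⟩), ?_⟩
      change (((eN (eN.symm (Additive.ofMul ⟨v, hv⟩))).toMul : X) : G) = v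
      rw [eN.apply_symm_apply]
      rfl
    · intro p hp
      obtain ⟨a, ha⟩ := (hK (f ⟨p, hp⟩)).1 ⟨_, rfl⟩
      refine ⟨a, fun b => ?_⟩
      exact congrArg (fun z : Additive V => ((z.toMul : V) : G)) (ha b)
    · intro a
      let g : Additive X →+ Additive V :=
        { toFun := fun x => eM (a * eN.symm x)
          map_zero' := by rw [map_zero, mul_zero, map_zero]
          map_add' := fun x y => by rw [map_add, mul_add, map_add] }
      have hg : ∀ b : K, g (eN b) = eM (a * b) := by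
        intro b
        change eM (a * eN.symm (eN b)) = _
        rw [eN.symm_apply_apply]
      obtain ⟨p, hp⟩ := (hK g).2 ⟨a, hg⟩
      refine ⟨p, p.2, fun b => ?_⟩
      have h8 := hg b
      rw [← hp] at h8
      exact congrArg (fun z : Additive V => ((z.toMul : V) : G)) h8
  · rw [← Nat.card_eq_fintype_card]
    exact Nat.card_congr eM.toEquiv

end H13.TI1
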