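import Mathlib
import Cfsg.Prelude.Def_PLocal
import Cfsg.Agent.Lib.H13.TI4
import Cfsg.Agent.Lib.H13.NatSL2

set_option autoImplicit false

/-!
TI maximal abelian normal subgroups `V` of `N(V)` having a conjugate inside `O₂(N(V))`: the group
`⟨P, P^g⟩` induces `SL₂` on `V × V^g`.
-/

namespace H13.TI1

open Subgroup H13.Sn H13
open scoped commutatorElement

universe u

variable {G : Type u} [Group G] [Finite G] {V X : Subgroup G}

theorem Coord.qq {K : Type} [Field K] {ev ex : K → G} (hC : Coord V X K ev ex) (h : Pr V X) :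
    ∀ r ∈ PP X, ∃ c : K, ∀ b : K, ⁅r, ev b⁆ = ex (c * b) := by
  intro r hr
  have hev0 : ev 0 = 1 := by
    have h1 := hC.ev_add 0 0
    rw [add_zero] at h1
    exact left_eq_mul.1 h1
  have hex0 : ex 0 = 1 := by
    have h1 := hC.ex_add 0 0
    rw [add_zero] at h1
    exact left_eq_mul.1 h1
  by_cases hrV : ∀ v ∈ V, r * v = v * r
  · refine ⟨0, fun b => ?_⟩
    rw [zero_mul, hex0, commutatorElement_eq_one_iff_mul_comm]
    exact hrV _ (hC.ev_mem b)
  · obtain ⟨p, hp, hpr⟩ := h.symm.inv hr hrV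
    obtain ⟨a, ha⟩ := hC.pp p hp
    have hmem : ∀ b, ⁅r, ev b⁆ ∈ X := fun b => h.symm.gd.commutator_mem hr (h.symm.le_PP (hC.ev_mem b))
    have key : ∀ b d, ⁅r, ev b⁆ = ex d → b = a * d := by
      intro b d hd
      apply hC.ev_inj
      rw [← ha, ← hd, hpr _ (hC.ev_mem b)]
    have ha0 : a ≠ 0 := by
      rintro rfl
      obtain ⟨d, hd⟩ := hC.ex_surj _ (hmem 1)
      have h2 := key 1 d hd.symm
      rw [zero_mul] at h2
      exact one_ne_zero h2
    refine ⟨a⁻¹, fun b => ?_⟩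
    obtain ⟨d, hd⟩ := hC.ex_surj _ (hmem b)
    have h2 := key b d hd.symm
    rw [← hd, h2, inv_mul_cancel_left₀ ha0]

theorem Coord.qq' {K : Type} [Field K] {ev ex : K → G} (hC : Coord V X K ev ex) (h : Pr V X) :
    ∀ c : K, ∃ r ∈ PP X, ∀ b : K, ⁅r, ev b⁆ = ex (c * b) := by
  intro c
  have hev0 : ev 0 = 1 := by
    have h1 := hC.ev_add 0 0
    rw [add_zero] at h1
    exact left_eq_mul.1 h1
  have hex0 : ex 0 = 1 := by
    have h1 := hC.ex_add 0 0
    rw [add_zero] at h1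
    exact left_eq_mul.1 h1
  by_cases hc : c = 0
  · refine ⟨1, one_mem _, fun b => ?_⟩
    rw [hc, zero_mul, hex0, commutatorElement_one_left]
  · obtain ⟨p, hp, hpa⟩ := hC.pp' c⁻¹
    have hnc : ¬ ∀ x ∈ X, p * x = x * p := by
      intro h1
      have h2 := hpa 1
      rw [commutatorElement_eq_one_iff_mul_comm.2 (h1 _ (hC.ex_mem 1)), ← hev0] at h2
      have h3 := hC.ev_inj h2
      rw [mul_one] at h3
      exact inv_ne_zero hc h3.symm
    obtain ⟨r, hr, hrp⟩ := h.inv hp hnc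
    refine ⟨r, hr, fun b => ?_⟩
    have h2 := hrp _ (hC.ex_mem (c * b))
    rw [hpa, inv_mul_cancel_left₀ hc] at h2
    exact h2

/-- vectors -/
def wv {K : Type} (ev ex : K → G) (u : Fin 2 → K) : G := ev (u 0) * ex (u 1)

variable {K : Type} [Field K] {ev ex : K → G}

theorem Coord.wv_inj (hC : Coord V X K ev ex) (h : Pr V X) : Function.Injective (wv ev ex) := by
  intro u u' huu
  obtain ⟨h1, h2⟩ := h.decomp_unique (hC.ev_mem _) (hC.ev_mem _) (hC.ex_mem _) (hC.ex_mem _) huu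
  ext i
  fin_cases i
  · exact hC.ev_inj h1
  · exact hC.ex_inj h2

theorem Coord.act_p (hC : Coord V X K ev ex) (h : Pr V X) {p : G} (hp : p ∈ PP V) {a : K}
    (ha : ∀ b, ⁅p, ex b⁆ = ev (a * b)) (u : Fin 2 → K) :
    p * wv ev ex u * p⁻¹ = wv ev ex ((NatSL2.up a : Matrix (Fin 2) (Fin 2) K).mulVec u) := by
  have h1 : ((NatSL2.up a : Matrix (Fin 2) (Fin 2) K).mulVec u) 0 = u 0 + a * u 1 := by
    rw [NatSL2.up_coe]
    simp [Matrix.mulVec, dotProduct, Fin.sum_univ_two]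
  have h2 : ((NatSL2.up a : Matrix (Fin 2) (Fin 2) K).mulVec u) 1 = u 1 := by
    rw [NatSL2.up_coe]
    simp [Matrix.mulVec, dotProduct, Fin.sum_univ_two]
  rw [wv, wv, h1, h2, hC.ev_add, ← ha]
  have h3 : p * ev (u 0) = ev (u 0) * p := h.gd.comm_PP hp (hC.ev_mem _)
  have e1 : p * (ev (u 0) * ex (u 1)) * p⁻¹ = (p * ev (u 0)) * (ex (u 1) * p⁻¹) := by group
  rw [e1, h3, commutatorElement_def]
  group

theorem Coord.act_r (hC : Coord V X K ev ex) (h : Pr V X) {r : G} (hr : r ∈ PP X) {c : K}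
    (hc : ∀ b, ⁅r, ev b⁆ = ex (c * b)) (u : Fin 2 → K) :
    r * wv ev ex u * r⁻¹ = wv ev ex ((NatSL2.lo c : Matrix (Fin 2) (Fin 2) K).mulVec u) := by
  have h1 : ((NatSL2.lo c : Matrix (Fin 2) (Fin 2) K).mulVec u) 0 = u 0 := by
    rw [NatSL2.lo_coe]
    simp [Matrix.mulVec, dotProduct, Fin.sum_univ_two]
  have h2 : ((NatSL2.lo c : Matrix (Fin 2) (Fin 2) K).mulVec u) 1 = c * u 0 + u 1 := by
    rw [NatSL2.lo_coe]
    simp [Matrix.mulVec, dotProduct, Fin.sum_univ_two]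
  rw [wv, wv, h1, h2, hC.ex_add, ← hc]
  have h3 : r * ex (u 1) = ex (u 1) * r := h.symm.gd.comm_PP hr (hC.ex_mem _)
  have h4 : r * ev (u 0) * r⁻¹ = ⁅r, ev (u 0)⁆ * ev (u 0) := by
    rw [commutatorElement_def]
    group
  have h5 : ⁅r, ev (u 0)⁆ ∈ X := h.symm.gd.commutator_mem hr (h.symm.le_PP (hC.ev_mem _))
  have h6 : ⁅r, ev (u 0)⁆ * ev (u 0) = ev (u 0) * ⁅r, ev (u 0)⁆ := h.gd.comm_PP (h.le_PP h5) (hC.ev_mem _)
  have e1 : r * (ev (u 0) * ex (u 1)) * r⁻¹ = (r * ev (u 0) * r⁻¹) * ((r * ex (u 1)) * r⁻¹) := by group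
  rw [e1, h3, mul_inv_cancel_right, h4, h6, mul_assoc]

theorem Pr.le_normalizer_sup' (h : Pr V X) : PP V ⊔ PP X ≤ normalizer ((V ⊔ X : Subgroup G) : Set G) := by
  rw [sup_le_iff]
  refine ⟨h.le_normalizer_sup, ?_⟩
  have h1 := h.symm.le_normalizer_sup
  rwa [sup_comm X V] at h1

theorem Coord.exists_mat (hC : Coord V X K ev ex) (h : Pr V X) {g : G} (hg : g ∈ PP V ⊔ PP X) :
    ∃ A : Matrix.SpecialLinearGroup (Fin 2) K, ∀ u, g * wv ev ex u * g⁻¹ =
      wv ev ex ((A : Matrix (Fin 2) (Fin 2) K).mulVec u) := by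
  let S : Subgroup G :=
    { carrier := {g | ∃ A : Matrix.SpecialLinearGroup (Fin 2) K, ∀ u, g * wv ev ex u * g⁻¹ =
        wv ev ex ((A : Matrix (Fin 2) (Fin 2) K).mulVec u)}
      one_mem' := by
        refine ⟨1, fun u => ?_⟩
        rw [Matrix.SpecialLinearGroup.coe_one, Matrix.one_mulVec]
        group
      mul_mem' := by
        rintro a b ⟨A, hA⟩ ⟨B, hB⟩
        refine ⟨A * B, fun u => ?_⟩
        rw [Matrix.SpecialLinearGroup.coe_mul, ← Matrix.mulVec_mulVec, ← hA, ← hB]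
        group
      inv_mem' := by
        rintro a ⟨A, hA⟩
        refine ⟨A⁻¹, fun u => ?_⟩
        have h1 := hA (((A⁻¹ : Matrix.SpecialLinearGroup (Fin 2) K) : Matrix (Fin 2) (Fin 2) K).mulVec u)
        rw [Matrix.mulVec_mulVec, ← Matrix.SpecialLinearGroup.coe_mul, mul_inv_cancel,
          Matrix.SpecialLinearGroup.coe_one, Matrix.one_mulVec] at h1
        rw [← h1]
        group }
  have h1 : PP V ⊔ PP X ≤ S := by
    rw [sup_le_iff]
    constructor
    · intro p hp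
      obtain ⟨a, ha⟩ := hC.pp p hp
      exact ⟨NatSL2.up a, hC.act_p h hp ha⟩
    · intro r hr
      obtain ⟨c, hc⟩ := hC.qq h r hr
      exact ⟨NatSL2.lo c, hC.act_r h hr hc⟩
  exact h1 hg

theorem Coord.mat_unique (hC : Coord V X K ev ex) (h : Pr V X) {g : G}
    {A B : Matrix.SpecialLinearGroup (Fin 2) K}
    (hA : ∀ u, g * wv ev ex u * g⁻¹ = wv ev ex ((A : Matrix (Fin 2) (Fin 2) K).mulVec u))
    (hB : ∀ u, g * wv ev ex u * g⁻¹ = wv ev ex ((B : Matrix (Fin 2) (Fin 2) K).mulVec u)) : A = B := by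
  apply Subtype.ext
  apply Matrix.mulVec_injective
  funext u
  exact hC.wv_inj h ((hA u).symm.trans (hB u))

theorem Coord.exists_hom (hC : Coord V X K ev ex) (h : Pr V X) :
    ∃ ρ : (PP V ⊔ PP X : Subgroup G) →* Matrix.SpecialLinearGroup (Fin 2) K, Function.Surjective ρ ∧
      ρ.ker = (centralizer ((V ⊔ X : Subgroup G) : Set G)).subgroupOf (PP V ⊔ PP X) := by
  choose f hf using fun g : (PP V ⊔ PP X : Subgroup G) => hC.exists_mat h g.2
  let ρ : (PP V ⊔ PP X : Subgroup G) →* Matrix.SpecialLinearGroup (Fin 2) K :=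
    { toFun := f
      map_one' := by
        refine hC.mat_unique h (g := 1) (hf 1) ?_
        intro u
        rw [Matrix.SpecialLinearGroup.coe_one, Matrix.one_mulVec]
        group
      map_mul' := by
        intro a b
        refine hC.mat_unique h (g := (a * b : G)) (hf (a * b)) ?_
        intro u
        rw [Matrix.SpecialLinearGroup.coe_mul, ← Matrix.mulVec_mulVec, ← hf, ← hf]
        group }
  have hρ : ∀ (g : (PP V ⊔ PP X : Subgroup G)) (u : Fin 2 → K), (g : G) * wv ev ex u * (g : G)⁻¹ = wv ev ex ((ρ g : Matrix (Fin 2) (Fin 2) K).mulVec u) := hf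
  refine ⟨ρ, ?_, ?_⟩
  · rw [← MonoidHom.range_eq_top, eq_top_iff, ← SL2Gen.closure_eq_top, Subgroup.closure_le]
    rintro _ (⟨a, rfl⟩ | ⟨c, rfl⟩)
    · obtain ⟨p, hp, hpa⟩ := hC.pp' a
      refine ⟨⟨p, Subgroup.mem_sup_left hp⟩, ?_⟩
      exact hC.mat_unique h (g := p) (hρ ⟨p, Subgroup.mem_sup_left hp⟩) (hC.act_p h hp hpa)
    · obtain ⟨r, hr, hrc⟩ := hC.qq' h c
      refine ⟨⟨r, Subgroup.mem_sup_right hr⟩, ?_⟩
      exact hC.mat_unique h (g := r) (hρ ⟨r, Subgroup.mem_sup_right hr⟩) (hC.act_r h hr hrc)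
  · ext g
    rw [MonoidHom.mem_ker, mem_subgroupOf, mem_centralizer_iff]
    constructor
    · intro hg w hw
      obtain ⟨v, hv, x, hx, rfl⟩ := h.mem_sup.1 hw
      obtain ⟨a, rfl⟩ := hC.ev_surj v hv
      obtain ⟨b, rfl⟩ := hC.ex_surj x hx
      have h1 := hρ g ![a, b]
      rw [hg, Matrix.SpecialLinearGroup.coe_one, Matrix.one_mulVec] at h1
      have h2 : wv ev ex ![a, b] = ev a * ex b := rfl
      rw [h2] at h1
      exact (mul_inv_eq_iff_eq_mul.1 h1).symm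
    · intro hg
      refine hC.mat_unique h (g := g) (hρ g) ?_
      intro u
      rw [Matrix.SpecialLinearGroup.coe_one, Matrix.one_mulVec]
      have h1 := hg (wv ev ex u) (mul_mem (Subgroup.mem_sup_left (hC.ev_mem _)) (Subgroup.mem_sup_right (hC.ex_mem _)))
      rw [← h1, mul_inv_cancel_right]

theorem Pr.exists_equiv (h : Pr V X)
    (hN : ((centralizer ((V ⊔ X : Subgroup G) : Set G)).subgroupOf (PP V ⊔ PP X)).Normal) :
    ∃ (F : Type) (_ : Field F) (_ : Fintype F), Fintype.card F = Nat.card V ∧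
      Nonempty ((PP V ⊔ PP X : Subgroup G) ⧸ (centralizer ((V ⊔ X : Subgroup G) : Set G)).subgroupOf (PP V ⊔ PP X) ≃*
        Matrix.SpecialLinearGroup (Fin 2) F) := by
  obtain ⟨K, _, _, ev, ex, hC, hcard⟩ := h.exists_coord
  obtain ⟨ρ, hρ, hker⟩ := hC.exists_hom h
  refine ⟨K, inferInstance, inferInstance, hcard, ⟨?_⟩⟩
  exact (QuotientGroup.quotientMulEquivOfEq hker.symm).trans (QuotientGroup.quotientKerEquivOfSurjective ρ hρ)

end H13.TI1
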